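import Mathlib
import Cfsg.Prelude.Def_LinearParabolics

/-!
# Definitions for the values of the Steinberg character of `GL_n(q)` at `p'`-elements (S2425)

* `blk S`, `ends n`: compositions of `n` encoded by their sets of block ends.
* `IsMoeb`, `chainSum`, `moeb`, `joinSum`: the Moebius function (from `⊥`) of a finite order.
* `resT`, `cp`, `HomT`: restriction of an endomorphism to an invariant subspace, its characteristic
  polynomial, equivariant maps between invariant subspaces.
* `Flags T S`: `T`-stable partial flags of type `S`.
* `phi`: the arithmetic function of the factorization of the characteristic polynomial.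
-/

set_option autoImplicit false

namespace Cfsg.Agent.H78.Sv

/-! ## Compositions from sets of block ends -/

/-- For a set `S` of block ends: the composition with value at `i ∈ S` the length of the block ending
at `i` (the distance to the previous element of `S`), and `0` off `S`. -/
def blk {n : ℕ} (S : Finset (Fin n)) (i : Fin n) : ℕ :=
  if i ∈ S then i.val + 1 - (S.filter (· < i)).sup (fun j => j.val + 1) else 0

/-- The admissible sets of block ends: those containing the last index. -/
def ends (n : ℕ) : Finset (Finset (Fin n)) :=
  Finset.univ.filter (fun S => ∀ i : Fin n, i.val + 1 = n → i ∈ S)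

/-! ## Moebius function of a finite order with bottom -/

open Classical in
/-- `m` is the Moebius function `μ(⊥, ·)`. -/
def IsMoeb {L : Type*} [PartialOrder L] [OrderBot L] [Fintype L] (m : L → ℤ) : Prop :=
  ∀ u : L, ∑ w : L, (if w ≤ u then m w else 0) = if u = ⊥ then 1 else 0

open Classical in
/-- Signed count of the chains contained in the open interval `(⊥, u)`. -/
noncomputable def chainSum {L : Type*} [PartialOrder L] [OrderBot L] [Fintype L] (u : L) : ℤ :=
  ∑ C : Finset L, if (IsChain (· ≤ ·) (C : Set L) ∧ ∀ w ∈ C, ⊥ < w ∧ w < u) then (-1 : ℤ) ^ C.card else 0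

open Classical in
/-- The Moebius function `μ(⊥, u)` via chains (Philip Hall). -/
noncomputable def moeb {L : Type*} [PartialOrder L] [OrderBot L] [Fintype L] (u : L) : ℤ :=
  if u = ⊥ then 1 else - chainSum u

open Classical in
/-- `∑_{w ⊔ a = u} m w`. -/
noncomputable def joinSum {L : Type*} [Lattice L] [Fintype L] (m : L → ℤ) (a u : L) : ℤ :=
  ∑ w : L, if w ⊔ a = u then m w else 0

/-- Relative complements exist. -/
def RelCompl (L : Type*) [Lattice L] [OrderBot L] : Prop :=
  ∀ W B : L, B ≤ W → ∃ w : L, w ⊔ B = W ∧ w ⊓ B = ⊥

/-! ## Invariant subspaces -/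

section inv

variable {F : Type*} [Field F] {V : Type*} [AddCommGroup V] [Module F V]

/-- The restriction of `T` to an invariant subspace. -/
def resT (T : Module.End F V) (W : ↥(Module.End.invtSubmodule T)) : Module.End F ↥W.1 :=
  T.restrict (p := W.1) (q := W.1) (fun _ hx => W.2 hx)

@[simp] theorem resT_apply (T : Module.End F V) (W : ↥(Module.End.invtSubmodule T)) (v : ↥W.1) :
    ((resT T W v : ↥W.1) : V) = T (v : V) := rfl

/-- The characteristic polynomial of `T` on an invariant subspace. -/
noncomputable def cp [FiniteDimensional F V] (T : Module.End F V)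
    (W : ↥(Module.End.invtSubmodule T)) : Polynomial F :=
  (resT T W).charpoly

/-- `T`-equivariant linear maps between invariant subspaces. -/
def HomT (T : Module.End F V) (U A : ↥(Module.End.invtSubmodule T)) : Type _ :=
  {φ : ↥U.1 →ₗ[F] ↥A.1 // ∀ u : ↥U.1, φ (resT T U u) = resT T A (φ u)}

/-- `T`-stable partial flags of type `S` (dimensions `s + 1`, `s ∈ S`) in `F^n`. -/
def Flags {n : ℕ} (T : Module.End F (Fin n → F)) (S : Finset (Fin n)) : Type _ :=
  {W : ↥S → ↥(Module.End.invtSubmodule T) //
    (∀ s : ↥S, Module.finrank F ↥(W s).1 = s.1.val + 1) ∧ Monotone W}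

end inv

/-! ## The arithmetic function -/

/-- `∏_f (-1)^((deg f - 1) m_f) q^(deg f · m_f (m_f - 1)/2)` over the normalized factors `f` of `g`
with multiplicities `m_f`. -/
noncomputable def phi {F : Type*} [Field F] [DecidableEq F] (q : ℕ) (g : Polynomial F) : ℤ :=
  ∏ f ∈ (UniqueFactorizationMonoid.normalizedFactors g).toFinset,
    (-1 : ℤ) ^ ((f.natDegree - 1) * (UniqueFactorizationMonoid.normalizedFactors g).count f) *
      (q : ℤ) ^ (f.natDegree * (UniqueFactorizationMonoid.normalizedFactors g).count f *
        ((UniqueFactorizationMonoid.normalizedFactors g).count f - 1) / 2)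

end Cfsg.Agent.H78.Sv
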