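import Cfsg.Agent.H23.StbHatDefs

/-!
# S2123 (outer automorphisms of `E₆(q)`): statements of the team-project pieces (helper78)

Sibling of helper23's S2125 (`E₈`) and S2124 (`E₇`): Steinberg's automorphism theorem with diagonal
automorphisms (`Ĥ = torusGroup D F`) **and a graph automorphism** `γ`.  Everything here is generic in
the datum `D`; the pieces of `Cfsg/Agent/H23/StbDefs.lean` and `StbHatDefs.lean` are reused as they are.
-/

set_option autoImplicit false

namespace Cfsg.Agent.H78.StbG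

open Cfsg.Lie Cfsg.Agent.H23 Cfsg.Agent.H23.Stb

universe u

/-- `γ ^ b` for a Boolean exponent. -/
def gpow {G : Type*} [Group G] (γ : G ≃* G) (b : Bool) : G ≃* G := bif b then γ else MulEquiv.refl G

theorem gpow_true {G : Type*} [Group G] (γ : G ≃* G) : gpow γ true = γ := rfl

theorem gpow_false {G : Type*} [Group G] (γ : G ≃* G) : gpow γ false = MulEquiv.refl G := rfl

/-- A graph automorphism `γ` of the Chevalley group with diagram symmetry `sig`: it maps
`x_{±α_i}(t)` to `x_{±α_{sig i}}(t)` and preserves `U` and `V`. -/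
structure GraphAut {D : ChevalleyDatum} {F : Type u} [Field F] {z : ℕ → ℕ → ℤ} (hS : Sem D F z)
    (sig : ℕ → ℕ) (γ : ↥(D.group F) ≃* ↥(D.group F)) : Prop where
  sig_lt : ∀ i < D.rank, sig i < D.rank
  sig_sig : ∀ i < D.rank, sig (sig i) = i
  pos : ∀ i < D.rank, ∀ t : F, γ (xG hS (D.simple i) t) = xG hS (D.simple (sig i)) t
  neg : ∀ i < D.rank, ∀ t : F, γ (xG hS (D.neg (D.simple i)) t) = xG hS (D.neg (D.simple (sig i))) t
  presU : Pres γ (D.posUnipotent F) (D.posUnipotent F)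
  presV : Pres γ (D.negUnipotent F) (D.negUnipotent F)

/-! ## Generic pieces -/

/-- **S2123-POSG**: an automorphism fixing `U` and `V` permutes the root subgroups of the fundamental roots,
when `w₀` maps `-α_i` to `α_{τ i}` (`τ` an involution of the nodes). -/
def StPosG : Prop :=
  ∀ (D : ChevalleyDatum) (F : Type u) [Field F] (z η : ℕ → ℕ → ℤ) (rT w0 : List ℕ)
    (hC : PackS D F z η rT w0) (θ : ↥(D.group F) ≃* ↥(D.group F)) (τ : ℕ → ℕ),
    (∀ i < D.rank, τ i < D.rank) → (∀ i < D.rank, τ (τ i) = i) →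
    (∀ i < D.rank, reflW D w0 (D.neg (D.simple i)) = D.simple (τ i)) →
    Pres θ (D.posUnipotent F) (D.posUnipotent F) → Pres θ (D.negUnipotent F) (D.negUnipotent F) →
    ∀ i < D.rank, ∃ j < D.rank, RootTo hC.hP.sem θ (D.simple i) (D.simple j)

/-- **S2123-MATCHG**: the permutations of the fundamental root subgroups and of their negatives induced by
an automorphism are one and the same injection `π`, and `π` preserves adjacency (MATCH without rigidity). -/
def StMatchG : Prop :=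
  ∀ (D : ChevalleyDatum) (F : Type u) [Field F] (z η : ℕ → ℕ → ℤ) (rT w0 : List ℕ)
    (hC : PackS D F z η rT w0) (θ : ↥(D.group F) ≃* ↥(D.group F)) (adj : ℕ → ℕ → Prop),
    (∀ i < D.rank, ∃ j < D.rank, RootTo hC.hP.sem θ (D.simple i) (D.simple j)) →
    (∀ i < D.rank, ∃ j < D.rank, RootTo hC.hP.sem θ (D.neg (D.simple i)) (D.neg (D.simple j))) →
    (∀ i < D.rank, ∀ j < D.rank, i ≠ j → ∀ t u : F,
      xU hC.hP.sem (D.simple j) u * xU hC.hP.sem (D.neg (D.simple i)) t =
        xU hC.hP.sem (D.neg (D.simple i)) t * xU hC.hP.sem (D.simple j) u) →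
    (∀ i < D.rank, ∀ j < D.rank, i ≠ j →
      ((∀ t u : F, xU hC.hP.sem (D.simple i) t * xU hC.hP.sem (D.simple j) u =
        xU hC.hP.sem (D.simple j) u * xU hC.hP.sem (D.simple i) t) ↔ ¬ adj i j)) →
    ∃ π : ℕ → ℕ, (∀ i < D.rank, π i < D.rank) ∧
      (∀ i < D.rank, ∀ j < D.rank, π i = π j → i = j) ∧
      (∀ i < D.rank, ∀ j < D.rank, i ≠ j → (adj (π i) (π j) ↔ adj i j)) ∧
      ∀ i < D.rank, RootTo hC.hP.sem θ (D.simple i) (D.simple (π i)) ∧
        RootTo hC.hP.sem θ (D.neg (D.simple i)) (D.neg (D.simple (π i)))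

/-- **S2123-ASM1G**: if the diagram has at most the symmetry `sig`, realised by a graph automorphism `γ`, then
every automorphism is, up to an inner automorphism and up to `γ`, one that maps the root subgroup of each
fundamental root and of its negative to itself, through additive bijections of the field. -/
def StAsm1G : Prop :=
  ∀ (D : ChevalleyDatum) (F : Type u) [Field F] [Finite F] (p : ℕ) [Fact p.Prime] (z η : ℕ → ℕ → ℤ)
    (rT w0 : List ℕ) (hC : PackS D F z η rT w0) (adj : ℕ → ℕ → Prop) (τ sig : ℕ → ℕ)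
    (γ : ↥(D.group F) ≃* ↥(D.group F)),
    (∃ P : Sylow p ↥(D.group F),
      (P : Subgroup ↥(D.group F)) = (D.posUnipotent F).subgroupOf (D.group F)) →
    (∀ i < D.rank, τ i < D.rank) → (∀ i < D.rank, τ (τ i) = i) →
    (∀ i < D.rank, reflW D w0 (D.neg (D.simple i)) = D.simple (τ i)) →
    (∀ i < D.rank, ∀ j < D.rank, i ≠ j → ∀ t u : F,
      xU hC.hP.sem (D.simple j) u * xU hC.hP.sem (D.neg (D.simple i)) t =
        xU hC.hP.sem (D.neg (D.simple i)) t * xU hC.hP.sem (D.simple j) u) →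
    (∀ i < D.rank, ∀ j < D.rank, i ≠ j →
      ((∀ t u : F, xU hC.hP.sem (D.simple i) t * xU hC.hP.sem (D.simple j) u =
        xU hC.hP.sem (D.simple j) u * xU hC.hP.sem (D.simple i) t) ↔ ¬ adj i j)) →
    (∀ π : ℕ → ℕ, (∀ i < D.rank, π i < D.rank) →
      (∀ i < D.rank, ∀ j < D.rank, π i = π j → i = j) →
      (∀ i < D.rank, ∀ j < D.rank, i ≠ j → (adj (π i) (π j) ↔ adj i j)) →
      (∀ i < D.rank, π i = i) ∨ (∀ i < D.rank, π i = sig i)) →
    GraphAut hC.hP.sem sig γ →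
    ∀ θ : ↥(D.group F) ≃* ↥(D.group F), ∃ (g : ↥(D.group F)) (b : Bool), ∀ i < D.rank, ∃ φ ψ : F ≃+ F,
      (∀ t : F, gpow γ b (conjL g θ (xG hC.hP.sem (D.simple i) t)) = xG hC.hP.sem (D.simple i) (φ t)) ∧
      (∀ t : F, gpow γ b (conjL g θ (xG hC.hP.sem (D.neg (D.simple i)) t)) =
        xG hC.hP.sem (D.neg (D.simple i)) (ψ t))

/-- **S2123-NUV**: an element of the group normalising `U` and `V` lies in `H`. -/
def StNUV : Prop :=
  ∀ (D : ChevalleyDatum) (F : Type u) [Field F] (z η : ℕ → ℕ → ℤ) (rT w0 : List ℕ)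
    (_ : PackS D F z η rT w0) (g : GL D.Idx F), g ∈ D.group F →
    (∀ x : GL D.Idx F, x ∈ D.posUnipotent F ↔ g * x * g⁻¹ ∈ D.posUnipotent F) →
    (∀ x : GL D.Idx F, x ∈ D.negUnipotent F ↔ g * x * g⁻¹ ∈ D.negUnipotent F) →
    g ∈ D.diagonalSubgroup F

/-- **S2123-TORUSPRES**: `Ĥ` normalises `U` and `V`. -/
def StTorusPres : Prop :=
  ∀ (D : ChevalleyDatum) (F : Type u) [Field F] (z : ℕ → ℕ → ℤ) (_ : Sem D F z) (k : GL D.Idx F),
    k ∈ torusGroup D F → ∀ x : GL D.Idx F,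
      (x ∈ D.posUnipotent F ↔ k * x * k⁻¹ ∈ D.posUnipotent F) ∧
      (x ∈ D.negUnipotent F ↔ k * x * k⁻¹ ∈ D.negUnipotent F)

/-- **S2123-FIELDPRES**: the entrywise action of a field automorphism preserves `U` and `V`. -/
def StFieldPres : Prop :=
  ∀ (D : ChevalleyDatum) (F : Type u) [Field F] (z : ℕ → ℕ → ℤ) (_ : Sem D F z) (σ : F ≃+* F)
    (x : GL D.Idx F),
      (x ∈ D.posUnipotent F ↔ glMap D (σ : F →+* F) x ∈ D.posUnipotent F) ∧
      (x ∈ D.negUnipotent F ↔ glMap D (σ : F →+* F) x ∈ D.negUnipotent F)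

/-- **S2123-NOTGAMMA**: a graph automorphism with a nontrivial diagram symmetry is not of the form
`α ∘ (inner)` with `α` preserving `U`, `V` and every fundamental root subgroup. -/
def StNotGamma : Prop :=
  ∀ (D : ChevalleyDatum) (F : Type u) [Field F] (z η : ℕ → ℕ → ℤ) (rT w0 : List ℕ)
    (hC : PackS D F z η rT w0) (sig : ℕ → ℕ) (γ : ↥(D.group F) ≃* ↥(D.group F)),
    GraphAut hC.hP.sem sig γ → (∃ i < D.rank, sig i ≠ i) →
    (∀ i < D.rank, ∀ j < D.rank, i ≠ j → ∀ t u : F,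
      xU hC.hP.sem (D.simple j) u * xU hC.hP.sem (D.neg (D.simple i)) t =
        xU hC.hP.sem (D.neg (D.simple i)) t * xU hC.hP.sem (D.simple j) u) →
    ∀ α : ↥(D.group F) ≃* ↥(D.group F),
    Pres α (D.posUnipotent F) (D.posUnipotent F) → Pres α (D.negUnipotent F) (D.negUnipotent F) →
    (∀ i < D.rank, RootTo hC.hP.sem α (D.simple i) (D.simple i)) →
    ∀ x : ↥(D.group F), ¬ (∀ y : ↥(D.group F), α (x * y * x⁻¹) = γ y)

/-- **S2123-FINALG**: if every automorphism is inner ∘ graph^b ∘ diagonal ∘ field, and the graph automorphism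
has a nontrivial diagram symmetry, then `|Out| · |H| = 2 · |Ĥ| · |Aut F|`. -/
def StFinalG : Prop :=
  ∀ (D : ChevalleyDatum) (F : Type u) [Field F] [Finite F] (z η : ℕ → ℕ → ℤ) (rT w0 : List ℕ)
    (hC : PackS D F z η rT w0) (sig : ℕ → ℕ) (γ : ↥(D.group F) ≃* ↥(D.group F)), 0 < D.rank →
    GraphAut hC.hP.sem sig γ → (∃ i < D.rank, sig i ≠ i) →
    (∀ i < D.rank, ∀ j < D.rank, i ≠ j → ∀ t u : F,
      xU hC.hP.sem (D.simple j) u * xU hC.hP.sem (D.neg (D.simple i)) t =
        xU hC.hP.sem (D.neg (D.simple i)) t * xU hC.hP.sem (D.simple j) u) →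
    (∀ θ : ↥(D.group F) ≃* ↥(D.group F), ∃ (g : ↥(D.group F)) (b : Bool), ∃ k ∈ torusGroup D F,
      ∃ σ : F ≃+* F, ∀ y : ↥(D.group F),
        k * ((gpow γ b (conjL g θ y) : ↥(D.group F)) : GL D.Idx F) * k⁻¹ =
          glMap D (σ : F →+* F) (y : GL D.Idx F)) →
    Nat.card (Cfsg.Out ↥(D.group F)) * Nat.card ↥(D.diagonalSubgroup F) =
      2 * (Nat.card ↥(torusGroup D F) * Nat.card (F ≃+* F))

end Cfsg.Agent.H78.StbG
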