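import Cfsg.Agent.H78.SelfCent

/-!
# Self-centralizing elements of prime order, part 2 (helper78)

Class count `t * [N_G(⟨x⟩) : ⟨x⟩] = p - 1`, Frattini argument, index of the commutator subgroup.
-/

set_option autoImplicit false
set_option linter.style.haveILetI false

namespace Cfsg.Agent.H78

open Subgroup
open scoped Pointwise commutatorElement

variable {G : Type*} [Group G]

/-- Any element of order `p` is conjugate to an element of `⟨x⟩`. -/
theorem SC.exists_conj_mem {p : ℕ} (hp : p.Prime) [Finite G] {x y : G} (h : SC p x)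
    (hy : orderOf y = p) : ∃ g : G, g * y * g⁻¹ ∈ zpowers x := by
  haveI := Fact.mk hp
  obtain ⟨P, hP⟩ := h.exists_sylow hp
  have hpg : IsPGroup p (zpowers y) :=
    IsPGroup.of_card (n := 1) (by rw [Nat.card_zpowers, hy, pow_one])
  obtain ⟨Q, hQ⟩ := hpg.exists_le_sylow
  obtain ⟨g, hg⟩ := MulAction.exists_smul_eq G Q P
  refine ⟨g, ?_⟩
  rw [← hP, ← hg]
  have h1 : ((g • Q : Sylow p G) : Subgroup G) = MulAut.conj g • (Q : Subgroup G) :=
    Sylow.coe_subgroup_smul
  rw [h1]
  exact Subgroup.smul_mem_pointwise_smul y (MulAut.conj g) Q (hQ (mem_zpowers y))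

theorem SC.mem_normalizer_of_conj_mem {p : ℕ} (hp : p.Prime) {x : G} (h : SC p x) {y g : G}
    (hy : y ∈ zpowers x) (hy1 : y ≠ 1) (hg : g * y * g⁻¹ ∈ zpowers x) :
    g ∈ normalizer (zpowers x : Set G) := by
  have h1 := (h.of_mem_zpowers hp hy hy1).2
  have hne : g * y * g⁻¹ ≠ 1 := by
    intro hh
    apply hy1
    have : y = g⁻¹ * (g * y * g⁻¹) * g := by group
    rw [this, hh]; group
  have h2 := (h.of_mem_zpowers hp hg hne).2
  have h3 : zpowers (g * y * g⁻¹) = (zpowers y).map (MulAut.conj g).toMonoidHom := by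
    rw [MonoidHom.map_zpowers]; rfl
  rw [h1, h2] at h3
  rw [mem_normalizer_iff]
  intro k
  constructor
  · intro hk
    rw [h3]
    exact ⟨k, hk, rfl⟩
  · intro hk
    rw [h3] at hk
    obtain ⟨k', hk', hkk⟩ := hk
    have hkk' : g * k' * g⁻¹ = g * k * g⁻¹ := hkk
    have : k' = k := by
      have := congrArg (fun z => g⁻¹ * z * g) hkk'
      simpa [mul_assoc] using this
    exact this ▸ hk'

/-- The number `t` of classes of elements of order `p` times `[N_G(⟨x⟩) : ⟨x⟩]` is `p - 1`. -/
theorem SC.card_classes {p : ℕ} (hp : p.Prime) [Finite G] {x : G} (h : SC p x) :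
    Nat.card {C : ConjClasses G // ∃ g ∈ C.carrier, orderOf g = p} *
      (zpowers x).relIndex (normalizer (zpowers x : Set G)) = p - 1 := by
  classical
  have hD : Nat.card {y : G // y ∈ zpowers x ∧ y ≠ 1} = p - 1 := by
    have h1 : {y : G | y ∈ zpowers x ∧ y ≠ 1} = (zpowers x : Set G) \ {1} := by
      ext y; simp
    have h2 : Nat.card {y : G // y ∈ zpowers x ∧ y ≠ 1}
        = Set.ncard {y : G | y ∈ zpowers x ∧ y ≠ 1} := rfl
    rw [h2, h1, Set.ncard_sdiff_singleton_of_mem (one_mem _)]
    have h3 : Set.ncard (zpowers x : Set G) = Nat.card (zpowers x) := rfl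
    rw [h3, h.card_zpowers]
  let φ : {y : G // y ∈ zpowers x ∧ y ≠ 1} →
      {C : ConjClasses G // ∃ g ∈ C.carrier, orderOf g = p} :=
    fun y => ⟨ConjClasses.mk y.1, y.1, ConjClasses.mem_carrier_mk,
      (h.of_mem_zpowers hp y.2.1 y.2.2).1.1⟩
  have hfib : ∀ c : {C : ConjClasses G // ∃ g ∈ C.carrier, orderOf g = p},
      Nat.card {y : {y : G // y ∈ zpowers x ∧ y ≠ 1} // φ y = c} =
        (zpowers x).relIndex (normalizer (zpowers x : Set G)) := by
    rintro ⟨C, g, hgC, hgo⟩
    obtain ⟨k, hk⟩ := h.exists_conj_mem hp hgo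
    have hy1 : k * g * k⁻¹ ≠ 1 := by
      intro hh
      have : g = 1 := by
        have : g = k⁻¹ * (k * g * k⁻¹) * k := by group
        rw [this, hh]; group
      rw [this, orderOf_one] at hgo
      exact hp.one_lt.ne hgo
    have hC : C = ConjClasses.mk (k * g * k⁻¹) := by
      rw [← ConjClasses.mem_carrier_iff_mk_eq.mp hgC, ConjClasses.mk_eq_mk_iff_isConj, isConj_iff]
      exact ⟨k, rfl⟩
    set y₀ := k * g * k⁻¹ with hy₀
    have hsc₀ := (h.of_mem_zpowers hp hk hy1)
    set N := normalizer (zpowers x : Set G) with hN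
    -- the map n ↦ n y₀ n⁻¹
    let f : N → {y : {y : G // y ∈ zpowers x ∧ y ≠ 1} // φ y = ⟨C, g, hgC, hgo⟩} := fun n =>
      ⟨⟨n * y₀ * (n : G)⁻¹, (mem_normalizer_iff.mp n.2 y₀).mp hk, by
        intro hh
        apply hy1
        have : y₀ = (n : G)⁻¹ * (n * y₀ * (n : G)⁻¹) * n := by group
        rw [this, hh]; group⟩, by
        apply Subtype.ext
        show ConjClasses.mk ((n : G) * y₀ * (n : G)⁻¹) = C
        rw [hC, ConjClasses.mk_eq_mk_iff_isConj, isConj_comm, isConj_iff]
        exact ⟨n, rfl⟩⟩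
    have hf_val : ∀ n : N, ((f n).1.1 : G) = n * y₀ * (n : G)⁻¹ := fun n => rfl
    have hwell : ∀ a b : N, (QuotientGroup.leftRel ((zpowers x).subgroupOf N)) a b → f a = f b := by
      intro a b hab
      rw [QuotientGroup.leftRel_apply, mem_subgroupOf] at hab
      apply Subtype.ext; apply Subtype.ext
      rw [hf_val, hf_val]
      have hc : ((a : G)⁻¹ * b) * y₀ = y₀ * ((a : G)⁻¹ * b) := by
        have : ((a⁻¹ * b : N) : G) ∈ centralizer ({y₀} : Set G) := by
          rw [hsc₀.1.2, hsc₀.2]; exact hab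
        rw [mem_centralizer_singleton_iff] at this
        simpa using this
      calc (a : G) * y₀ * (a : G)⁻¹ = a * (y₀ * ((a : G)⁻¹ * b)) * (b : G)⁻¹ := by group
        _ = a * (((a : G)⁻¹ * b) * y₀) * (b : G)⁻¹ := by rw [hc]
        _ = b * y₀ * (b : G)⁻¹ := by group
    let F : N ⧸ (zpowers x).subgroupOf N →
        {y : {y : G // y ∈ zpowers x ∧ y ≠ 1} // φ y = ⟨C, g, hgC, hgo⟩} :=
      Quotient.lift (s := QuotientGroup.leftRel ((zpowers x).subgroupOf N)) f hwell
    have hFbij : Function.Bijective F := by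
      constructor
      · intro q₁ q₂
        induction q₁ using QuotientGroup.induction_on with
        | H a =>
          induction q₂ using QuotientGroup.induction_on with
          | H b =>
            intro hab
            have hab' : f a = f b := hab
            have h1 : (a : G) * y₀ * (a : G)⁻¹ = b * y₀ * (b : G)⁻¹ := by
              rw [← hf_val, ← hf_val, hab']
            rw [QuotientGroup.eq, mem_subgroupOf]
            have h2 : ((a⁻¹ * b : N) : G) ∈ centralizer ({y₀} : Set G) := by
              rw [mem_centralizer_singleton_iff]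
              show ((a : G)⁻¹ * b) * y₀ = y₀ * ((a : G)⁻¹ * b)
              calc ((a : G)⁻¹ * b) * y₀ = (a : G)⁻¹ * (b * y₀ * (b : G)⁻¹) * b := by group
                _ = (a : G)⁻¹ * (a * y₀ * (a : G)⁻¹) * b := by rw [h1]
                _ = y₀ * ((a : G)⁻¹ * b) := by group
            rw [hsc₀.1.2, hsc₀.2] at h2
            exact h2
      · rintro ⟨⟨y, hyX, hy1'⟩, hyc⟩
        have h1 : ConjClasses.mk y = C := congrArg Subtype.val hyc
        rw [hC, ConjClasses.mk_eq_mk_iff_isConj, isConj_comm, isConj_iff] at h1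
        obtain ⟨n, hn⟩ := h1
        have hnN : n ∈ N := h.mem_normalizer_of_conj_mem hp hk hy1 (hn ▸ hyX)
        refine ⟨QuotientGroup.mk ⟨n, hnN⟩, ?_⟩
        apply Subtype.ext; apply Subtype.ext
        exact hn
    have := Nat.card_congr (Equiv.ofBijective F hFbij)
    rw [← this]
    rfl
  haveI : Fintype {C : ConjClasses G // ∃ g ∈ C.carrier, orderOf g = p} := Fintype.ofFinite _
  rw [← hD, Nat.card_congr (Equiv.sigmaFiberEquiv φ).symm, Nat.card_sigma]
  simp only [hfib]
  rw [Finset.sum_const, Finset.card_univ, smul_eq_mul, Nat.card_eq_fintype_card]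

/-- Frattini argument for a normal subgroup containing an element of order `p`. -/
theorem SC.frattini {p : ℕ} (hp : p.Prime) [Finite G] {x : G} (h : SC p x)
    (S : Subgroup G) [S.Normal] {y : G} (hyS : y ∈ S) (hy : orderOf y = p) :
    normalizer (zpowers y : Set G) ⊔ S = ⊤ := by
  haveI := Fact.mk hp
  have hsc : SC p y := h.of_orderOf hp hy
  have hy' : orderOf (⟨y, hyS⟩ : S) = p := by
    rw [← Subgroup.orderOf_coe]; exact hy
  have hpg : IsPGroup p (zpowers (⟨y, hyS⟩ : S)) :=
    IsPGroup.of_card (n := 1) (by rw [Nat.card_zpowers, hy', pow_one])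
  obtain ⟨P, hP⟩ := hpg.exists_le_sylow
  have hQ : ((P : Subgroup S).map S.subtype) = zpowers y := by
    apply hsc.eq_zpowers_of_isPGroup hp (P.2.map S.subtype)
    exact ⟨⟨y, hyS⟩, hP (mem_zpowers _), rfl⟩
  have hfr := Sylow.normalizer_sup_eq_top P
  rw [hQ] at hfr
  exact hfr

theorem SC.index_commutator_le {p : ℕ} (hp : p.Prime) [Finite G] {x : G} (h : SC p x)
    (hne : (zpowers x).relIndex (normalizer (zpowers x : Set G)) ≠ 1) :
    zpowers x ≤ commutator G ∧
    (commutator G).index ≤ (zpowers x).relIndex (normalizer (zpowers x : Set G)) := by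
  set N := normalizer (zpowers x : Set G) with hN
  have h1 : ¬ N ≤ zpowers x := fun hle => hne (relIndex_eq_one.mpr hle)
  obtain ⟨n, hnN, hnX⟩ := SetLike.not_le_iff_exists.mp h1
  have hc1 : n * x * n⁻¹ ∈ zpowers x := (mem_normalizer_iff.mp hnN x).mp (mem_zpowers x)
  have hc : ⁅n, x⁆ ∈ zpowers x := by
    rw [commutatorElement_def]
    exact (zpowers x).mul_mem hc1 ((zpowers x).inv_mem (mem_zpowers x))
  have hc_ne : ⁅n, x⁆ ≠ 1 := by
    intro hh
    apply hnX
    rw [← h.2, mem_centralizer_singleton_iff]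
    rw [commutatorElement_eq_one_iff_mul_comm] at hh
    exact hh
  have hcG : ⁅n, x⁆ ∈ commutator G := by
    rw [_root_.commutator_def]
    exact commutator_mem_commutator (mem_top _) (mem_top _)
  obtain ⟨hsc, hz⟩ := h.of_mem_zpowers hp hc hc_ne
  have hfr := h.frattini hp (commutator G) hcG hsc.1
  rw [hz] at hfr
  have hXG : zpowers x ≤ commutator G := by
    rw [← hz, zpowers_le]; exact hcG
  refine ⟨hXG, ?_⟩
  have h2 : (commutator G).index = (commutator G).relIndex N := by
    rw [← relIndex_top_right, ← hfr, relIndex_sup_right]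
  rw [h2]
  apply relIndex_le_of_le_left hXG
  intro h0
  have := relIndex_dvd_card (zpowers x) N
  rw [h0, zero_dvd_iff] at this
  exact Nat.card_pos.ne' this

theorem SC.index_commutator_eq {p : ℕ} (hp : p.Prime) [Finite G] {x : G} (h : SC p x)
    (he : (zpowers x).relIndex (normalizer (zpowers x : Set G)) = 1) :
    (commutator G).index = p ∧ ¬ p ∣ Nat.card (commutator G) := by
  haveI := Fact.mk hp
  obtain ⟨P, hP⟩ := h.exists_sylow hp
  have hle : normalizer (zpowers x : Set G) ≤ zpowers x := relIndex_eq_one.mp he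
  have hcomm : zpowers x ≤ centralizer (zpowers x : Set G) := by
    rw [zpowers_le, mem_centralizer_iff]
    intro k hk
    obtain ⟨i, rfl⟩ := mem_zpowers_iff.mp hk
    exact ((Commute.refl x).zpow_left i).eq
  have hPN : normalizer (P : Set G) ≤ centralizer (P : Set G) := by
    have : ((P : Subgroup G) : Set G) = (zpowers x : Set G) := by rw [hP]
    show normalizer ((P : Subgroup G) : Set G) ≤ centralizer ((P : Subgroup G) : Set G)
    rw [this]
    exact hle.trans hcomm
  have hnd := MonoidHom.not_dvd_card_ker_transferSylow P hPN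
  have hker : commutator G ≤ (MonoidHom.transferSylow P hPN).ker := by
    rw [_root_.commutator_def, Subgroup.commutator_le]
    intro a _ b _
    rw [MonoidHom.mem_ker, map_commutatorElement, commutatorElement_eq_one_iff_mul_comm]
    generalize (MonoidHom.transferSylow P hPN) a = u
    generalize (MonoidHom.transferSylow P hPN) b = v
    apply Subtype.ext
    have := hPN (le_normalizer u.2) v v.2
    exact this.symm
  have hnd' : ¬ p ∣ Nat.card (commutator G) := fun hd => hnd (hd.trans (card_dvd_of_le hker))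
  refine ⟨?_, hnd'⟩
  have hq := h.quotient hp (commutator G) hnd'
  have htop : centralizer ({(QuotientGroup.mk x : G ⧸ commutator G)} : Set (G ⧸ commutator G))
      = ⊤ := by
    rw [eq_top_iff]
    intro q _
    rw [mem_centralizer_singleton_iff]
    induction q using QuotientGroup.induction_on with
    | H a =>
      rw [← QuotientGroup.mk_mul, ← QuotientGroup.mk_mul, QuotientGroup.eq]
      have : (a * x)⁻¹ * (x * a) = ⁅x⁻¹, a⁻¹⁆ := by
        rw [commutatorElement_def]; group
      rw [this, _root_.commutator_def]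
      exact commutator_mem_commutator (mem_top _) (mem_top _)
  rw [hq.2] at htop
  have h3 : (commutator G).index = Nat.card (G ⧸ commutator G) := rfl
  rw [h3, ← Subgroup.card_top, ← htop, hq.card_zpowers]

end Cfsg.Agent.H78
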