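import Cfsg.Agent.H78.StbE6Defs
import Cfsg.Agent.H23.Cell3

/-!
# S2123 (outer automorphisms of `E₆(q)`): assembly of the team-project pieces (helper78)
-/

set_option autoImplicit false

namespace Cfsg.Agent.H78.StbG

open Cfsg.Lie Cfsg.Agent.H23 Cfsg.Agent.H23.Stb

universe u

/-! ### Generation by the fundamental root elements (generic; copied from `H23/Gens.lean`, whose imports pull
all the tables) -/

section Gen

variable {D : ChevalleyDatum} {F : Type*} [Field F] {z η : ℕ → ℕ → ℤ}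

/-- The subgroup generated by the root elements of the fundamental roots and of their negatives. -/
def fundGenG (D : ChevalleyDatum) (F : Type*) [Field F] : Subgroup (GL D.Idx F) :=
  Subgroup.closure {g | ∃ (i : ℕ) (t : F), i < D.rank ∧
    ((g : Matrix D.Idx D.Idx F) = D.x F (D.simple i) t ∨
      (g : Matrix D.Idx D.Idx F) = D.x F (D.neg (D.simple i)) t)}

theorem xU_simple_mem_fundGenG (hS : Sem D F z) (i : ℕ) (hi : i < D.rank) (t : F) :
    xU hS (D.simple i) t ∈ fundGenG D F :=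
  Subgroup.subset_closure ⟨i, t, hi, Or.inl rfl⟩

theorem xU_neg_simple_mem_fundGenG (hS : Sem D F z) (i : ℕ) (hi : i < D.rank) (t : F) :
    xU hS (D.neg (D.simple i)) t ∈ fundGenG D F :=
  Subgroup.subset_closure ⟨i, t, hi, Or.inr rfl⟩

theorem nU_simple_mem_fundGenG (hS : Sem D F z) (i : ℕ) (hi : i < D.rank) (a : F) :
    nU hS (D.simple i) a ∈ fundGenG D F := by
  rw [nU_eq]
  exact Subgroup.mul_mem _ (Subgroup.mul_mem _ (xU_simple_mem_fundGenG hS i hi _)
    (xU_neg_simple_mem_fundGenG hS i hi _)) (xU_simple_mem_fundGenG hS i hi _)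

theorem nWU_mem_fundGenG (hS : Sem D F z) (w : List ℕ) (hw : ∀ i ∈ w, i < D.rank) :
    nWU hS w ∈ fundGenG D F := by
  unfold nWU
  apply Subgroup.list_prod_mem
  intro g hg
  simp only [List.mem_map] at hg
  obtain ⟨i, hi, rfl⟩ := hg
  exact nU_simple_mem_fundGenG hS i (hw i hi) 1

theorem xU_mem_fundGenG (hS : Sem D F z) (hN : SemN D F η) (hT : Tab D) (r : ℕ) (hr : r < D.nroots)
    (t : F) : xU hS r t ∈ fundGenG D F := by
  obtain ⟨w, hw, j, hj, e⟩ := exists_word_to_simple hT r hr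
  obtain ⟨c, hc, h⟩ := nWU_conj hS hN hT w hw r hr
  have h1 := h t
  rw [e] at h1
  have h2 : xU hS r t = (nWU hS w)⁻¹ * xU hS (D.simple j) (c * t) * nWU hS w := by
    rw [← h1]; group
  rw [h2]
  have hn := nWU_mem_fundGenG hS w hw
  exact Subgroup.mul_mem _ (Subgroup.mul_mem _ (Subgroup.inv_mem _ hn)
    (xU_simple_mem_fundGenG hS j hj _)) hn

theorem fundGenG_eq_group (hS : Sem D F z) (hN : SemN D F η) (hT : Tab D) :
    fundGenG D F = D.group F := by
  apply le_antisymm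
  · unfold fundGenG
    rw [Subgroup.closure_le]
    rintro g ⟨i, t, _, hg | hg⟩
    · rw [eq_xU hS g _ t hg]; exact xU_mem_group hS _ _
    · rw [eq_xU hS g _ t hg]; exact xU_mem_group hS _ _
  · unfold ChevalleyDatum.group
    rw [Subgroup.closure_le]
    rintro g ⟨r, t, hg⟩
    have : g = xU hS r.val t := eq_xU hS g r.val t (by rw [hg, ChevalleyDatum.x, dif_pos r.isLt])
    rw [this]
    exact xU_mem_fundGenG hS hN hT r.val r.isLt t

/-- Two endomorphisms of the Chevalley group agreeing on the root elements of the fundamental roots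
and of their negatives are equal. -/
theorem hom_ext_fundG (hS : Sem D F z) (hN : SemN D F η) (hT : Tab D)
    {M : Type*} [Monoid M] (a b : ↥(D.group F) →* M)
    (h : ∀ (g : ↥(D.group F)) (i : ℕ) (t : F), i < D.rank →
      (((g : GL D.Idx F) : Matrix D.Idx D.Idx F) = D.x F (D.simple i) t ∨
        ((g : GL D.Idx F) : Matrix D.Idx D.Idx F) = D.x F (D.neg (D.simple i)) t) → a g = b g) :
    a = b := by
  have key : fundGenG D F ≤ (a.eqLocus b).map (D.group F).subtype := by
    unfold fundGenG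
    rw [Subgroup.closure_le]
    rintro k ⟨i, t, hi, hk⟩
    have hkG : k ∈ D.group F := by
      rcases hk with hk | hk
      · rw [eq_xU hS k _ t hk]; exact xU_mem_group hS _ _
      · rw [eq_xU hS k _ t hk]; exact xU_mem_group hS _ _
    exact ⟨⟨k, hkG⟩, h ⟨k, hkG⟩ i t hi hk, rfl⟩
  ext y
  obtain ⟨k, hk, e⟩ := key (by rw [fundGenG_eq_group hS hN hT]; exact y.2)
  have : k = y := Subtype.ext e
  rw [← this]; exact hk

end Gen

/-- `|Out(E₆(q))| = 2 · gcd(3, q - 1) · f`, from the pieces. -/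
theorem e6_out_of_pieces
    (hAsm1G : StAsm1G.{u}) (hAsm2H : StAsm2H.{u}) (hFinalG : StFinalG.{u}) (hHatCard : StHatCard.{u})
    (hGal : StGal.{u})
    (hGraph : StE6Graph.{u}) (hW0 : StE6W0) (hC2 : StE6C2.{u}) (hAdj : StE6Adj.{u}) (hDiag : StE6Diag)
    (hCoord : StE6Coord) (hConn : StE6Conn) (hSyl : StE6Syl.{u}) (hCardH : StE6CardH.{u})
    {F : Type u} [Field F] [Fintype F] (p f : ℕ) [Fact p.Prime] [CharP F p]
    (hF : Fintype.card F = p ^ f) :
    Nat.card (Cfsg.Out ↥(chevE6.group F)) = 2 * Nat.gcd 3 (p ^ f - 1) * f := by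
  have hC := packS_E6 F
  obtain ⟨γ, hγ⟩ := hGraph F
  obtain ⟨m, hm⟩ := hCoord
  have hrank : 0 < chevE6.rank := by decide
  have hsig : ∃ i < chevE6.rank, sigE6 i ≠ i := ⟨0, by decide, by decide⟩
  have hS : Sem chevE6 F zE6 := (packS_E6 F).hP.sem
  -- generation by the fundamental root elements
  have hgen : ∀ a b : ↥(chevE6.group F) →* ↥(chevE6.group F),
      (∀ i < chevE6.rank, ∀ t : F,
        a (xG (packS_E6 F).hP.sem (chevE6.simple i) t) = b (xG (packS_E6 F).hP.sem (chevE6.simple i) t) ∧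
        a (xG (packS_E6 F).hP.sem (chevE6.neg (chevE6.simple i)) t) =
          b (xG (packS_E6 F).hP.sem (chevE6.neg (chevE6.simple i)) t)) → a = b := by
    intro a b hab
    apply hom_ext_fundG (packS_E6 F).hP.sem (packS_E6 F).hP.semN (packS_E6 F).hP.tab a b
    intro g i t hi hg
    rcases hg with hg | hg
    · have e : g = xG (packS_E6 F).hP.sem (chevE6.simple i) t :=
        Subtype.ext (eq_xU (packS_E6 F).hP.sem (g : GL chevE6.Idx F) _ t hg)
      rw [e]; exact (hab i hi t).1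
    · have e : g = xG (packS_E6 F).hP.sem (chevE6.neg (chevE6.simple i)) t :=
        Subtype.ext (eq_xU (packS_E6 F).hP.sem (g : GL chevE6.Idx F) _ t hg)
      rw [e]; exact (hab i hi t).2
  -- Steinberg's theorem for `E₆`
  have hSt : ∀ θ : ↥(chevE6.group F) ≃* ↥(chevE6.group F), ∃ (g : ↥(chevE6.group F)) (b : Bool),
      ∃ k ∈ torusGroup chevE6 F, ∃ σ : F ≃+* F, ∀ y : ↥(chevE6.group F),
        k * ((gpow γ b (conjL g θ y) : ↥(chevE6.group F)) : GL chevE6.Idx F) * k⁻¹ =
          glMap chevE6 (σ : F →+* F) (y : GL chevE6.Idx F) := by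
    intro θ
    obtain ⟨g, b, hfix⟩ := hAsm1G chevE6 F p zE6 ηE6 rTE6 w0E6 (packS_E6 F) adjE6 sigE6 sigE6 γ
      (hSyl F p) hγ.sig_lt hγ.sig_sig hW0 (hC2 F) (hAdj F) hDiag hγ θ
    obtain ⟨k, hk, σ, hkσ⟩ := hAsm2H chevE6 F zE6 ηE6 rTE6 w0E6 (packS_E6 F) m hm hrank hConn.1
      hConn.2 hgen ((conjL g θ).trans (gpow γ b)) hfix
    exact ⟨g, b, k, hk, σ, hkσ⟩
  have hcount := hFinalG chevE6 F zE6 ηE6 rTE6 w0E6 (packS_E6 F) sigE6 γ hrank hγ hsig (hC2 F) hSt
  have h1 := hHatCard chevE6 F zE6 ηE6 (packB_E6 F) m hm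
  have h2 := hGal F p f (by rw [Nat.card_eq_fintype_card, hF])
  have h3 := hCardH F
  rw [h1, h2, Nat.card_eq_fintype_card (α := F), hF] at hcount
  rw [hF] at h3
  have hHpos : 0 < Nat.card ↥(chevE6.diagonalSubgroup F) := Nat.card_pos
  have e : Nat.card (Cfsg.Out ↥(chevE6.group F)) * Nat.card ↥(chevE6.diagonalSubgroup F) =
      (2 * Nat.gcd 3 (p ^ f - 1) * f) * Nat.card ↥(chevE6.diagonalSubgroup F) := by
    rw [hcount, ← h3]; ring
  exact Nat.eq_of_mul_eq_mul_right hHpos e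

end Cfsg.Agent.H78.StbG
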