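import Cfsg.Agent.H78.OdDefs
import Cfsg.Agent.H42.CharDiag

/-!
# S2608, the half `m = 4`: piece OD-DA1 (helper78, parallel take)
-/

set_option autoImplicit false

namespace Cfsg.Agent.H78.Od

open Cfsg Cfsg.Lie Cfsg.Agent.H23 Cfsg.Agent.H23.Stb Cfsg.Agent.H13.D4N

universe u

/-- **OD-DA1**. -/
theorem dA1 : StDA1.{u} := by
  intro F _ d hd
  have hS : Sem chevD4 F zD4 := (packS_D4 F).hP.sem
  have hT := (packS_D4 F).hP.tab
  obtain ⟨χ, hχ, hdχ⟩ := hd
  have hact : ∀ r < chevD4.nroots, ∀ t : F, d (xG hS r t) = xG hS r ((χ r : F) * t) := by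
    intro r hr t
    apply eq_xG hS
    rw [hdχ (xG hS r t)]
    have h1 : (((xG hS r t : ↥(chevD4.group F)) : GL chevD4.Idx F) : Matrix chevD4.Idx chevD4.Idx F) =
        chevD4.x F r t := xU_val hS r t
    rw [h1]
    exact Cfsg.Agent.H42.charDiag_conj _ Cfsg.Agent.H42.chainOK_D4 χ hχ r hr t
  refine ⟨fun i => (χ (chevD4.simple i) : F), fun i _ => Units.ne_zero _, ?_⟩
  intro i hi t
  have hl := hT.simple_lt i hi
  refine ⟨hact _ hl t, ?_⟩
  rw [hact _ (hT.neg_lt _ hl) t, hχ.1 _ hl, Units.val_inv_eq_inv_val]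

example : StDA1.{u} := dA1

end Cfsg.Agent.H78.Od
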