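import Cfsg.Agent.H78.OdDefs
import Cfsg.Agent.H13.D4NotInnD

/-!
# S2608, the half `m = 4`: piece OD-NI, from helper13's `d4_notInn_diag` (helper78)
-/

set_option autoImplicit false

namespace Cfsg.Agent.H78.Od

open Cfsg Cfsg.Lie Cfsg.Agent.H23 Cfsg.Agent.H23.Stb Cfsg.Agent.H13.D4N

universe u

/-- **OD-NI**. -/
theorem nI : StNI.{u} := by
  intro F _ d g f hd hg hf h
  obtain ⟨x, hx⟩ := h
  have hx' : ∀ y : ↥(chevD4.group F), d (g (f y)) = x * y * x⁻¹ := by
    intro y
    have := congrArg (fun φ : MulAut ↥(chevD4.group F) => φ y) hx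
    exact this.symm
  exact Cfsg.Agent.H13.D4N.d4_notInn_diag F d g f hd hg hf x hx'

example : StNI.{u} := nI

end Cfsg.Agent.H78.Od
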