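import Cfsg.Agent.H78.StbGrDefs
import Cfsg.Agent.H23.OrdE6
import Cfsg.Agent.H23.GraphE6

/-!
# S2123 (outer automorphisms of `E₆(q)`): the `E₆` pack and the statements of the `E₆` table pieces
(helper78)

Closure: the generic engine `Cfsg/Agent/H23` + the `E₆` tables only (`H23.OrdE6`, `H23.GraphE6`).
-/

set_option autoImplicit false

namespace Cfsg.Agent.H78.StbG

open Cfsg.Lie Cfsg.Agent.H23 Cfsg.Agent.H23.Stb

universe u

/-- The exponent functions of type `E₆`. -/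
abbrev zE6 : ℕ → ℕ → ℤ := zR chevE6 ctblE6

/-- The signs of type `E₆`. -/
abbrev ηE6 : ℕ → ℕ → ℤ := fun i s => etaBit (etaE6.getD i 0) s

theorem tabL_E6' : TabL chevE6 rTE6 where
  one := by decide +kernel
  lin := by decide +kernel
  pos := by decide +kernel
  neg := by decide +kernel

theorem packB_E6 (F : Type u) [Field F] : PackB chevE6 F zE6 ηE6 :=
  ⟨chk_E6.sem F, nconj_E6.semN chk_E6.tblOK F, comm_E6.semC chk_E6.tblOK F, tab_E6, tabC_E6,
    etaNeg_E6, tab2_E6⟩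

/-- The pack of table facts for `E₆`. -/
theorem packS_E6 (F : Type u) [Field F] : PackS chevE6 F zE6 ηE6 rTE6 w0E6 :=
  ⟨packB_E6 F, trin_E6.semV chk_E6.tblOK F, tabT_E6, tabL_E6', tabW_E6⟩

/-- The symmetry of the `E₆` diagram: `0 ↔ 5`, `2 ↔ 4`, `1` and `3` fixed. -/
def sigE6 (i : ℕ) : ℕ := sigE6a.getD i 0

/-- Adjacency in the `E₆` diagram. -/
def adjE6 (i j : ℕ) : Prop := zE6 (chevE6.simple j) (chevE6.simple i) = -1

/-! ## The `E₆` pieces -/

/-- **S2123-E6GRAPH**: the graph automorphism of `E₆`. -/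
def StE6Graph : Prop :=
  ∀ (F : Type u) [Field F], ∃ γ : ↥(chevE6.group F) ≃* ↥(chevE6.group F),
    GraphAut (packS_E6 F).hP.sem sigE6 γ

/-- **S2123-E6W0**: the longest element maps `-α_i` to `α_{σ i}`. -/
def StE6W0 : Prop :=
  ∀ i < chevE6.rank, reflW chevE6 w0E6 (chevE6.neg (chevE6.simple i)) = chevE6.simple (sigE6 i)

/-- **S2123-E6C2**: `x_{α_j}(u)` and `x_{-α_i}(t)` commute for `i ≠ j`. -/
def StE6C2 : Prop :=
  ∀ (F : Type u) [Field F], ∀ i < chevE6.rank, ∀ j < chevE6.rank, i ≠ j → ∀ t u : F,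
    xU (packS_E6 F).hP.sem (chevE6.simple j) u * xU (packS_E6 F).hP.sem (chevE6.neg (chevE6.simple i)) t =
      xU (packS_E6 F).hP.sem (chevE6.neg (chevE6.simple i)) t * xU (packS_E6 F).hP.sem (chevE6.simple j) u

/-- **S2123-E6ADJ**: `X_{α_i}` and `X_{α_j}` commute exactly when `i`, `j` are not adjacent. -/
def StE6Adj : Prop :=
  ∀ (F : Type u) [Field F], ∀ i < chevE6.rank, ∀ j < chevE6.rank, i ≠ j →
    ((∀ t u : F, xU (packS_E6 F).hP.sem (chevE6.simple i) t * xU (packS_E6 F).hP.sem (chevE6.simple j) u =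
      xU (packS_E6 F).hP.sem (chevE6.simple j) u * xU (packS_E6 F).hP.sem (chevE6.simple i) t) ↔
        ¬ adjE6 i j)

/-- **S2123-E6DIAG**: the symmetries of the `E₆` diagram are the identity and `σ`. -/
def StE6Diag : Prop :=
  ∀ π : ℕ → ℕ, (∀ i < chevE6.rank, π i < chevE6.rank) →
    (∀ i < chevE6.rank, ∀ j < chevE6.rank, π i = π j → i = j) →
    (∀ i < chevE6.rank, ∀ j < chevE6.rank, i ≠ j → (adjE6 (π i) (π j) ↔ adjE6 i j)) →
    (∀ i < chevE6.rank, π i = i) ∨ (∀ i < chevE6.rank, π i = sigE6 i)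

/-- **S2123-E6COORD**: coordinate functions for `E₆`. -/
def StE6Coord : Prop := ∃ m : ℕ → ℕ → ℤ, Coord chevE6 m

/-- **S2123-E6CONN**: the `E₆` diagram is connected. -/
def StE6Conn : Prop :=
  (∀ i < chevE6.rank, ∃ j < chevE6.rank, zE6 (chevE6.simple j) (chevE6.simple i) = -1) ∧
  (∀ P : ℕ → Prop, P 0 →
    (∀ i < chevE6.rank, ∀ j < chevE6.rank, zE6 (chevE6.simple j) (chevE6.simple i) = -1 → P i → P j) →
    ∀ i < chevE6.rank, P i)

/-- **S2123-E6SYL**: `U` is a Sylow `p`-subgroup of `E₆(q)` in characteristic `p`. -/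
def StE6Syl : Prop :=
  ∀ (F : Type u) [Field F] [Fintype F] (p : ℕ) [Fact p.Prime] [CharP F p],
    ∃ P : Sylow p ↥(chevE6.group F),
      (P : Subgroup ↥(chevE6.group F)) = (chevE6.posUnipotent F).subgroupOf (chevE6.group F)

/-- **S2123-E6CARDH**: `gcd(3, q - 1) · |H| = (q - 1)^6`. -/
def StE6CardH : Prop :=
  ∀ (F : Type u) [Field F] [Fintype F],
    Nat.gcd 3 (Fintype.card F - 1) * Nat.card ↥(chevE6.diagonalSubgroup F) =
      (Fintype.card F - 1) ^ chevE6.rank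

end Cfsg.Agent.H78.StbG
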