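import Cfsg.Agent.H13.D4Graph
import Cfsg.Prelude.Def_KGroupFacts

/-!
# S2608, the half `m = 4` (`Out(D₄(q)) ≅ S₄ × C_f`, `q = p^f` odd): statements of the team-project pieces
(helper78)

Nodes of the `D₄` diagram are numbered from 0; node 1 is the central node, nodes 0, 2, 3 the outer ones.
`DiagAct F d c`: the automorphism `d` maps `x_{α_i}(t)` to `x_{α_i}(c_i t)` and `x_{-α_i}(t)` to
`x_{-α_i}(c_i⁻¹ t)`.  Such a `d` is inner iff `c₀ c₂` and `c₀ c₃` are squares; so the diagonal automorphisms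
give a four-group `D̄` in `Out`, permuted faithfully by the six graph automorphisms, and centralised by the field
automorphisms: `Out = (D̄ ⋊ S₃) × C_f ≅ S₄ × C_f`.
-/

set_option autoImplicit false

namespace Cfsg.Agent.H78.Od

open Cfsg Cfsg.Lie Cfsg.Agent.H23 Cfsg.Agent.H23.Stb Cfsg.Agent.H13.D4N

universe u

/-- `d` acts on the root elements of the fundamental roots and of their negatives through the non-zero scalars
`c i` (`i < 4`). -/
def DiagAct (F : Type u) [Field F] (d : ↥(chevD4.group F) ≃* ↥(chevD4.group F)) (c : ℕ → F) : Prop :=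
  (∀ i < chevD4.rank, c i ≠ 0) ∧ ∀ i < chevD4.rank, ∀ t : F,
    d (xG (packS_D4 F).hP.sem (chevD4.simple i) t) = xG (packS_D4 F).hP.sem (chevD4.simple i) (c i * t) ∧
    d (xG (packS_D4 F).hP.sem (chevD4.neg (chevD4.simple i)) t) =
      xG (packS_D4 F).hP.sem (chevD4.neg (chevD4.simple i)) ((c i)⁻¹ * t)

/-- **OD-DA1**: a diagonal automorphism acts through scalars on the fundamental root elements. -/
def StDA1 : Prop :=
  ∀ (F : Type u) [Field F] (d : ↥(chevD4.group F) ≃* ↥(chevD4.group F)),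
    chevD4.IsDiagonalAut d → ∃ c : ℕ → F, DiagAct F d c

/-- **OD-DA2**: every family of non-zero scalars on the four nodes comes from a diagonal automorphism. -/
def StDA2 : Prop :=
  ∀ (F : Type u) [Field F] (c : ℕ → F), (∀ i < chevD4.rank, c i ≠ 0) →
    ∃ d : ↥(chevD4.group F) ≃* ↥(chevD4.group F), chevD4.IsDiagonalAut d ∧ DiagAct F d c

/-- **OD-INN1**: if `c₀ c₂` and `c₀ c₃` are squares, the automorphism is inner (conjugation by an element of `H`). -/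
def StInn1 : Prop :=
  ∀ (F : Type u) [Field F] (d : ↥(chevD4.group F) ≃* ↥(chevD4.group F)) (c : ℕ → F),
    DiagAct F d c → IsSquare (c 0 * c 2) → IsSquare (c 0 * c 3) → d ∈ Cfsg.Inn ↥(chevD4.group F)

/-- **OD-INN2**: if the automorphism is inner, then `c₀ c₂` and `c₀ c₃` are squares. -/
def StInn2 : Prop :=
  ∀ (F : Type u) [Field F] (d : ↥(chevD4.group F) ≃* ↥(chevD4.group F)) (c : ℕ → F),
    DiagAct F d c → d ∈ Cfsg.Inn ↥(chevD4.group F) → IsSquare (c 0 * c 2) ∧ IsSquare (c 0 * c 3)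

/-- **OD-DG**: the diagonal automorphisms form a commutative group all of whose squares are inner. -/
def StDG : Prop :=
  ∀ (F : Type u) [Field F],
    chevD4.IsDiagonalAut (1 : MulAut ↥(chevD4.group F)) ∧
    (∀ d d' : MulAut ↥(chevD4.group F), chevD4.IsDiagonalAut d → chevD4.IsDiagonalAut d' →
      chevD4.IsDiagonalAut (d * d')) ∧
    (∀ d : MulAut ↥(chevD4.group F), chevD4.IsDiagonalAut d → chevD4.IsDiagonalAut d⁻¹) ∧
    (∀ d d' : MulAut ↥(chevD4.group F), chevD4.IsDiagonalAut d → chevD4.IsDiagonalAut d' →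
      d * d' = d' * d) ∧
    (∀ d : MulAut ↥(chevD4.group F), chevD4.IsDiagonalAut d → d * d ∈ Cfsg.Inn ↥(chevD4.group F))

/-- **OD-FOUR**: over a finite field of odd characteristic the diagonal automorphisms fall into exactly four
classes modulo the inner ones. -/
def StFour : Prop :=
  ∀ (F : Type u) [Field F] [Finite F], (2 : F) ≠ 0 →
    ∃ a b : MulAut ↥(chevD4.group F), chevD4.IsDiagonalAut a ∧ chevD4.IsDiagonalAut b ∧
      a ∉ Cfsg.Inn ↥(chevD4.group F) ∧ b ∉ Cfsg.Inn ↥(chevD4.group F) ∧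
      a * b⁻¹ ∉ Cfsg.Inn ↥(chevD4.group F) ∧
      ∀ d : MulAut ↥(chevD4.group F), chevD4.IsDiagonalAut d →
        d ∈ Cfsg.Inn ↥(chevD4.group F) ∨ d * a⁻¹ ∈ Cfsg.Inn ↥(chevD4.group F) ∨
        d * b⁻¹ ∈ Cfsg.Inn ↥(chevD4.group F) ∨ d * (a * b)⁻¹ ∈ Cfsg.Inn ↥(chevD4.group F)

/-- **OD-GN**: graph automorphisms normalise the diagonal ones. -/
def StGN : Prop :=
  ∀ (F : Type u) [Field F] (g d : MulAut ↥(chevD4.group F)),
    chevD4.IsGraphAut g → chevD4.IsDiagonalAut d → chevD4.IsDiagonalAut (g * d * g⁻¹)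

/-- **OD-FAITH**: over a finite field of odd characteristic a non-trivial graph automorphism moves the class of
some diagonal automorphism. -/
def StFaith : Prop :=
  ∀ (F : Type u) [Field F] [Finite F], (2 : F) ≠ 0 →
    ∀ g : MulAut ↥(chevD4.group F), chevD4.IsGraphAut g → g ≠ 1 →
    ∃ d : MulAut ↥(chevD4.group F), chevD4.IsDiagonalAut d ∧
      g * d * g⁻¹ * d⁻¹ ∉ Cfsg.Inn ↥(chevD4.group F)

/-- **OD-FD**: over a finite field of odd characteristic the field automorphisms centralise the diagonal ones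
modulo inner automorphisms. -/
def StFD : Prop :=
  ∀ (F : Type u) [Field F] [Finite F], (2 : F) ≠ 0 →
    ∀ f d : MulAut ↥(chevD4.group F), chevD4.IsFieldAut f → chevD4.IsDiagonalAut d →
      f * d * f⁻¹ * d⁻¹ ∈ Cfsg.Inn ↥(chevD4.group F)

/-- **OD-NI**: diagonal ∘ graph ∘ field is inner only if the graph and the field automorphism are trivial. -/
def StNI : Prop :=
  ∀ (F : Type u) [Field F] (d g f : MulAut ↥(chevD4.group F)),
    chevD4.IsDiagonalAut d → chevD4.IsGraphAut g → chevD4.IsFieldAut f →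
    d * g * f ∈ Cfsg.Inn ↥(chevD4.group F) → g = 1 ∧ f = 1

/-- **OD-S4** (pure group theory): a group `V ⋊ S` with `|V| = 4`, `|S| = 6` and `S` acting faithfully on `V`
is the symmetric group of degree 4. -/
def StS4 : Prop :=
  ∀ (Q : Type u) [Group Q] [Finite Q] (V S : Subgroup Q),
    Nat.card ↥V = 4 → Nat.card ↥S = 6 → (∀ s ∈ S, ∀ v ∈ V, s * v * s⁻¹ ∈ V) → V ⊓ S = ⊥ →
    (∀ s ∈ S, (∀ v ∈ V, s * v = v * s) → s = 1) →
    Nonempty (↥(V ⊔ S) ≃* Equiv.Perm (Fin 4))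

/-- **OD-ABS** (pure group theory): the structure of `A ⧸ I` from a decomposition `A = I · Dg · Φ(S₃) · Ψ(C)`. -/
def StAbs : Prop :=
  ∀ (A : Type u) [Group A] [Finite A] (I : Subgroup A) [I.Normal] (C : Type u) [Group C] (f : ℕ)
    (Dg : Set A) (Φ : Equiv.Perm (Fin 3) →* A) (Ψ : C →* A),
    IsCyclic C → Nat.card C = f → 1 ≤ f →
    (1 : A) ∈ Dg → (∀ d ∈ Dg, ∀ d' ∈ Dg, d * d' ∈ Dg) → (∀ d ∈ Dg, d⁻¹ ∈ Dg) →
    (∀ d ∈ Dg, ∀ d' ∈ Dg, d * d' = d' * d) → (∀ d ∈ Dg, d * d ∈ I) →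
    (∃ a ∈ Dg, ∃ b ∈ Dg, a ∉ I ∧ b ∉ I ∧ a * b⁻¹ ∉ I ∧
      ∀ d ∈ Dg, d ∈ I ∨ d * a⁻¹ ∈ I ∨ d * b⁻¹ ∈ I ∨ d * (a * b)⁻¹ ∈ I) →
    (∀ ρ : Equiv.Perm (Fin 3), ∀ d ∈ Dg, Φ ρ * d * (Φ ρ)⁻¹ ∈ Dg) →
    (∀ ρ : Equiv.Perm (Fin 3), ρ ≠ 1 → ∃ d ∈ Dg, Φ ρ * d * (Φ ρ)⁻¹ * d⁻¹ ∉ I) →
    (∀ σ : C, ∀ d ∈ Dg, Ψ σ * d * (Ψ σ)⁻¹ * d⁻¹ ∈ I) →
    (∀ (σ : C) (ρ : Equiv.Perm (Fin 3)), Ψ σ * Φ ρ = Φ ρ * Ψ σ) →
    (∀ d ∈ Dg, ∀ (ρ : Equiv.Perm (Fin 3)) (σ : C), d * Φ ρ * Ψ σ ∈ I → ρ = 1 ∧ σ = 1) →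
    (∀ θ : A, ∃ i ∈ I, ∃ d ∈ Dg, ∃ (ρ : Equiv.Perm (Fin 3)) (σ : C), θ = i * d * Φ ρ * Ψ σ) →
    Nonempty (A ⧸ I ≃* Equiv.Perm (Fin 4) × Multiplicative (ZMod f))

/-- The target: `Out(D₄(q)) ≅ S₄ × C_f` for `q = p^f` odd. -/
def StMain : Prop :=
  ∀ (F : Type u) [Field F] [Fintype F] (p f : ℕ) [Fact p.Prime], 1 ≤ f → Fintype.card F = p ^ f → p ≠ 2 →
    Nonempty (Cfsg.Out ↥(chevD4.group F) ≃* Equiv.Perm (Fin 4) × Multiplicative (ZMod f))

end Cfsg.Agent.H78.Od
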