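/-
Arithmetic for the index-three case of the Brauer–Leonard analysis (helper78).
-/
import Mathlib

set_option autoImplicit false

namespace Cfsg.Agent.H78.BM

/-- The sign pattern forced by the three relations between signed degrees `u` and signed
involution values `v`. -/
theorem arith_signs (u₂ u₃ u₄ v₂ v₃ v₄ : ℤ)
    (hu : 1 + u₂ + u₃ + u₄ = 0) (hv : 1 + v₂ + v₃ + v₄ = 0)
    (hE : u₂ * u₃ * u₄ + v₂ ^ 2 * u₃ * u₄ + v₃ ^ 2 * u₂ * u₄ + v₄ ^ 2 * u₂ * u₃ = 0)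
    (hs2 : 0 < (u₂ - v₂) * u₂) (hs3 : 0 < (u₃ - v₃) * u₃) (hs4 : 0 < (u₄ - v₄) * u₄) :
    (u₂ < 0 ∧ u₃ < 0 ∧ 0 < u₄) ∨ (u₂ < 0 ∧ 0 < u₃ ∧ u₄ < 0) ∨ (0 < u₂ ∧ u₃ < 0 ∧ u₄ < 0) := by
  obtain ⟨s₂, hs₂⟩ : ∃ s : ℤ, s = u₂ - v₂ := ⟨_, rfl⟩
  obtain ⟨s₃, hs₃⟩ : ∃ s : ℤ, s = u₃ - v₃ := ⟨_, rfl⟩
  obtain ⟨s₄, hs₄⟩ : ∃ s : ℤ, s = u₄ - v₄ := ⟨_, rfl⟩
  rw [← hs₂] at hs2
  rw [← hs₃] at hs3
  rw [← hs₄] at hs4
  have hsum : s₂ + s₃ + s₄ = 0 := by rw [hs₂, hs₃, hs₄]; linarith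
  have hE' : s₂ ^ 2 * u₃ * u₄ + s₃ ^ 2 * u₂ * u₄ + s₄ ^ 2 * u₂ * u₃ = 0 := by
    have e2 : v₂ = u₂ - s₂ := by rw [hs₂]; ring
    have e3 : v₃ = u₃ - s₃ := by rw [hs₃]; ring
    have e4 : v₄ = u₄ - s₄ := by rw [hs₄]; ring
    rw [e2, e3, e4] at hE
    have h4 : u₄ = -1 - u₂ - u₃ := by linarith
    have h5 : s₄ = -s₂ - s₃ := by linarith
    rw [h4, h5] at hE ⊢
    linear_combination hE
  have hu2 : u₂ ≠ 0 := by rintro h; rw [h, mul_zero] at hs2; exact lt_irrefl _ hs2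
  have hu3 : u₃ ≠ 0 := by rintro h; rw [h, mul_zero] at hs3; exact lt_irrefl _ hs3
  have hu4 : u₄ ≠ 0 := by rintro h; rw [h, mul_zero] at hs4; exact lt_irrefl _ hs4
  have hs20 : s₂ ≠ 0 := by rintro h; rw [h, zero_mul] at hs2; exact lt_irrefl _ hs2
  have hs30 : s₃ ≠ 0 := by rintro h; rw [h, zero_mul] at hs3; exact lt_irrefl _ hs3
  have hs40 : s₄ ≠ 0 := by rintro h; rw [h, zero_mul] at hs4; exact lt_irrefl _ hs4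
  -- the general one-negative contradiction
  have key : ∀ a b c sa sb sc : ℤ, 1 + a + b + c = 0 → sa + sb + sc = 0 →
      sa ^ 2 * b * c + sb ^ 2 * a * c + sc ^ 2 * a * b = 0 → a < 0 → 0 < b → 0 < c →
      sb ≠ 0 → False := by
    intro a b c sa sb sc h1 h2 h3 ha hb hc hsb
    have e1 : a = -1 - b - c := by linarith
    have e2 : sa = -sb - sc := by linarith
    rw [e1, e2] at h3
    have h4 : sb ^ 2 * c + sc ^ 2 * b + (sb * c - sc * b) ^ 2 = 0 := by linear_combination -h3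
    have h5 : 0 < sb ^ 2 * c := by positivity
    have h6 : 0 ≤ sc ^ 2 * b := by positivity
    have h7 : 0 ≤ (sb * c - sc * b) ^ 2 := by positivity
    linarith
  rcases lt_or_gt_of_ne hu2 with n2 | p2 <;> rcases lt_or_gt_of_ne hu3 with n3 | p3 <;>
    rcases lt_or_gt_of_ne hu4 with n4 | p4
  · -- all negative
    exfalso
    have h1 : 0 < s₂ ^ 2 * (u₃ * u₄) := by
      have := mul_pos_of_neg_of_neg n3 n4
      positivity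
    have h2 : 0 < s₃ ^ 2 * (u₂ * u₄) := by
      have := mul_pos_of_neg_of_neg n2 n4
      positivity
    have h3 : 0 < s₄ ^ 2 * (u₂ * u₃) := by
      have := mul_pos_of_neg_of_neg n2 n3
      positivity
    nlinarith
  · exact Or.inl ⟨n2, n3, p4⟩
  · exact Or.inr (Or.inl ⟨n2, p3, n4⟩)
  · exfalso
    exact key u₂ u₃ u₄ s₂ s₃ s₄ hu hsum hE' n2 p3 p4 hs30
  · exact Or.inr (Or.inr ⟨p2, n3, n4⟩)
  · exfalso
    refine key u₃ u₂ u₄ s₃ s₂ s₄ (by linarith) (by linarith) (by linear_combination hE') n3 p2 p4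
      hs20
  · exfalso
    refine key u₄ u₂ u₃ s₄ s₂ s₃ (by linarith) (by linarith) (by linear_combination hE') n4 p2 p3
      hs20
  · exfalso
    linarith

/-- The product of the signed degrees is a perfect square. -/
theorem arith_square (u₂ u₃ u₄ v₂ v₃ v₄ : ℤ)
    (hu : 1 + u₂ + u₃ + u₄ = 0) (hv : 1 + v₂ + v₃ + v₄ = 0)
    (hE : u₂ * u₃ * u₄ + v₂ ^ 2 * u₃ * u₄ + v₃ ^ 2 * u₂ * u₄ + v₄ ^ 2 * u₂ * u₃ = 0)
    (hs4 : u₄ - v₄ ≠ 0) :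
    IsSquare (u₂ * u₃ * u₄) := by
  obtain ⟨s₂, hs₂⟩ : ∃ s : ℤ, s = u₂ - v₂ := ⟨_, rfl⟩
  obtain ⟨s₃, hs₃⟩ : ∃ s : ℤ, s = u₃ - v₃ := ⟨_, rfl⟩
  obtain ⟨s₄, hs₄⟩ : ∃ s : ℤ, s = u₄ - v₄ := ⟨_, rfl⟩
  rw [← hs₄] at hs4
  have e2 : v₂ = u₂ - s₂ := by rw [hs₂]; ring
  have e3 : v₃ = u₃ - s₃ := by rw [hs₃]; ring
  have e4 : v₄ = u₄ - s₄ := by rw [hs₄]; ring
  have h4 : u₄ = -1 - u₂ - u₃ := by linarith
  have h5 : s₄ = -s₂ - s₃ := by rw [hs₂, hs₃, hs₄]; linarith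
  have hid : u₂ * u₃ * u₄ * s₄ ^ 2 = ((s₂ * u₃ - s₃ * u₂) * u₄) ^ 2 := by
    rw [e2, e3, e4] at hE
    rw [h5, h4] at hE ⊢
    linear_combination (1 + u₂ + u₃) * (u₂ + u₃) * hE
  rw [← Rat.isSquare_intCast_iff]
  refine ⟨(((s₂ * u₃ - s₃ * u₂) * u₄ : ℤ) : ℚ) / (s₄ : ℚ), ?_⟩
  have hs4' : (s₄ : ℚ) ≠ 0 := by exact_mod_cast hs4
  have hid' : ((u₂ * u₃ * u₄ : ℤ) : ℚ) * (s₄ : ℚ) ^ 2 =
      (((s₂ * u₃ - s₃ * u₂) * u₄ : ℤ) : ℚ) ^ 2 := by exact_mod_cast hid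
  rw [div_mul_div_comm, eq_div_iff (mul_ne_zero hs4' hs4')]
  linear_combination hid'

end Cfsg.Agent.H78.BM
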