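import Cfsg.Agent.H78.BrauerFowler

/-!
# The Brauer–Fowler inequalities (helper78)
-/

set_option autoImplicit false
set_option linter.unusedSectionVars false
set_option linter.style.haveILetI false

namespace Cfsg.Agent.H78

open Module

universe u

variable {G : Type u} [Group G] [Fintype G]

attribute [local instance] Cfsg.Agent.H4.fintypeIrr

/-- Brauer–Fowler: with `t ≥ 1` involutions, some nonprincipal real irreducible character has
degree at most `(|G| - 1) / t`; stated over `ℕ`. -/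
theorem exists_real_irr_degree_le (t : ℕ) (ht : Nat.card {x : G // orderOf x = 2} = t)
    (ht1 : 1 ≤ t) :
    ∃ χ ∈ realIrr G, Cfsg.charDegree χ.1 * t + 1 ≤ Nat.card G := by
  classical
  by_contra hcon
  push Not at hcon
  have htD : t ≤ ∑ χ ∈ realIrr G, Cfsg.charDegree χ.1 := ht ▸ card_involutions_le
  have hQg : (∑ χ ∈ realIrr G, Cfsg.charDegree χ.1 ^ 2) + 1 ≤ Nat.card G := sum_realIrr_sq_le
  have h1 : Nat.card G * ∑ χ ∈ realIrr G, Cfsg.charDegree χ.1 ≤
      t * ∑ χ ∈ realIrr G, Cfsg.charDegree χ.1 ^ 2 := by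
    rw [Finset.mul_sum, Finset.mul_sum]
    apply Finset.sum_le_sum
    intro χ hχ
    have := hcon χ hχ
    have h2 : Nat.card G ≤ Cfsg.charDegree χ.1 * t := by omega
    calc Nat.card G * Cfsg.charDegree χ.1 ≤ (Cfsg.charDegree χ.1 * t) * Cfsg.charDegree χ.1 :=
          Nat.mul_le_mul_right _ h2
      _ = t * Cfsg.charDegree χ.1 ^ 2 := by ring
  have h3 : t * ∑ χ ∈ realIrr G, Cfsg.charDegree χ.1 ^ 2 < t * Nat.card G :=
    Nat.mul_lt_mul_of_pos_left (by omega) (by omega)
  have h4 : t * Nat.card G ≤ Nat.card G * ∑ χ ∈ realIrr G, Cfsg.charDegree χ.1 := by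
    rw [mul_comm]
    exact Nat.mul_le_mul_left _ htD
  omega

/-- Brauer–Fowler: with `t ≥ 1` involutions in a group of order `g ≥ 2`, some non-identity element
`x` satisfies `(g - 1)^2 |C(x)| ≥ g t^2`, i.e. its class has at most `((g-1)/t)^2` elements. -/
theorem exists_centralizer_large (t : ℕ) (ht : Nat.card {x : G // orderOf x = 2} = t)
    (hg2 : 2 ≤ Nat.card G) :
    ∃ x : G, x ≠ 1 ∧
      Nat.card G * t ^ 2 ≤ (Nat.card G - 1) ^ 2 * Nat.card (Subgroup.centralizer ({x} : Set G)) := by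
  classical
  by_contra hcon
  push Not at hcon
  have htD : t ≤ ∑ χ ∈ realIrr G, Cfsg.charDegree χ.1 := ht ▸ card_involutions_le
  have hQg : (∑ χ ∈ realIrr G, Cfsg.charDegree χ.1 ^ 2) + 1 ≤ Nat.card G := sum_realIrr_sq_le
  have hRk : (realIrr G).card + 1 ≤ Nat.card (ConjClasses G) := card_realIrr_le
  have hCS : (∑ χ ∈ realIrr G, Cfsg.charDegree χ.1) ^ 2 ≤
      (realIrr G).card * ∑ χ ∈ realIrr G, Cfsg.charDegree χ.1 ^ 2 := sq_sum_le_card_mul_sum_sq
  obtain ⟨g', hg'⟩ : ∃ g', Nat.card G = g' + 1 := ⟨Nat.card G - 1, by omega⟩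
  obtain ⟨k', hk'⟩ : ∃ k', Nat.card (ConjClasses G) = k' + 1 :=
    ⟨Nat.card (ConjClasses G) - 1, by omega⟩
  have hg'1 : 1 ≤ g' := by omega
  rw [hg'] at hcon hQg
  rw [hk'] at hRk
  simp only [Nat.add_sub_cancel] at hcon
  -- sum over the non-identity elements
  have hne : (Finset.univ.erase (1 : G)).Nonempty := by
    rw [← Finset.card_pos, Finset.card_erase_of_mem (Finset.mem_univ _), Finset.card_univ,
      ← Nat.card_eq_fintype_card, hg']
    omega
  have hsum : ∑ x ∈ Finset.univ.erase (1 : G),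
      g' ^ 2 * Nat.card (Subgroup.centralizer ({x} : Set G)) <
      ∑ x ∈ Finset.univ.erase (1 : G), (g' + 1) * t ^ 2 := by
    apply Finset.sum_lt_sum_of_nonempty hne
    intro x hx
    exact hcon x (Finset.ne_of_mem_erase hx)
  rw [Finset.sum_const, Finset.card_erase_of_mem (Finset.mem_univ _), Finset.card_univ,
    ← Nat.card_eq_fintype_card, hg', Nat.add_sub_cancel, ← Finset.mul_sum, smul_eq_mul] at hsum
  have hc1 : Nat.card (Subgroup.centralizer ({(1 : G)} : Set G)) = g' + 1 := by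
    have : Subgroup.centralizer ({(1 : G)} : Set G) = ⊤ := by
      rw [eq_top_iff]
      intro x _
      rw [Subgroup.mem_centralizer_singleton_iff]
      simp
    rw [this, Subgroup.card_top, hg']
  have hsumc : ∑ x ∈ Finset.univ.erase (1 : G), Nat.card (Subgroup.centralizer ({x} : Set G))
      = k' * (g' + 1) := by
    have h1 := sum_card_centralizer (G := G)
    rw [← Finset.add_sum_erase Finset.univ _ (Finset.mem_univ (1 : G)), hc1, hk', hg'] at h1
    have h2 : (k' + 1) * (g' + 1) = (g' + 1) + k' * (g' + 1) := by ring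
    omega
  rw [hsumc] at hsum
  -- `t^2 ≤ k' g'`
  have hle : t ^ 2 ≤ k' * g' := by
    calc t ^ 2 ≤ (∑ χ ∈ realIrr G, Cfsg.charDegree χ.1) ^ 2 := Nat.pow_le_pow_left htD 2
      _ ≤ (realIrr G).card * ∑ χ ∈ realIrr G, Cfsg.charDegree χ.1 ^ 2 := hCS
      _ ≤ k' * g' := Nat.mul_le_mul (by omega) (by omega)
  have h5 : g' * ((g' + 1) * t ^ 2) ≤ g' * ((g' + 1) * (k' * g')) :=
    Nat.mul_le_mul_left _ (Nat.mul_le_mul_left _ hle)
  have h6 : g' * ((g' + 1) * (k' * g')) = g' ^ 2 * (k' * (g' + 1)) := by ring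
  omega

end Cfsg.Agent.H78
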