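import Mathlib
import Cfsg.Prelude.Def_Blocks
import Cfsg.Agent.H81.Reg
import Cfsg.Agent.H80.Basic

set_option autoImplicit false

namespace Cfsg.Agent.H78

open Cfsg
open scoped ComplexConjugate

universe u

section Comm

variable {G : Type u} [Group G]

/-- The total number of triples `(z, a, b)` with `a z a⁻¹ · b z⁻¹ b⁻¹ = y`, via characters. -/
theorem sum_card_conj_pairs [Fintype G] [DecidableEq G] (y : G) :
    ∑ z : G, ((Finset.univ.filter (fun ab : G × G =>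
        ab.1 * z * ab.1⁻¹ * (ab.2 * z⁻¹ * ab.2⁻¹) = y)).card : ℂ) =
      (Nat.card G : ℂ) * (Nat.card G : ℂ) *
        ∑ᶠ χ : IrrCharacter G, (χ : G → ℂ) y⁻¹ / (χ : G → ℂ) 1 := by
  classical
  have : Finite (IrrCharacter G) := Cfsg.Agent.H80.irr_finite G
  letI : Fintype (IrrCharacter G) := Fintype.ofFinite _
  have hG : (Nat.card G : ℂ) ≠ 0 := by exact_mod_cast Nat.card_pos.ne'
  have h1 : ∀ z : G, ((Finset.univ.filter (fun ab : G × G =>
        ab.1 * z * ab.1⁻¹ * (ab.2 * z⁻¹ * ab.2⁻¹) = y)).card : ℂ) =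
      (Nat.card G : ℂ) * ∑ χ : IrrCharacter G,
        (χ : G → ℂ) z * (χ : G → ℂ) z⁻¹ * (χ : G → ℂ) y⁻¹ / (χ : G → ℂ) 1 := by
    intro z
    rw [Cfsg.Agent.H81.card_conj_pairs (Cfsg.Agent.H81.regIdentity G) z y,
      finsum_eq_sum_of_fintype]
  rw [Finset.sum_congr rfl (fun z _ => h1 z), ← Finset.mul_sum, Finset.sum_comm,
    finsum_eq_sum_of_fintype, mul_assoc]
  congr 1
  rw [Finset.mul_sum]
  apply Finset.sum_congr rfl
  intro χ _
  have h2 := Cfsg.Agent.H80.irr_orthogonality χ χ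
  rw [if_pos rfl] at h2
  have h3 : ∑ g : G, (χ : G → ℂ) g * (χ : G → ℂ) g⁻¹ = (Nat.card G : ℂ) := by
    have h4 : (Nat.card G : ℂ) * ((Nat.card G : ℂ)⁻¹ * ∑ g : G, (χ : G → ℂ) g * (χ : G → ℂ) g⁻¹)
        = (Nat.card G : ℂ) * 1 := by rw [h2]
    rw [← mul_assoc, mul_inv_cancel₀ hG, one_mul, mul_one] at h4
    exact h4
  rw [← h3, Finset.sum_mul]
  apply Finset.sum_congr rfl
  intro z _
  ring

/-- Commutator criterion (with `y⁻¹` in the character sum). -/
theorem isCommutator_iff_aux [Finite G] (y : G) :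
    (∃ a b : G, y = a * b * a⁻¹ * b⁻¹) ↔
      ∑ᶠ χ : IrrCharacter G, (χ : G → ℂ) y⁻¹ / (χ : G → ℂ) 1 ≠ 0 := by
  classical
  letI : Fintype G := Fintype.ofFinite G
  have hG : (Nat.card G : ℂ) ≠ 0 := by exact_mod_cast Nat.card_pos.ne'
  have hsum := sum_card_conj_pairs y
  constructor
  · rintro ⟨a, b, hab⟩ hzero
    rw [hzero, mul_zero] at hsum
    have hnn : ∀ z ∈ (Finset.univ : Finset G), (0 : ℝ) ≤ ((Finset.univ.filter (fun ab : G × G =>
        ab.1 * z * ab.1⁻¹ * (ab.2 * z⁻¹ * ab.2⁻¹) = y)).card : ℝ) := fun z _ => Nat.cast_nonneg _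
    have hsumR : ∑ z : G, ((Finset.univ.filter (fun ab : G × G =>
        ab.1 * z * ab.1⁻¹ * (ab.2 * z⁻¹ * ab.2⁻¹) = y)).card : ℝ) = 0 := by
      have : ((∑ z : G, ((Finset.univ.filter (fun ab : G × G =>
        ab.1 * z * ab.1⁻¹ * (ab.2 * z⁻¹ * ab.2⁻¹) = y)).card : ℝ) : ℝ) : ℂ) = 0 := by
        push_cast
        exact hsum
      exact_mod_cast this
    have hb := (Finset.sum_eq_zero_iff_of_nonneg hnn).mp hsumR b (Finset.mem_univ _)
    have hb' : (Finset.univ.filter (fun ab : G × G =>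
        ab.1 * b * ab.1⁻¹ * (ab.2 * b⁻¹ * ab.2⁻¹) = y)).card = 0 := by exact_mod_cast hb
    rw [Finset.card_eq_zero] at hb'
    have hmem : ((a, 1) : G × G) ∈ (Finset.univ.filter (fun ab : G × G =>
        ab.1 * b * ab.1⁻¹ * (ab.2 * b⁻¹ * ab.2⁻¹) = y)) := by
      simp only [Finset.mem_filter, Finset.mem_univ, true_and]
      rw [hab]; group
    rw [hb'] at hmem
    exact absurd hmem (Finset.notMem_empty _)
  · intro hne
    by_contra hno
    apply hne
    have hall : ∀ z : G, ((Finset.univ.filter (fun ab : G × G =>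
        ab.1 * z * ab.1⁻¹ * (ab.2 * z⁻¹ * ab.2⁻¹) = y)).card : ℂ) = 0 := by
      intro z
      have : (Finset.univ.filter (fun ab : G × G =>
        ab.1 * z * ab.1⁻¹ * (ab.2 * z⁻¹ * ab.2⁻¹) = y)) = ∅ := by
        rw [Finset.filter_eq_empty_iff]
        rintro ⟨a, b⟩ _ hab
        apply hno
        refine ⟨a * b⁻¹, b * z * b⁻¹, ?_⟩
        rw [← hab]; group
      rw [this]; simp
    rw [Finset.sum_congr rfl (fun z _ => hall z), Finset.sum_const_zero] at hsum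
    have := hsum.symm
    rcases mul_eq_zero.mp this with h | h
    · exact absurd (mul_self_eq_zero.mp h) hG
    · exact h

/-- Commutator criterion: `g` is a commutator iff `∑_χ χ(g)/χ(1) ≠ 0`. -/
theorem isCommutator_iff [Finite G] (g : G) :
    (∃ a b : G, g = a * b * a⁻¹ * b⁻¹) ↔
      ∑ᶠ χ : IrrCharacter G, (χ : G → ℂ) g / (χ : G → ℂ) 1 ≠ 0 := by
  have h := isCommutator_iff_aux (G := G) g⁻¹
  rw [inv_inv] at h
  rw [← h]
  constructor
  · rintro ⟨a, b, hab⟩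
    exact ⟨b, a, by rw [hab]; group⟩
  · rintro ⟨a, b, hab⟩
    refine ⟨b, a, ?_⟩
    have : g = (a * b * a⁻¹ * b⁻¹)⁻¹ := by rw [← hab, inv_inv]
    rw [this]; group

end Comm

end Cfsg.Agent.H78
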