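import Mathlib
import Cfsg.Prelude.Def_Characters
import Cfsg.Agent.H79.CharValues

/-!
# helper78: the degree of the field of values of a character, by Galois counting

`galois_count`: for a character `φ` of a finite group `G` and `N > 0` with `g ^ N = 1` for all
`g`, `[ℚ(φ) : ℚ] · #{u ∈ (ℤ/N)ˣ | φ(g ^ u) = φ(g) ∀ g} = φ(N)` (Euler's function).
-/

set_option autoImplicit false
set_option linter.style.haveILetI false
set_option linter.unusedSectionVars false

namespace Cfsg.Agent.H78.GC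

open Cfsg Polynomial Module

universe u

set_option backward.isDefEq.respectTransparency false in
theorem galois_count {G : Type u} [Group G] [Finite G] (N : ℕ) (hN0 : 0 < N)
    (hN : ∀ g : G, g ^ N = 1) {φ : G → ℂ} (hφ : IsCharacter G φ) :
    Module.finrank ℚ (IntermediateField.adjoin ℚ (Set.range φ)) *
      Nat.card {u : (ZMod N)ˣ // ∀ g : G, φ (g ^ (u : ZMod N).val) = φ g} = N.totient := by
  haveI : NeZero N := ⟨hN0.ne'⟩
  haveI : NeZero ((N : ℕ) : ℚ) := ⟨by exact_mod_cast hN0.ne'⟩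
  have hirr : Irreducible (cyclotomic N ℚ) := cyclotomic.irreducible_rat hN0
  obtain ⟨ζ', hζ'def⟩ : ∃ ζ' : CyclotomicField N ℚ, ζ' = IsCyclotomicExtension.zeta N ℚ
    (CyclotomicField N ℚ) := ⟨_, rfl⟩
  have hζ' : IsPrimitiveRoot ζ' N := by
    rw [hζ'def]; exact IsCyclotomicExtension.zeta_spec N ℚ (CyclotomicField N ℚ)
  obtain ⟨ι⟩ : Nonempty (CyclotomicField N ℚ →ₐ[ℚ] ℂ) := ⟨IsAlgClosed.lift⟩
  have hιinj : Function.Injective ι := ι.injective
  have hζ : IsPrimitiveRoot (ι ζ') N := hζ'.map_of_injective hιinj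
  obtain ⟨m, ρ, rfl⟩ := hφ
  choose f hf using fun g : G => (Cfsg.Agent.H79.char_pow_eq_eval ρ g N hN0 (hN g) (ι ζ') hζ)
  have hfk : ∀ (g : G) (k : ℕ), ρ.character (g ^ k) = ι (aeval (ζ' ^ k) (f g)) := by
    intro g k
    rw [(hf g).2.2 k, ← map_pow]
    exact (Polynomial.aeval_algHom_apply (ι.restrictScalars ℤ) (ζ' ^ k) (f g))
  obtain ⟨a, hadef⟩ : ∃ a : G → CyclotomicField N ℚ, a = fun g => aeval ζ' (f g) := ⟨_, rfl⟩
  have ha : ∀ g, ι (a g) = ρ.character g := by
    intro g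
    have h1 := hfk g 1
    rw [pow_one, pow_one] at h1
    rw [h1, hadef]
  obtain ⟨F', hF'⟩ : ∃ F' : IntermediateField ℚ (CyclotomicField N ℚ),
      F' = IntermediateField.adjoin ℚ (Set.range a) := ⟨_, rfl⟩
  have hFmap : IntermediateField.adjoin ℚ (Set.range ρ.character) = F'.map ι := by
    rw [hF', IntermediateField.adjoin_map]
    congr 1
    ext z
    constructor
    · rintro ⟨g, rfl⟩
      exact ⟨a g, ⟨g, rfl⟩, ha g⟩
    · rintro ⟨y, ⟨g, rfl⟩, rfl⟩
      exact ⟨g, (ha g).symm⟩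
  have hfr : finrank ℚ (IntermediateField.adjoin ℚ (Set.range ρ.character)) = finrank ℚ F' := by
    rw [hFmap]
    exact (IntermediateField.equivMap F' ι).toLinearEquiv.finrank_eq.symm
  haveI : IsGalois ℚ (CyclotomicField N ℚ) := IsCyclotomicExtension.isGalois {N} ℚ _
  have h1 : Nat.card F'.fixingSubgroup = finrank F' (CyclotomicField N ℚ) :=
    IsGalois.card_fixingSubgroup_eq_finrank F'
  have h2 : finrank ℚ F' * finrank F' (CyclotomicField N ℚ) = finrank ℚ (CyclotomicField N ℚ) :=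
    Module.finrank_mul_finrank ℚ F' (CyclotomicField N ℚ)
  have h3 : finrank ℚ (CyclotomicField N ℚ) = N.totient :=
    IsCyclotomicExtension.finrank (CyclotomicField N ℚ) hirr
  obtain ⟨e, he⟩ : ∃ e : Gal(CyclotomicField N ℚ/ℚ) ≃* (ZMod N)ˣ,
      ∀ σ, ζ' ^ ((e σ : (ZMod N)ˣ) : ZMod N).val = σ ζ' := by
    refine ⟨IsCyclotomicExtension.autEquivPow (CyclotomicField N ℚ) hirr, fun σ => ?_⟩
    rw [IsCyclotomicExtension.autEquivPow_apply, hζ'def]
    exact IsPrimitiveRoot.autToPow_spec ℚ _ σ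
  have hσa : ∀ (σ : Gal(CyclotomicField N ℚ/ℚ)) (g : G),
      ι (σ (a g)) = ρ.character (g ^ ((e σ : (ZMod N)ˣ) : ZMod N).val) := by
    intro σ g
    rw [hfk, he σ, hadef]
    congr 1
    exact (Polynomial.aeval_algHom_apply (σ.toAlgHom.restrictScalars ℤ) ζ' (f g)).symm
  have key : ∀ σ : Gal(CyclotomicField N ℚ/ℚ), σ ∈ F'.fixingSubgroup ↔
      ∀ g : G, ρ.character (g ^ ((e σ : (ZMod N)ˣ) : ZMod N).val) = ρ.character g := by
    intro σ
    rw [IntermediateField.mem_fixingSubgroup_iff]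
    constructor
    · intro h g
      rw [← hσa σ g, h (a g) (by rw [hF']; exact IntermediateField.subset_adjoin ℚ _ ⟨g, rfl⟩),
        ha]
    · intro h x hx
      rw [hF'] at hx
      induction hx using IntermediateField.adjoin_induction with
      | mem y hy =>
        obtain ⟨g, rfl⟩ := hy
        apply hιinj
        rw [hσa σ g, h g, ha]
      | algebraMap q => exact σ.commutes q
      | add y y' _ _ hy hy' => rw [map_add, hy, hy']
      | inv y _ hy => rw [map_inv₀, hy]
      | mul y y' _ _ hy hy' => rw [map_mul, hy, hy']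
  have h4 : Nat.card F'.fixingSubgroup =
      Nat.card {u : (ZMod N)ˣ // ∀ g : G, ρ.character (g ^ (u : ZMod N).val) = ρ.character g} :=
    Nat.card_congr (e.toEquiv.subtypeEquiv key)
  rw [hfr, ← h4, h1, h2, h3]

end Cfsg.Agent.H78.GC
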