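import Mathlib
import Cfsg.Prelude.Def_Characters
import Cfsg.Agent.H78.GC1
import Cfsg.Agent.H82.Irr

/-!
# helper78: stabilisers of characters in `(ℤ/N)ˣ`, and the field of values of a linear character

* `stab N hN φ`: the subgroup of `(ℤ/N)ˣ` of the `u` with `φ (g ^ u) = φ g` for all `g`;
* `galois_count'`: `[ℚ(φ) : ℚ] · |stab| = φ(N)`;
* `linear_case`: a linear character whose kernel has index `p ^ a` (`a > 0`) and whose field of
  values has degree `(p - 1) p ^ t` has `a = t + 1`.
-/

set_option autoImplicit false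
set_option linter.style.haveILetI false
set_option linter.unusedSectionVars false

namespace Cfsg.Agent.H78.GC

open Cfsg Polynomial Module

universe u

theorem pow_val_mul {G : Type*} [Group G] {N : ℕ} (g : G) (hg : g ^ N = 1) (u v : ZMod N) :
    g ^ (u * v).val = (g ^ u.val) ^ v.val := by
  rw [← pow_mul, ZMod.val_mul]
  exact (pow_eq_pow_mod _ hg).symm

theorem pow_val_one {G : Type*} [Group G] {N : ℕ} (g : G) (hg : g ^ N = 1) :
    g ^ (1 : ZMod N).val = g := by
  rw [ZMod.val_one_eq_one_mod, ← pow_eq_pow_mod _ hg, pow_one]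

/-- The stabiliser of `φ` under the power maps. -/
def stab {G : Type u} [Group G] (N : ℕ) (hN : ∀ g : G, g ^ N = 1) (φ : G → ℂ) :
    Subgroup (ZMod N)ˣ where
  carrier := {u | ∀ g : G, φ (g ^ (u : ZMod N).val) = φ g}
  mul_mem' := by
    intro u v hu hv g
    rw [Units.val_mul, pow_val_mul g (hN g)]
    rw [hv, hu]
  one_mem' := by
    intro g
    rw [Units.val_one, pow_val_one g (hN g)]
  inv_mem' := by
    intro u hu g
    have h1 := hu (g ^ ((u⁻¹ : (ZMod N)ˣ) : ZMod N).val)
    rw [← pow_val_mul g (hN g), ← Units.val_mul, inv_mul_cancel, Units.val_one,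
      pow_val_one g (hN g)] at h1
    exact h1.symm

theorem mem_stab {G : Type u} [Group G] (N : ℕ) (hN : ∀ g : G, g ^ N = 1) (φ : G → ℂ)
    (u : (ZMod N)ˣ) : u ∈ stab N hN φ ↔ ∀ g : G, φ (g ^ (u : ZMod N).val) = φ g := Iff.rfl

theorem galois_count' {G : Type u} [Group G] [Finite G] (N : ℕ) (hN0 : 0 < N)
    (hN : ∀ g : G, g ^ N = 1) {φ : G → ℂ} (hφ : IsCharacter G φ) :
    Module.finrank ℚ (IntermediateField.adjoin ℚ (Set.range φ)) * Nat.card (stab N hN φ)
      = N.totient :=
  galois_count N hN0 hN hφ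

/-- A linear character with kernel of index `p ^ a`, `a > 0`, has field of values of degree
`(p - 1) p ^ (a - 1)`. -/
theorem linear_case {P : Type u} [Group P] [Finite P] (p : ℕ) (hp : p.Prime)
    (χ : IrrCharacter P) (h1 : χ.1 1 = 1) (a t : ℕ) (ha : 0 < a)
    (hidx : (Cfsg.Agent.H82.irrKer χ).index = p ^ a)
    (hfield : finrank ℚ (IntermediateField.adjoin ℚ (Set.range χ.1)) = (p - 1) * p ^ t) :
    a = t + 1 := by
  obtain ⟨lam, hlam⟩ : ∃ lam : P →* ℂˣ, ∀ g, ((lam g : ℂˣ) : ℂ) = χ.1 g :=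
    ⟨Cfsg.Agent.H82.irrLinearHom χ h1, Cfsg.Agent.H82.irrLinearHom_apply χ h1⟩
  have hker : lam.ker = Cfsg.Agent.H82.irrKer χ := by
    ext g
    rw [MonoidHom.mem_ker, Cfsg.Agent.H82.mem_irrKer, h1, ← hlam g]
    constructor
    · intro h
      rw [h]
      rfl
    · intro h
      exact Units.ext h
  have hcard : Nat.card lam.range = p ^ a := by
    rw [← Subgroup.index_ker, hker, hidx]
  haveI : Finite lam.range := Finite.of_surjective lam.rangeRestrict lam.rangeRestrict_surjective
  haveI : IsCyclic lam.range := inferInstance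
  obtain ⟨w, hw⟩ := IsCyclic.exists_generator (α := lam.range)
  have hord : orderOf w = p ^ a := by
    rw [orderOf_eq_card_of_forall_mem_zpowers hw, hcard]
  obtain ⟨g₀, hg₀⟩ := w.2
  have hord' : orderOf (lam g₀) = p ^ a := by
    rw [hg₀, Subgroup.orderOf_coe, hord]
  have hprim : IsPrimitiveRoot (χ.1 g₀) (p ^ a) := by
    rw [← hlam g₀, IsPrimitiveRoot.coe_units_iff, ← hord']
    exact IsPrimitiveRoot.orderOf (lam g₀)
  have hpa : 0 < p ^ a := pow_pos hp.pos a
  have hadj : IntermediateField.adjoin ℚ (Set.range χ.1)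
      = IntermediateField.adjoin ℚ {χ.1 g₀} := by
    apply le_antisymm
    · rw [IntermediateField.adjoin_le_iff]
      rintro _ ⟨g, rfl⟩
      have hmem : (⟨lam g, g, rfl⟩ : lam.range) ∈ Subgroup.zpowers w := hw _
      obtain ⟨k, hk⟩ := Subgroup.mem_zpowers_iff.mp hmem
      have hk' : (lam g₀) ^ k = lam g := by
        have h2 : ((w ^ k : lam.range) : ℂˣ) = lam g := congrArg Subtype.val hk
        rw [Subgroup.coe_zpow, ← hg₀] at h2
        exact h2
      have hk'' : (χ.1 g₀) ^ k = χ.1 g := by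
        rw [← hlam g₀, ← hlam g, ← hk', Units.val_zpow_eq_zpow_val]
      rw [← hk'']
      exact zpow_mem (IntermediateField.subset_adjoin ℚ _ (Set.mem_singleton _)) k
    · apply IntermediateField.adjoin.mono
      rintro _ rfl
      exact ⟨g₀, rfl⟩
  have hint : IsIntegral ℚ (χ.1 g₀) := (hprim.isIntegral hpa).tower_top
  have hfr : finrank ℚ (IntermediateField.adjoin ℚ {χ.1 g₀}) = (p ^ a).totient := by
    rw [IntermediateField.adjoin.finrank hint, ← Polynomial.cyclotomic_eq_minpoly_rat hprim hpa,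
      natDegree_cyclotomic]
  rw [hadj, hfr, Nat.totient_prime_pow hp ha] at hfield
  have hp1 : 0 < p - 1 := by have := hp.two_le; omega
  have h2 : p ^ (a - 1) = p ^ t := by
    apply Nat.eq_of_mul_eq_mul_right hp1
    rw [hfield, mul_comm]
  have h3 := Nat.pow_right_injective hp.two_le h2
  omega

end Cfsg.Agent.H78.GC
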