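import Mathlib
import Cfsg.Agent.S0867
import Cfsg.Agent.H82.CoprimeExt
import Cfsg.Agent.H82.CanonExt
import Cfsg.Agent.H82.IndDeg
import Cfsg.Agent.H79.GaloisChar
import Cfsg.Agent.H79.GaloisAut
import Cfsg.Agent.Lib.CliffordCorr
import Cfsg.Agent.H4.Chars
import Cfsg.Agent.H4.SemiReg

/-!
# helper78: a `p'`-Galois-stable character below a given character

For a normal Hall subgroup `N` of `X` and a character `χ` of `X` faithful on `N`, there is a
character `ψ` of `X` of degree at most `χ(1)`, faithful on `N`, and invariant under the power maps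
`g ↦ g ^ k` for `k` prime to `|X|`, `k ≡ 1` modulo `|N|` (built from canonical extensions to the
inertia groups, induced up).
-/

set_option autoImplicit false
set_option linter.style.haveILetI false
set_option linter.unusedSectionVars false

namespace Cfsg.Agent.H78.PS

open Cfsg Cfsg.Agent.H4 Cfsg.Agent.H82 Cfsg.Agent.Clifford
open scoped ComplexConjugate

universe u

section GaloisDet

variable {G : Type u} [Group G] [Finite G]

/-- The determinant of a Galois conjugate character. -/
theorem detChar_ringHom (τ : ℂ →+* ℂ) {χ : G → ℂ} (hχ : IsCharacter G χ) (g : G) :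
    detChar (fun x => τ (χ x)) g = τ (detChar χ g) := by
  obtain ⟨m, ρ, rfl⟩ := hχ
  have e : (fun x => τ (ρ.character x)) = (Cfsg.Agent.H79.galoisRep τ ρ).character := by
    funext x
    exact (Cfsg.Agent.H79.galoisRep_character τ ρ x).symm
  rw [e, detChar_character, detChar_character]
  change LinearMap.det (Matrix.toLin' ((LinearMap.toMatrix' (ρ g)).map τ)) =
    τ (LinearMap.det (ρ g))
  rw [LinearMap.det_toLin', ← LinearMap.det_toMatrix' (ρ g)]
  exact (RingHom.map_det τ _).symm

/-- The determinantal order of a Galois conjugate divides the determinantal order. -/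
theorem detOrder_comp_pow_dvd (k : ℕ) (hk : k.Coprime (Nat.card G)) {χ : G → ℂ}
    (hχ : IsCharacter G χ) : detOrder (fun g => χ (g ^ k)) ∣ detOrder χ := by
  obtain ⟨τ, hτ⟩ := Cfsg.Agent.H79.exists_ringEquiv_complex_pow (Nat.card G) k Nat.card_pos hk
  have heq : (fun g => χ (g ^ k)) = fun g => (τ : ℂ →+* ℂ) (χ g) := by
    obtain ⟨m, ρ, rfl⟩ := hχ
    funext g
    exact (Cfsg.Agent.H79.ringHom_character_eq_pow ρ (Nat.card G) k Nat.card_pos
      (τ : ℂ →+* ℂ) hτ g pow_card_eq_one').symm
  rw [heq, detOrder_dvd_iff]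
  intro g
  rw [detChar_ringHom _ hχ, ← map_pow, detChar_pow_detOrder, map_one]

/-- The canonical extension is fixed by the Galois automorphisms that fix the character
below. -/
theorem canon_pow_inv (N : Subgroup G) [hN : N.Normal] (θ : N → ℂ) (hθ : IsIrrCharacter N θ)
    (hinv : ∀ (g : G) (n : N), θ ⟨g * n * g⁻¹, hN.conj_mem (n : G) n.2 g⟩ = θ n) (d : ℕ)
    (hd : θ 1 = d) (hcop : Nat.Coprime N.index (detOrder θ * d))
    {θh : G → ℂ} (hθh : IsIrrCharacter G θh) (hext : ∀ n : N, θh n = θ n)
    (hdet : Nat.Coprime N.index (detOrder θh))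
    (k : ℕ) (hk : k.Coprime (Nat.card G)) (hk1 : k ≡ 1 [MOD Nat.card N]) (t : G) :
    θh (t ^ k) = θh t := by
  obtain ⟨χ₀, -, huniq⟩ := Cfsg.Agent.S0867.result N θ hθ hinv d hd hcop
  have h1 : θh = χ₀ := huniq θh hθh hext hdet
  have h2 : (fun t => θh (t ^ k)) = χ₀ := by
    apply huniq
    · exact Cfsg.Agent.H79.isIrrCharacter_comp_pow k hk hθh
    · intro n
      have hnk : n ^ k = n := by
        have h3 : k ≡ 1 [MOD orderOf n] := hk1.of_dvd (orderOf_dvd_natCard n)
        have h4 := pow_eq_pow_iff_modEq.mpr h3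
        rwa [pow_one] at h4
      have h5 : ((n : G)) ^ k = ((n ^ k : N) : G) := by simp
      show θh ((n : G) ^ k) = θ n
      rw [h5, hnk, hext]
    · exact Nat.Coprime.coprime_dvd_right
        (detOrder_comp_pow_dvd k hk (isCharacter_of_isIrrCharacter hθh)) hdet
  have h3 := congrFun h2 t
  rw [← h1] at h3
  exact h3

end GaloisDet

section Ind

variable {X : Type u} [Group X]

/-- Induction commutes with the power maps prime to the group order. -/
theorem indFun_pow_inv [Fintype X] (T : Subgroup X) (φ : T → ℂ) (k : ℕ)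
    (hk : k.Coprime (Nat.card X)) (hφ : ∀ t : T, φ (t ^ k) = φ t) (g : X) :
    indFun T φ (g ^ k) = indFun T φ g := by
  unfold indFun
  congr 1
  apply Finset.sum_congr rfl
  intro x _
  have h1 : x⁻¹ * g ^ k * x = (x⁻¹ * g * x) ^ k := by
    have := conj_pow (a := x⁻¹) (b := g) (i := k)
    rw [inv_inv] at this
    exact this.symm
  rw [h1]
  by_cases hy : x⁻¹ * g * x ∈ T
  · rw [extendByZero_of_mem T φ (T.pow_mem hy k), extendByZero_of_mem T φ hy]
    exact hφ ⟨_, hy⟩
  · have hy' : (x⁻¹ * g * x) ^ k ∉ T := by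
      intro h
      apply hy
      have hc : Nat.Coprime k (orderOf (x⁻¹ * g * x)) :=
        Nat.Coprime.coprime_dvd_right (orderOf_dvd_natCard _) hk
      obtain ⟨m, hm⟩ := exists_pow_eq_self_of_coprime hc
      rw [← hm]
      exact T.pow_mem h m
    rw [extendByZero_of_not_mem T φ hy', extendByZero_of_not_mem T φ hy]

end Ind

end Cfsg.Agent.H78.PS
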