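import Mathlib
import Cfsg.Agent.H78.PS2

/-!
# helper78: a `p'`-Galois-stable character below a given character (continued)
-/

set_option autoImplicit false
set_option linter.style.haveILetI false
set_option linter.unusedSectionVars false

namespace Cfsg.Agent.H78.PS

open Cfsg Cfsg.Agent.H4 Cfsg.Agent.H82 Cfsg.Agent.Clifford
open scoped ComplexConjugate

universe u

section Stable

variable {X : Type u} [Group X] [Finite X]

/-- For an irreducible character `ξ` of `X` and a normal Hall subgroup `N`: a character `ξ'`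
(induced from the canonical extension of a constituent of `ξ_N`) with `ξ_N = e ξ'_N`, invariant
under the power maps fixing `N` elementwise. -/
theorem exists_stable_of_irr (N : Subgroup X) [hN : N.Normal]
    (hcop : (Nat.card N).Coprime N.index) {ξ : X → ℂ} (hξ : IsIrrCharacter X ξ) :
    ∃ ξ' : X → ℂ, IsCharacter X ξ' ∧ (∃ e : ℕ, e ≠ 0 ∧ ∀ h : N, ξ h = e * ξ' h) ∧
      ∀ k : ℕ, k.Coprime (Nat.card X) → k ≡ 1 [MOD Nat.card N] → ∀ g, ξ' (g ^ k) = ξ' g := by
  classical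
  letI : Fintype X := Fintype.ofFinite X
  letI : Fintype N := Fintype.ofFinite N
  obtain ⟨θ, hθ, h1⟩ := exists_constituent_res' N hξ
  have hθcf : IsClassFunction N θ :=
    isClassFunction_of_isCharacter (isCharacter_of_isIrrCharacter hθ)
  obtain ⟨T, hT⟩ : ∃ T : Subgroup X, T = Cfsg.Agent.Clifford.inertia N θ := ⟨_, rfl⟩
  have hNT : N ≤ T := by rw [hT]; exact le_inertia N hθcf
  letI : Fintype T := Fintype.ofFinite T
  obtain ⟨NT, hNTdef⟩ : ∃ NT : Subgroup T, NT = N.subgroupOf T := ⟨_, rfl⟩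
  haveI hNTn : NT.Normal := by rw [hNTdef]; exact Subgroup.Normal.subgroupOf hN T
  have hmem' : ∀ t : T, t ∈ NT ↔ (t : X) ∈ N := by
    intro t; rw [hNTdef]; exact Subgroup.mem_subgroupOf
  have hmemNT : ∀ n : NT, ((n : T) : X) ∈ N := fun n => (hmem' n).mp n.2
  let e : NT →* N :=
    { toFun := fun n => ⟨((n : T) : X), hmemNT n⟩
      map_one' := rfl
      map_mul' := fun _ _ => rfl }
  have hebij : Function.Bijective e := by
    constructor
    · intro a b hab
      have h2 : ((e a : N) : X) = ((e b : N) : X) := congrArg Subtype.val hab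
      exact Subtype.ext (Subtype.ext h2)
    · intro n
      exact ⟨⟨⟨(n : X), hNT n.2⟩, (hmem' _).mpr n.2⟩, rfl⟩
  let e' : NT ≃* N := MulEquiv.ofBijective e hebij
  obtain ⟨θT, hθTdef⟩ : ∃ θT : NT → ℂ, θT = fun n => θ (e' n) := ⟨_, rfl⟩
  have hθT : IsIrrCharacter NT θT := by rw [hθTdef]; exact isIrrCharacter_comp_equiv e' hθ
  have hθTapp : ∀ n : NT, θT n = θ ⟨((n : T) : X), hmemNT n⟩ := by
    intro n; rw [hθTdef]; rfl
  have hinvT : ∀ (g : T) (n : NT),
      θT ⟨g * n * g⁻¹, hNTn.conj_mem (n : T) n.2 g⟩ = θT n := by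
    intro g n
    have hg : (g : X) ∈ Cfsg.Agent.Clifford.inertia N θ := by rw [← hT]; exact g.2
    have h2 := (mem_inertia_iff N).mp hg ⟨((n : T) : X), hmemNT n⟩
    rw [hθTapp, hθTapp, ← h2]
    rfl
  have hidx : NT.index ∣ N.index := by
    rw [hNTdef]
    exact Subgroup.relIndex_dvd_index_of_normal N T
  have hcardNT : Nat.card NT = Nat.card N := Nat.card_congr e'.toEquiv
  obtain ⟨d, hd⟩ : ∃ d : ℕ, d = charDegree θT := ⟨_, rfl⟩
  have hd1 : θT 1 = d := by rw [hd]; exact irr_one_eq_charDegree ⟨θT, hθT⟩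
  have hcop' : (Nat.card N).Coprime NT.index := Nat.Coprime.coprime_dvd_right hidx hcop
  have hcopT : Nat.Coprime NT.index (detOrder θT * d) := by
    apply Nat.Coprime.mul_right
    · have h2 : detOrder θT ∣ Nat.card N := by rw [← hcardNT]; exact detOrder_dvd_card θT
      exact (Nat.Coprime.coprime_dvd_left h2 hcop').symm
    · have h2 : d ∣ Nat.card N := by
        rw [← hcardNT, hd]; exact charDegree_dvd_card ⟨θT, hθT⟩
      exact (Nat.Coprime.coprime_dvd_left h2 hcop').symm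
  obtain ⟨θh, ⟨hθh, hext, hdet⟩, -⟩ := Cfsg.Agent.S0867.result NT θT hθT hinvT d hd1 hcopT
  have hdetcop : Nat.Coprime NT.index (detOrder θh) := by
    rw [hdet]; exact Nat.Coprime.coprime_dvd_right (Dvd.intro _ rfl) hcopT
  have hθh_res : (fun n : N => θh ⟨n, hNT n.2⟩) = θ := by
    funext n
    have hn : (⟨(n : X), hNT n.2⟩ : T) ∈ NT := (hmem' _).mpr n.2
    have h2 := hext ⟨⟨(n : X), hNT n.2⟩, hn⟩
    rw [hθTapp] at h2
    exact h2
  refine ⟨indFun T θh, isCharacter_indFun T θh (isCharacter_of_isIrrCharacter hθh), ?_, ?_⟩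
  · obtain ⟨ψ₀, hψ₀, hind, hin⟩ := clifford_corr_surj hθ hNT hT hξ h1
    have h1' : classInner (fun n : N => ψ₀ ⟨n, hNT n.2⟩) θ ≠ 0 := by rw [hin]; exact h1
    have hres := res_eq_smul_of_le_inertia hθ hNT (le_of_eq hT) hψ₀ h1'
    have hψ₀N : IsCharacter N (fun n : N => ψ₀ ⟨n, hNT n.2⟩) :=
      isCharacter_comp (Subgroup.inclusion hNT) (isCharacter_of_isIrrCharacter hψ₀)
    obtain ⟨m, hm⟩ := classInner_isCharacter_nat hψ₀N (isCharacter_of_isIrrCharacter hθ)
    refine ⟨m, ?_, ?_⟩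
    · intro hm0
      apply h1'
      rw [hm, hm0]
      simp
    · intro h
      have e1 := congrFun (indFun_res_of_le hNT ψ₀) h
      have e2 := congrFun (indFun_res_of_le hNT θh) h
      rw [← hind, e1, e2, hres, hm, hθh_res]
      simp only [Pi.smul_apply, Finset.sum_apply, smul_eq_mul, conjChar_apply]
      rw [Finset.mul_sum, Finset.mul_sum, Finset.mul_sum]
      apply Finset.sum_congr rfl
      intro x _
      ring
  · intro k hk hk1 g
    apply indFun_pow_inv T θh k hk _ g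
    intro t
    exact canon_pow_inv NT θT hθT hinvT d hd1 hcopT hθh hext hdetcop k
      (Nat.Coprime.coprime_dvd_right (Subgroup.card_subgroup_dvd_card T) hk)
      (by rw [hcardNT]; exact hk1) t

theorem eq_of_re_eq_of_norm_le {z : ℂ} {c : ℝ} (h1 : ‖z‖ ≤ c) (h2 : z.re = c) : z = c := by
  have h3 : z.im = 0 := by
    have h4 : ‖z‖ ^ 2 = z.re ^ 2 + z.im ^ 2 := by
      rw [Complex.sq_norm, Complex.normSq_apply]; ring
    have h5 : ‖z‖ ^ 2 ≤ c ^ 2 := pow_le_pow_left₀ (norm_nonneg z) h1 2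
    have h6 : z.im ^ 2 ≤ 0 := by rw [h4, h2] at h5; linarith
    have h7 : z.im ^ 2 = 0 := le_antisymm h6 (sq_nonneg _)
    exact (pow_eq_zero_iff (two_ne_zero)).mp h7
  apply Complex.ext
  · simp [h2]
  · simp [h3]

theorem char_one_nat {G : Type u} [Group G] {χ : G → ℂ} (hχ : IsCharacter G χ) :
    ∃ d : ℕ, χ 1 = d := by
  obtain ⟨n, ρ, rfl⟩ := hχ
  exact ⟨n, by rw [Representation.char_one]; simp⟩

/-- For a normal Hall subgroup `N` of `X` and a character `χ` of `X` faithful on `N`, there is a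
character `ψ` of degree at most `χ(1)`, faithful on `N` and invariant under the power maps
`g ↦ g ^ k` with `k` prime to `|X|` and `k ≡ 1` modulo `|N|`. -/
theorem exists_stable_char (N : Subgroup X) [hN : N.Normal]
    (hcop : (Nat.card N).Coprime N.index) {χ : X → ℂ} (hχ : IsCharacter X χ) (n : ℕ)
    (hn : χ 1 = n) (hfaith : ∀ h : N, χ h = χ 1 → h = 1) :
    ∃ (ψ : X → ℂ) (n' : ℕ), IsCharacter X ψ ∧ ψ 1 = n' ∧ n' ≤ n ∧
      (∀ k : ℕ, k.Coprime (Nat.card X) → k ≡ 1 [MOD Nat.card N] → ∀ g, ψ (g ^ k) = ψ g) ∧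
      ∀ h : N, ψ h = ψ 1 → h = 1 := by
  classical
  letI : Fintype X := Fintype.ofFinite X
  letI := fintypeIrr X
  obtain ⟨m, hm⟩ := isCharacter_iff.mp hχ
  rw [finsum_irr_eq_sum] at hm
  choose ξ' hξ'c hξ'e hξ'k using fun ξ : IrrCharacter X => exists_stable_of_irr N hcop ξ.2
  choose e he0 he using hξ'e
  choose d' hd' using fun ξ : IrrCharacter X => char_one_nat (hξ'c ξ)
  have hχapp : ∀ g : X, χ g = ∑ ξ : IrrCharacter X, (m ξ : ℂ) * ξ.1 g := by
    intro g
    rw [hm]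
    simp [Finset.sum_apply]
  have he1 : ∀ ξ : IrrCharacter X, ξ.1 1 = (e ξ : ℂ) * (d' ξ : ℂ) := by
    intro ξ
    have h1 := he ξ (1 : N)
    rw [OneMemClass.coe_one] at h1
    rw [h1, hd']
  refine ⟨∑ ξ : IrrCharacter X, (m ξ : ℂ) • ξ' ξ, ∑ ξ : IrrCharacter X, m ξ * d' ξ,
    ?_, ?_, ?_, ?_, ?_⟩
  · exact isCharacter_sum _ _ fun ξ _ => isCharacter_nsmul _ (hξ'c ξ)
  · simp only [Finset.sum_apply, Pi.smul_apply, smul_eq_mul, hd']
    push_cast
    rfl
  · have h1 : (n : ℂ) = ((∑ ξ : IrrCharacter X, m ξ * (e ξ * d' ξ) : ℕ) : ℂ) := by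
      rw [← hn, hχapp 1]
      push_cast
      apply Finset.sum_congr rfl
      intro ξ _
      rw [he1]
    have h2 : n = ∑ ξ : IrrCharacter X, m ξ * (e ξ * d' ξ) := by exact_mod_cast h1
    rw [h2]
    apply Finset.sum_le_sum
    intro ξ _
    have h3 : 1 ≤ e ξ := Nat.one_le_iff_ne_zero.mpr (he0 ξ)
    calc m ξ * d' ξ = m ξ * (1 * d' ξ) := by rw [one_mul]
      _ ≤ m ξ * (e ξ * d' ξ) := Nat.mul_le_mul_left _ (Nat.mul_le_mul_right _ h3)
  · intro k hk hk1 g
    simp only [Finset.sum_apply, Pi.smul_apply, smul_eq_mul]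
    apply Finset.sum_congr rfl
    intro ξ _
    rw [hξ'k ξ k hk hk1 g]
  · intro h hh
    apply hfaith
    simp only [Finset.sum_apply, Pi.smul_apply, smul_eq_mul] at hh
    have hnorm : ∀ ξ : IrrCharacter X, ‖ξ' ξ (h : X)‖ ≤ (d' ξ : ℝ) := fun ξ => by
      exact_mod_cast norm_le_of_isCharacter (hξ'c ξ) (hd' ξ) (h : X)
    have hre : ∀ ξ : IrrCharacter X, (ξ' ξ (h : X)).re ≤ d' ξ := fun ξ =>
      le_trans (Complex.re_le_norm _) (hnorm ξ)
    have hsum0 : ∑ ξ : IrrCharacter X, (m ξ : ℝ) * ((d' ξ : ℝ) - (ξ' ξ (h : X)).re) = 0 := by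
      have h3 := congrArg Complex.re hh
      simp only [Complex.re_sum, Complex.mul_re, Complex.natCast_re, Complex.natCast_im,
        zero_mul, sub_zero, hd'] at h3
      rw [Finset.sum_congr rfl (fun ξ _ => mul_sub _ _ _), Finset.sum_sub_distrib, h3, sub_self]
    have hterm := (Finset.sum_eq_zero_iff_of_nonneg (fun ξ _ =>
      mul_nonneg (Nat.cast_nonneg _) (sub_nonneg.mpr (hre ξ)))).mp hsum0
    have hval : ∀ ξ : IrrCharacter X, (m ξ : ℂ) * ξ' ξ (h : X) = (m ξ : ℂ) * d' ξ := by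
      intro ξ
      have h4 := hterm ξ (Finset.mem_univ ξ)
      rcases mul_eq_zero.mp h4 with h5 | h5
      · have h6 : m ξ = 0 := by exact_mod_cast h5
        rw [h6]
        simp
      · have h6 : (ξ' ξ (h : X)).re = d' ξ := by linarith
        rw [eq_of_re_eq_of_norm_le (hnorm ξ) h6]
        simp
    rw [hχapp, hχapp]
    apply Finset.sum_congr rfl
    intro ξ _
    rw [he ξ h, he1]
    linear_combination (e ξ : ℂ) * hval ξ

end Stable

end Cfsg.Agent.H78.PS
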