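import Mathlib
import Cfsg.Prelude.Def_Characters
import Cfsg.Agent.H78.GC2
import Cfsg.Agent.H78.PS3
import Cfsg.Agent.H78.PS2
import Cfsg.Agent.H4.Monomial
import Cfsg.Agent.H4.SemiReg
import Cfsg.Agent.H32.Coherence
import Cfsg.Agent.H67.YoshidaCocycle
import Cfsg.Agent.H79.GaloisChar
import Cfsg.Agent.Lib.Clifford

/-!
# helper78: irreducible characters of `p`-groups induced from a maximal subgroup

Pieces for the bound of a `p`-group by the degree and the field of values of a faithful
irreducible character.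
-/

set_option autoImplicit false
set_option linter.style.haveILetI false
set_option linter.unusedSectionVars false

namespace Cfsg.Agent.H78.GC

open Cfsg Polynomial Module Cfsg.Agent.H4 Cfsg.Agent.Clifford
open scoped ComplexConjugate

universe u

section Step

variable {P : Type u} [Group P] [Fintype P]

/-- Conjugation by an element of `M` fixes a class function of `M`. -/
theorem conjChar_mem (M : Subgroup P) [hM : M.Normal] {φ : M → ℂ} (hφ : IsClassFunction M φ)
    {m : P} (hm : m ∈ M) : conjChar M φ m = φ := by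
  funext n
  rw [conjChar_apply]
  have h := hφ n ⟨m, hm⟩
  rw [← h]
  congr 1

/-- The conjugate `θ ^ x` depends only on the coset of `x`. -/
theorem conjChar_out (M : Subgroup P) [hM : M.Normal] {θ : M → ℂ} (hθ : IsIrrCharacter M θ)
    (x : P) : conjChar M θ x = conjChar M θ ((x : P ⧸ M)).out := by
  obtain ⟨y, hy⟩ : ∃ y, y = ((x : P ⧸ M)).out := ⟨_, rfl⟩
  rw [← hy]
  have hmem : y⁻¹ * x ∈ M := by
    rw [← QuotientGroup.eq, hy, QuotientGroup.out_eq']
  have hx : x = y * (y⁻¹ * x) := by group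
  conv_lhs => rw [hx]
  rw [← conjChar_conjChar]
  exact conjChar_mem M (isClassFunction_of_isCharacter (isCharacter_of_isIrrCharacter
    (isIrrCharacter_conjChar M hθ y))) hmem

theorem conjChar_eq_of_mk_eq (M : Subgroup P) [hM : M.Normal] {θ : M → ℂ}
    (hθ : IsIrrCharacter M θ) {x y : P} (h : (x : P ⧸ M) = (y : P ⧸ M)) :
    conjChar M θ x = conjChar M θ y := by
  rw [conjChar_out M hθ x, conjChar_out M hθ y, h]

theorem conjChar_at_one (M : Subgroup P) [hM : M.Normal] (θ : M → ℂ) (x : P) :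
    conjChar M θ x 1 = θ 1 := by
  rw [conjChar_apply]
  congr 1
  apply Subtype.ext
  simp

theorem indFun_not_mem (M : Subgroup P) [hM : M.Normal] (θ : M → ℂ) {g : P} (hg : g ∉ M) :
    indFun M θ g = 0 := by
  rw [indFun_apply]
  have h : ∀ y : P, extendByZero M θ (y⁻¹ * g * y) = 0 := by
    intro y
    apply extendByZero_of_not_mem
    intro h
    apply hg
    have := hM.conj_mem _ h y
    simpa [mul_assoc] using this
  rw [Finset.sum_congr rfl (fun y _ => h y)]
  simp

/-- The kernel of a character induced from a normal subgroup. -/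
theorem mem_ker_ind_iff (M : Subgroup P) [hM : M.Normal] {θ : M → ℂ} (hθ : IsCharacter M θ)
    (f₁ : ℕ) (hf₁ : θ 1 = f₁) (hf₁0 : f₁ ≠ 0) (g : P) :
    indFun M θ g = indFun M θ 1 ↔
      ∃ hg : g ∈ M, ∀ x : P, conjChar M θ x ⟨g, hg⟩ = f₁ := by
  have hone : ∀ x : P, conjChar M θ x 1 = f₁ := fun x => by rw [conjChar_at_one, hf₁]
  have h1val : indFun M θ 1 = (Nat.card M : ℂ)⁻¹ * ∑ _x : P, (f₁ : ℂ) := by
    have h := indFun_res_apply M θ (1 : M)
    rw [Subgroup.coe_one] at h
    rw [h]
    congr 1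
    exact Finset.sum_congr rfl (fun x _ => hone x)
  have hM0 : (Nat.card M : ℂ)⁻¹ ≠ 0 := by
    apply inv_ne_zero
    exact_mod_cast (Nat.card_pos (α := M)).ne'
  have hP0 : (∑ _x : P, (f₁ : ℂ)) ≠ 0 := by
    rw [Finset.sum_const, Finset.card_univ, nsmul_eq_mul]
    apply mul_ne_zero
    · exact_mod_cast (Fintype.card_pos (α := P)).ne'
    · exact_mod_cast hf₁0
  constructor
  · intro h
    have hgM : g ∈ M := by
      by_contra hg
      rw [indFun_not_mem M θ hg, h1val] at h
      exact (mul_ne_zero hM0 hP0) h.symm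
    refine ⟨hgM, ?_⟩
    have h2 := indFun_res_apply M θ ⟨g, hgM⟩
    have h3 : ∑ x : P, conjChar M θ x ⟨g, hgM⟩ = ∑ _x : P, (f₁ : ℂ) := by
      apply mul_left_cancel₀ hM0
      rw [← h2, ← h1val]
      exact h
    have h4 : ∀ x : P, ‖conjChar M θ x ⟨g, hgM⟩‖ ≤ f₁ := fun x =>
      norm_le_of_isCharacter (isCharacter_conjChar M hθ x) (hone x) _
    have h5 : ∀ x : P, (conjChar M θ x ⟨g, hgM⟩).re ≤ f₁ := fun x =>
      le_trans (Complex.re_le_norm _) (h4 x)
    have h6 : ∑ x : P, ((f₁ : ℝ) - (conjChar M θ x ⟨g, hgM⟩).re) = 0 := by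
      rw [Finset.sum_sub_distrib, sub_eq_zero]
      have := congrArg Complex.re h3
      rw [Complex.re_sum, Complex.re_sum] at this
      simp only [Complex.natCast_re] at this
      exact this.symm
    have h7 := (Finset.sum_eq_zero_iff_of_nonneg (fun x _ => sub_nonneg.mpr (h5 x))).mp h6
    intro x
    have h8 := Cfsg.Agent.H78.PS.eq_of_re_eq_of_norm_le (h4 x)
      (by have := h7 x (Finset.mem_univ x); linarith)
    rw [h8]
    simp
  · rintro ⟨hg, hall⟩
    have h2 := indFun_res_apply M θ ⟨g, hg⟩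
    rw [show indFun M θ g = indFun M θ ((⟨g, hg⟩ : M) : P) from rfl, h2, h1val]
    congr 1
    exact Finset.sum_congr rfl (fun x _ => hall x)

end Step

end Cfsg.Agent.H78.GC
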