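import Mathlib
import Cfsg.Prelude.Def_Characters
import Cfsg.Agent.H78.GC3
import Cfsg.Agent.H20.Basic

/-!
# helper78: induction from a maximal subgroup of a `p`-group, and Galois conjugates

* `exists_max_induced`: a nonlinear irreducible character of a `p`-group is induced from an
  irreducible character of a normal subgroup of index `p`;
* `galois_step`: for `χ = θ^P` with `[ℚ(χ) : ℚ] = (p - 1) p ^ t`, the degree of `ℚ(θ)` is
  `(p - 1) p ^ t` or `(p - 1) p ^ (t + 1)`, and in the second case every conjugate of `θ` is a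
  Galois conjugate of `θ`.
-/

set_option autoImplicit false
set_option linter.style.haveILetI false
set_option linter.unusedSectionVars false

namespace Cfsg.Agent.H78.GC

open Cfsg Polynomial Module Cfsg.Agent.H4 Cfsg.Agent.Clifford
open scoped ComplexConjugate

universe u

section Step

variable {P : Type u} [Group P] [Fintype P]

theorem exists_max_induced (p : ℕ) (hp : p.Prime)
    (hP : IsPGroup p P) (χ : IrrCharacter P) (f : ℕ) (hf : χ.1 1 = f) (hf2 : 2 ≤ f) :
    ∃ (M : Subgroup P), M.Normal ∧ M.index = p ∧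
      ∃ θ : M → ℂ, IsIrrCharacter M θ ∧ χ.1 = indFun M θ := by
  classical
  haveI : Fact p.Prime := ⟨hp⟩
  haveI : Group.IsNilpotent P := hP.isNilpotent
  obtain ⟨n, ρ, hirr, hρχ, hn, h1, -⟩ := Cfsg.Agent.H82.irr_rep χ
  haveI := hirr
  have hnf : n = f := by
    have h : (n : ℂ) = f := by rw [← h1, hf]
    exact_mod_cast h
  have hdim : 1 < finrank ℂ (Fin n → ℂ) := by
    rw [Module.finrank_fin_fun]
    omega
  obtain ⟨T, ψ, hT, hψ, hind⟩ := exists_induced_of_nilpotent ρ hdim
  obtain ⟨M, hMn, hMidx, hTM⟩ := Cfsg.Agent.H67.exists_normal_index_p_ge hP T hT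
  haveI := hMn
  letI : Fintype M := Fintype.ofFinite M
  obtain ⟨ψ', hψ'⟩ : ∃ ψ' : T.subgroupOf M → ℂ,
      ψ' = fun x : T.subgroupOf M => ψ ⟨((x : M) : P), Subgroup.mem_subgroupOf.mp x.2⟩ :=
    ⟨_, rfl⟩
  have hψ'c : IsCharacter (T.subgroupOf M) ψ' := by
    rw [hψ']
    exact isCharacter_comp_equiv (Subgroup.subgroupOfEquivOfLe hTM)
      (isCharacter_of_isIrrCharacter hψ)
  obtain ⟨θ, hθdef⟩ : ∃ θ : M → ℂ, θ = indFun (T.subgroupOf M) ψ' := ⟨_, rfl⟩
  have hχθ : χ.1 = indFun M θ := by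
    rw [← hρχ, hind, hθdef, hψ', indFun_trans T M hTM ψ]
  have hθc : IsCharacter M θ := by
    rw [hθdef]
    exact isCharacter_indFun _ _ hψ'c
  refine ⟨M, hMn, hMidx, θ, ?_, hχθ⟩
  have hχc : IsClassFunction P χ.1 :=
    isClassFunction_of_isCharacter (isCharacter_of_isIrrCharacter χ.2)
  have hθcl : IsClassFunction M θ := isClassFunction_of_isCharacter hθc
  have h1' : classInner θ (fun m : M => χ.1 m) = 1 := by
    rw [← frobenius_reciprocity M θ χ.1 hχc, ← hχθ]
    exact irr_inner_self χ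
  have h2 : (fun m : M => χ.1 m) = (Nat.card M : ℂ)⁻¹ • ∑ x : P, conjChar M θ x := by
    rw [hχθ]
    exact indFun_res M θ
  rw [h2, classInner_smul_right, classInner_sum_right] at h1'
  choose k hk using fun x : P => classInner_isCharacter_nat hθc (isCharacter_conjChar M hθc x)
  have hkM : ∀ x ∈ M, k x = k 1 := by
    intro x hx
    have h3 : (k x : ℂ) = k 1 := by
      rw [← hk x, ← hk 1, conjChar_mem M hθcl hx, conjChar_one]
    exact_mod_cast h3
  have hM0 : (Nat.card M : ℂ) ≠ 0 := by exact_mod_cast (Nat.card_pos (α := M)).ne'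
  have hsum : (∑ x : P, k x : ℕ) = Nat.card M := by
    have h3 : ((∑ x : P, k x : ℕ) : ℂ) = (Nat.card M : ℂ) := by
      push_cast
      rw [← Finset.sum_congr rfl (fun x _ => hk x)]
      rw [map_inv₀, Complex.conj_natCast] at h1'
      field_simp at h1'
      exact h1'
    exact_mod_cast h3
  have hle : Nat.card M * k 1 ≤ Nat.card M := by
    calc Nat.card M * k 1 = ∑ x ∈ Finset.univ.filter (· ∈ M), k x := by
          rw [Finset.sum_congr rfl (fun x hx => hkM x (Finset.mem_filter.mp hx).2),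
            Finset.sum_const, smul_eq_mul]
          congr 1
          exact Nat.subtype_card _ (by simp)
      _ ≤ ∑ x : P, k x := Finset.sum_le_sum_of_subset (Finset.filter_subset _ _)
      _ = Nat.card M := hsum
  have hk1 : k 1 ≤ 1 := by
    have hMpos : 0 < Nat.card M := Nat.card_pos
    nlinarith
  have hk1' : k 1 ≠ 0 := by
    intro h0
    have h3 := hk 1
    rw [conjChar_one, h0, Nat.cast_zero] at h3
    have h4 := Cfsg.Agent.H32.classInner_self_eq_zero h3
    have h5 : χ.1 1 = 0 := by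
      rw [hχθ, Cfsg.Agent.H20.indFun_one, h4]
      simp
    rw [hf] at h5
    have : f = 0 := by exact_mod_cast h5
    omega
  have hk11 : k 1 = 1 := by omega
  apply isIrrCharacter_of_norm_one hθc
  have h3 := hk 1
  rw [conjChar_one, hk11, Nat.cast_one] at h3
  exact h3

theorem galois_step (p : ℕ) (hp : p.Prime) (n : ℕ) (hcard : Nat.card P = p ^ (n + 1))
    (M : Subgroup P) [hM : M.Normal] (hMidx : M.index = p)
    (θ : M → ℂ) (hθ : IsIrrCharacter M θ) (χ : P → ℂ) (hχ : IsIrrCharacter P χ)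
    (hind : χ = indFun M θ) (t : ℕ)
    (hfield : finrank ℚ (IntermediateField.adjoin ℚ (Set.range χ)) = (p - 1) * p ^ t) :
    finrank ℚ (IntermediateField.adjoin ℚ (Set.range θ)) = (p - 1) * p ^ t ∨
    (finrank ℚ (IntermediateField.adjoin ℚ (Set.range θ)) = (p - 1) * p ^ (t + 1) ∧
      ∀ x : P, ∃ k : ℕ, k.Coprime p ∧ conjChar M θ x = fun m => θ (m ^ k)) := by
  classical
  letI : Fintype M := Fintype.ofFinite M
  obtain ⟨N, hNdef⟩ : ∃ N : ℕ, N = p ^ (n + 1) := ⟨_, rfl⟩
  have hN0 : 0 < N := by rw [hNdef]; exact pow_pos hp.pos _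
  have hN : ∀ g : P, g ^ N = 1 := by
    intro g
    rw [hNdef, ← hcard]
    exact pow_card_eq_one'
  have hNM : ∀ g : M, g ^ N = 1 := by
    intro g
    apply Subtype.ext
    rw [Subgroup.coe_pow, hN]
    rfl
  have hχc : IsCharacter P χ := isCharacter_of_isIrrCharacter hχ
  have hθc : IsCharacter M θ := isCharacter_of_isIrrCharacter hθ
  have hGχ := galois_count' N hN0 hN hχc
  have hGθ := galois_count' N hN0 hNM hθc
  obtain ⟨Sχ, hSχ⟩ : ∃ S : Subgroup (ZMod N)ˣ, S = stab N hN χ := ⟨_, rfl⟩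
  obtain ⟨Sθ, hSθ⟩ : ∃ S : Subgroup (ZMod N)ˣ, S = stab N hNM θ := ⟨_, rfl⟩
  rw [← hSχ] at hGχ
  rw [← hSθ] at hGθ
  have hcop : ∀ u : (ZMod N)ˣ, ((u : ZMod N).val).Coprime (Nat.card P) := by
    intro u
    rw [hcard, ← hNdef]
    exact ZMod.val_coe_unit_coprime u
  have hcopp : ∀ u : (ZMod N)ˣ, ((u : ZMod N).val).Coprime p := by
    intro u
    have := hcop u
    rw [hcard] at this
    exact Nat.Coprime.coprime_dvd_right (dvd_pow_self p (Nat.succ_ne_zero n)) this
  have hcopM : ∀ u : (ZMod N)ˣ, ((u : ZMod N).val).Coprime (Nat.card M) := fun u =>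
    Nat.Coprime.coprime_dvd_right (Subgroup.card_subgroup_dvd_card M) (hcop u)
  have hle : Sθ ≤ Sχ := by
    intro u hu
    rw [hSθ, mem_stab] at hu
    rw [hSχ, mem_stab]
    intro g
    rw [hind]
    exact Cfsg.Agent.H78.PS.indFun_pow_inv M θ _ (hcop u) hu g
  have hχcl : IsClassFunction P χ := isClassFunction_of_isCharacter hχc
  have h1 : classInner (fun m : M => χ m) θ ≠ 0 := by
    have h2 : classInner θ (fun m : M => χ m) = 1 := by
      rw [← frobenius_reciprocity M θ χ hχcl, ← hind]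
      exact irr_inner_self ⟨χ, hχ⟩
    rw [← classInner_conj_symm, h2]
    simp
  -- the key: Galois conjugates are conjugates
  have hkey : ∀ u ∈ Sχ, ∃ x : P,
      (fun m : M => θ (m ^ (u : ZMod N).val)) = conjChar M θ x := by
    intro u hu
    rw [hSχ, mem_stab] at hu
    have htw : IsIrrCharacter M (fun m : M => θ (m ^ (u : ZMod N).val)) :=
      Cfsg.Agent.H79.isIrrCharacter_comp_pow _ (hcopM u) hθ
    have h2 : classInner (fun m : M => χ m) (fun m : M => θ (m ^ (u : ZMod N).val)) ≠ 0 := by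
      have h3 : classInner (fun m : M => χ m) (fun m : M => θ (m ^ (u : ZMod N).val))
          = classInner (fun m : M => χ m) θ := by
        have h4 : (fun m : M => χ m) = fun m : M => χ ((m ^ (u : ZMod N).val : M) : P) := by
          funext m
          rw [Subgroup.coe_pow, hu]
        conv_lhs => rw [h4]
        simp only [classInner]
        congr 1
        exact Fintype.sum_equiv (powCoprime (hcopM u).symm) _ _ (fun g => rfl)
      rw [h3]
      exact h1
    exact clifford_conj M hχ hθ htw h1 h2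
  choose! xs hxs using hkey
  obtain ⟨F, hF⟩ : ∃ F : (Sχ ⧸ Sθ.subgroupOf Sχ) → P ⧸ M,
      F = fun c => ((xs ((c.out : Sχ) : (ZMod N)ˣ) : P) : P ⧸ M) := ⟨_, rfl⟩
  have hFinj : Function.Injective F := by
    intro c c' hcc
    rw [hF] at hcc
    simp only at hcc
    have e1 := hxs (c.out : Sχ) c.out.2
    have e2 := hxs (c'.out : Sχ) c'.out.2
    have e3 : (fun m : M => θ (m ^ (((c.out : Sχ) : (ZMod N)ˣ) : ZMod N).val))
        = (fun m : M => θ (m ^ (((c'.out : Sχ) : (ZMod N)ˣ) : ZMod N).val)) := by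
      rw [e1, e2]
      exact conjChar_eq_of_mk_eq M hθ hcc
    have e4 : ((c.out)⁻¹ * c'.out : Sχ) ∈ Sθ.subgroupOf Sχ := by
      rw [Subgroup.mem_subgroupOf]
      have e6 : ∀ v : (ZMod N)ˣ, (∀ g : M, θ (g ^ (v : ZMod N).val) = θ g) → v ∈ Sθ := by
        intro v hv
        rw [hSθ, mem_stab]
        exact hv
      apply e6
      intro g
      rw [Subgroup.coe_mul, Subgroup.coe_inv, Units.val_mul, pow_val_mul g (hNM g)]
      have e5 := congrFun e3 (g ^ ((((c.out : Sχ) : (ZMod N)ˣ)⁻¹ : (ZMod N)ˣ) : ZMod N).val)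
      beta_reduce at e5
      rw [← e5, ← pow_val_mul g (hNM g), ← Units.val_mul, inv_mul_cancel, Units.val_one,
        pow_val_one g (hNM g)]
    rw [← QuotientGroup.out_eq' c, ← QuotientGroup.out_eq' c']
    exact QuotientGroup.eq.mpr e4
  have hr : Nat.card (Sχ ⧸ Sθ.subgroupOf Sχ) ≤ p := by
    have := Nat.card_le_card_of_injective F hFinj
    rwa [← Subgroup.index_eq_card M, hMidx] at this
  obtain ⟨r, hrdef⟩ : ∃ r, r = Nat.card (Sχ ⧸ Sθ.subgroupOf Sχ) := ⟨_, rfl⟩
  rw [← hrdef] at hr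
  have hmul : Nat.card Sθ * r = Nat.card Sχ := by
    rw [hrdef, ← Subgroup.index_eq_card, ← Nat.card_congr (Subgroup.subgroupOfEquivOfLe hle).toEquiv]
    exact Subgroup.card_mul_index _
  -- number theory
  have hp1 : 0 < p - 1 := by have := hp.two_le; omega
  have htot : N.totient = p ^ n * (p - 1) := by
    rw [hNdef, Nat.totient_prime_pow_succ hp]
  rw [hfield, htot] at hGχ
  rw [htot] at hGθ
  have hSχcard : p ^ t * Nat.card Sχ = p ^ n := by
    apply Nat.eq_of_mul_eq_mul_left hp1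
    rw [← mul_assoc, hGχ, mul_comm]
  obtain ⟨j, -, hj⟩ := (Nat.dvd_prime_pow hp).mp (Dvd.intro_left _ hSχcard)
  obtain ⟨i, -, hi⟩ := (Nat.dvd_prime_pow hp).mp (hj ▸ Dvd.intro_left _ hmul)
  have hi1 : i ≤ 1 := by
    rw [hi] at hr
    have h2 : p ^ i ≤ p ^ 1 := by rwa [pow_one]
    exact (Nat.pow_le_pow_iff_right hp.one_lt).mp h2
  have hSθpos : 0 < Nat.card Sθ := Nat.card_pos
  have hfin : finrank ℚ (IntermediateField.adjoin ℚ (Set.range θ)) = (p - 1) * p ^ t * r := by
    apply Nat.eq_of_mul_eq_mul_right hSθpos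
    rw [hGθ, ← hSχcard, ← hmul]
    ring
  interval_cases i
  · left
    rw [hfin, hi, pow_zero, mul_one]
  · right
    rw [pow_one] at hi
    refine ⟨by rw [hfin, hi, pow_succ, mul_assoc], ?_⟩
    have hbij : Function.Bijective F := by
      apply hFinj.bijective_of_nat_card_le
      rw [← hrdef, hi, ← Subgroup.index_eq_card M, hMidx]
    intro x
    obtain ⟨c, hc⟩ := hbij.2 (x : P ⧸ M)
    refine ⟨(((c.out : Sχ) : (ZMod N)ˣ) : ZMod N).val, hcopp _, ?_⟩
    rw [hxs (c.out : Sχ) c.out.2]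
    apply conjChar_eq_of_mk_eq M hθ
    rw [← hc, hF]

end Step

end Cfsg.Agent.H78.GC
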