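import Mathlib
import Cfsg.Prelude.Def_Characters
import Cfsg.Agent.H78.GC4

/-!
# helper78: the order of a `p`-group, the degree and the field of values of an irreducible character

`main_bound`: if `χ` is an irreducible character of degree `f` of a `p`-group, its kernel has
index `p ^ a` and `[ℚ(χ) : ℚ] = (p - 1) p ^ t`, then `(p - 1) a ≤ (f - 1) + (p - 1) (t + 1) f`.
-/

set_option autoImplicit false
set_option linter.style.haveILetI false
set_option linter.unusedSectionVars false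

namespace Cfsg.Agent.H78.GC

open Cfsg Polynomial Module Cfsg.Agent.H4 Cfsg.Agent.Clifford
open scoped ComplexConjugate

universe u

theorem step_core {P : Type u} [Group P] [Fintype P] (p : ℕ) (hp : p.Prime) (n : ℕ)
    (hcard : Nat.card P = p ^ (n + 1))
    (M : Subgroup P) [hM : M.Normal] (hMidx : M.index = p)
    (θ : M → ℂ) (hθ : IsIrrCharacter M θ) (χ : IrrCharacter P) (hind : χ.1 = indFun M θ)
    (a f t : ℕ) (hidx : (Cfsg.Agent.H82.irrKer χ).index = p ^ a) (hf : χ.1 1 = f)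
    (hfield : finrank ℚ (IntermediateField.adjoin ℚ (Set.range χ.1)) = (p - 1) * p ^ t) :
    ∃ (a₁ f₁ t₁ : ℕ), (Cfsg.Agent.H82.irrKer ⟨θ, hθ⟩).index = p ^ a₁ ∧ θ 1 = f₁ ∧
       finrank ℚ (IntermediateField.adjoin ℚ (Set.range θ)) = (p - 1) * p ^ t₁ ∧ f = p * f₁ ∧
       1 ≤ f₁ ∧ 1 ≤ a ∧ ((t₁ = t ∧ a - 1 ≤ p * a₁) ∨ (t₁ = t + 1 ∧ a - 1 = a₁)) := by
  classical
  letI : Fintype M := Fintype.ofFinite M
  have hθc := isCharacter_of_isIrrCharacter hθ
  obtain ⟨n₁, ρ₁, -, -, hn₁, hθ1, -⟩ := Cfsg.Agent.H82.irr_rep ⟨θ, hθ⟩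
  have hθ1' : θ 1 = n₁ := hθ1
  have hcardM : Nat.card M * p = Nat.card P := by
    rw [← hMidx]
    exact Subgroup.card_mul_index M
  have hM0 : (Nat.card M : ℂ) ≠ 0 := by exact_mod_cast (Nat.card_pos (α := M)).ne'
  have hfp : f = p * n₁ := by
    have h : (f : ℂ) = ((p * n₁ : ℕ) : ℂ) := by
      rw [← hf, hind, Cfsg.Agent.H20.indFun_one, hθ1', ← hcardM]
      push_cast
      field_simp
    exact_mod_cast h
  have hker : ∀ g : P, g ∈ Cfsg.Agent.H82.irrKer χ ↔
      ∃ hg : g ∈ M, ∀ x : P, conjChar M θ x ⟨g, hg⟩ = n₁ := by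
    intro g
    rw [Cfsg.Agent.H82.mem_irrKer, hind]
    exact mem_ker_ind_iff M hθc n₁ hθ1' hn₁.ne' g
  have hKM : Cfsg.Agent.H82.irrKer χ ≤ M := fun g hg => ((hker g).mp hg).1
  obtain ⟨D, hD⟩ : ∃ D : Subgroup M, D = (Cfsg.Agent.H82.irrKer χ).subgroupOf M := ⟨_, rfl⟩
  have hDidx : D.index * p = p ^ a := by
    rw [hD, ← hidx, ← hMidx]
    exact Subgroup.relIndex_mul_index hKM
  have hDmem : ∀ g : M, g ∈ D ↔ ∀ x : P, conjChar M θ x g = n₁ := by
    intro g
    rw [hD, Subgroup.mem_subgroupOf, hker]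
    constructor
    · rintro ⟨_, h⟩
      exact h
    · intro h
      exact ⟨g.2, h⟩
  have ha1 : 1 ≤ a := by
    by_contra h0
    have ha0 : a = 0 := by omega
    rw [ha0, pow_zero] at hDidx
    have := Nat.eq_one_of_mul_eq_one_left hDidx
    exact hp.one_lt.ne' this
  have hDidx' : D.index = p ^ (a - 1) := by
    obtain ⟨b, rfl⟩ : ∃ b, a = b + 1 := ⟨a - 1, by omega⟩
    rw [pow_succ] at hDidx
    simpa using Nat.eq_of_mul_eq_mul_right hp.pos hDidx
  obtain ⟨Kθ, hKθ⟩ : ∃ K : Subgroup M, K = Cfsg.Agent.H82.irrKer ⟨θ, hθ⟩ := ⟨_, rfl⟩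
  have hKθmem : ∀ g : M, g ∈ Kθ ↔ θ g = n₁ := by
    intro g
    rw [hKθ, Cfsg.Agent.H82.mem_irrKer]
    change θ g = θ 1 ↔ θ g = n₁
    rw [hθ1']
  have hMcard : Nat.card M = p ^ n := by
    rw [hcard, pow_succ] at hcardM
    exact Nat.eq_of_mul_eq_mul_right hp.pos hcardM
  obtain ⟨a₁, -, ha₁⟩ := (Nat.dvd_prime_pow hp).mp (hMcard ▸ Subgroup.index_dvd_card Kθ)
  rcases galois_step p hp n hcard M hMidx θ hθ χ.1 χ.2 hind t hfield with h | ⟨h, hall⟩
  · refine ⟨a₁, n₁, t, by rw [← hKθ]; exact ha₁, hθ1', h, hfp, hn₁, ha1, Or.inl ⟨rfl, ?_⟩⟩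
    have hDinf : D = ⨅ q : P ⧸ M,
        Kθ.comap (MulAut.conjNormal (q.out : P) : M ≃* M).toMonoidHom := by
      ext g
      rw [hDmem, Subgroup.mem_iInf]
      constructor
      · intro h q
        rw [Subgroup.mem_comap, hKθmem]
        have := h q.out
        rw [conjChar_eq_comp] at this
        exact this
      · intro h x
        rw [conjChar_out M hθ x, conjChar_eq_comp]
        have := h (x : P ⧸ M)
        rw [Subgroup.mem_comap, hKθmem] at this
        exact this
    have hle : D.index ≤ ∏ q : P ⧸ M,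
        (Kθ.comap (MulAut.conjNormal (q.out : P) : M ≃* M).toMonoidHom).index := by
      rw [hDinf]
      exact Subgroup.index_iInf_le _
    have hprod : ∀ q : P ⧸ M,
        (Kθ.comap (MulAut.conjNormal (q.out : P) : M ≃* M).toMonoidHom).index = p ^ a₁ := by
      intro q
      rw [Subgroup.index_comap_of_surjective _ (MulEquiv.surjective _), ha₁]
    rw [Finset.prod_congr rfl (fun q _ => hprod q), Finset.prod_const, Finset.card_univ,
      ← Nat.card_eq_fintype_card, ← Subgroup.index_eq_card, hMidx, hDidx', ← pow_mul] at hle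
    have := (Nat.pow_le_pow_iff_right hp.one_lt).mp hle
    rw [mul_comm]
    exact this
  · refine ⟨a₁, n₁, t + 1, by rw [← hKθ]; exact ha₁, hθ1', h, hfp, hn₁, ha1, Or.inr ⟨rfl, ?_⟩⟩
    have hDK : D = Kθ := by
      ext g
      rw [hDmem, hKθmem]
      constructor
      · intro h
        have := h 1
        rwa [conjChar_one] at this
      · intro hg x
        obtain ⟨k, -, hx⟩ := hall x
        rw [hx]
        beta_reduce
        rw [← hKθmem]
        exact Kθ.pow_mem ((hKθmem g).mpr hg) k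
    rw [hDK, ha₁] at hDidx'
    exact (Nat.pow_right_injective hp.two_le hDidx').symm

theorem main_bound (p : ℕ) (hp : p.Prime) : ∀ (n : ℕ) (P : Type u) [Group P] [Finite P],
    Nat.card P = p ^ n → ∀ (χ : IrrCharacter P) (a f t : ℕ),
      (Cfsg.Agent.H82.irrKer χ).index = p ^ a → χ.1 1 = f →
      finrank ℚ (IntermediateField.adjoin ℚ (Set.range χ.1)) = (p - 1) * p ^ t →
      (p - 1) * a ≤ (f - 1) + (p - 1) * (t + 1) * f := by
  intro n
  induction n with
  | zero =>
    intro P _ _ hcard χ a f t hidx hf hfield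
    have ha : a = 0 := by
      have h1 : (Cfsg.Agent.H82.irrKer χ).index ∣ Nat.card P := Subgroup.index_dvd_card _
      rw [hcard, pow_zero, hidx, Nat.dvd_one] at h1
      exact (Nat.pow_eq_one.mp h1).resolve_left hp.one_lt.ne'
    subst ha
    simp
  | succ n ih =>
    intro P _ _ hcard χ a f t hidx hf hfield
    by_cases hf1 : f = 1
    · subst hf1
      by_cases ha : a = 0
      · subst ha
        simp
      · have hat := linear_case p hp χ (by simpa using hf) a t (Nat.pos_of_ne_zero ha) hidx hfield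
        subst hat
        simp
    · obtain ⟨n₀, ρ₀, -, -, hn₀, hχ1, -⟩ := Cfsg.Agent.H82.irr_rep χ
      have hf0 : 0 < f := by
        have h : (n₀ : ℂ) = f := by rw [← hχ1, hf]
        have h' : n₀ = f := by exact_mod_cast h
        omega
      have hf2 : 2 ≤ f := by omega
      letI : Fintype P := Fintype.ofFinite P
      have hP : IsPGroup p P := IsPGroup.of_card hcard
      obtain ⟨M, hMn, hMidx, θ, hθ, hind⟩ := exists_max_induced p hp hP χ f hf hf2
      haveI := hMn
      obtain ⟨a₁, f₁, t₁, h1, h2, h3, h4, h5, h6, h7⟩ :=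
        step_core p hp n hcard M hMidx θ hθ χ hind a f t hidx hf hfield
      have hMcard : Nat.card M = p ^ n := by
        have hcardM : Nat.card M * p = Nat.card P := by
          rw [← hMidx]
          exact Subgroup.card_mul_index M
        rw [hcard, pow_succ] at hcardM
        exact Nat.eq_of_mul_eq_mul_right hp.pos hcardM
      have IH := ih M hMcard ⟨θ, hθ⟩ a₁ f₁ t₁ h1 h2 h3
      obtain ⟨q, rfl⟩ : ∃ q, p = q + 1 := ⟨p - 1, by have := hp.two_le; omega⟩
      have hq : 1 ≤ q := by have := hp.two_le; omega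
      rw [Nat.add_sub_cancel] at IH ⊢
      obtain ⟨g, rfl⟩ : ∃ g, f₁ = g + 1 := ⟨f₁ - 1, by omega⟩
      obtain ⟨b, rfl⟩ : ∃ b, a = b + 1 := ⟨a - 1, by omega⟩
      rw [Nat.add_sub_cancel] at IH
      rw [Nat.add_sub_cancel] at h7
      obtain ⟨F, hF⟩ : ∃ F, F = f - 1 := ⟨_, rfl⟩
      have hF' : F = q * g + q + g := by
        rw [hF, h4]
        have : (q + 1) * (g + 1) = q * g + q + g + 1 := by ring
        omega
      rw [← hF, hF', h4]
      rcases h7 with ⟨rfl, hb⟩ | ⟨rfl, rfl⟩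
      · have e1 : q * b ≤ q * ((q + 1) * a₁) := Nat.mul_le_mul_left q hb
        have e2 : (q + 1) * (q * a₁) ≤ (q + 1) * (g + q * (t₁ + 1) * (g + 1)) :=
          Nat.mul_le_mul_left _ IH
        nlinarith [e1, e2]
      · have e3 : q * 1 ≤ q * (q * ((t + 1) * (g + 1))) := by
          apply Nat.mul_le_mul_left
          have : 0 < q * ((t + 1) * (g + 1)) := by positivity
          omega
        nlinarith [e3, IH]

end Cfsg.Agent.H78.GC
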