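import Cfsg.Agent.H23.IcDefs

set_option autoImplicit false
set_option maxRecDepth 100000

/-!
# IC (S5751): the piece LT (leading term of an ordered product of positive root elements)
-/

namespace Cfsg.Agent.H78.Ic

open Cfsg.Lie Cfsg.Agent.H23 Cfsg.Agent.H23.Ic

/-- The roots of type E8 are separated by the packed coordinate tables. -/
theorem root_sep : ∀ k < 240, ∀ r < 240, (∀ Z ∈ ctblE8, zS Z 240 k = zS Z 240 r) → k = r := by
  decide +kernel

/-- A nonzero entry of `x_s(t) - 1` comes with a positive power `p`: every admissible weight satisfies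
`w (row) = w (col) + p * w s`. -/
theorem x_entry_adm (s : ℕ) (hs : s < chevE8.nroots) (t : ZMod 2) (i k : chevE8.Idx)
    (h : (chevE8.x (ZMod 2) s t - 1) i k ≠ 0) :
    ∃ p : ℕ, 1 ≤ p ∧ ∀ w : ℕ → ℤ, Adm chevE8 w →
      w (ix chevE8 i) = w (ix chevE8 k) + (p : ℤ) * w s := by
  obtain ⟨rest, h1, h2⟩ := xEntries_head (D := chevE8) s (ix chevE8 k) (ix_lt chevE8 k)
  have h3 : (chevE8.x (ZMod 2) s t - 1) i k = evalE chevE8 t rest i := by
    rw [Matrix.sub_apply, x_apply s hs, h1, evalE_cons]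
    simp only [Pi.add_apply, Pi.smul_apply, basisV, Int.cast_one, pow_zero, mul_one, smul_eq_mul]
    by_cases hik : i = k
    · subst hik; simp
    · have : ix chevE8 i ≠ ix chevE8 k := fun e => hik (ix_injective chevE8 e)
      simp [this, Matrix.one_apply_ne hik]
  rw [h3] at h
  obtain ⟨x, hx, hix⟩ := evalE_ne_zero t rest i h
  have hx' : x ∈ xEntries chevE8 s (ix chevE8 k) := by rw [h1]; exact List.mem_cons_of_mem _ hx
  refine ⟨x.2.2, h2 x hx, fun w hw => ?_⟩
  have h4 := hw s hs (ix chevE8 k) x hx'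
  rw [hix, h4]

theorem adm_wN (cw : List ℤ) : Adm chevE8 (wN cw) := adm_zRl chevE8 cw ctblE8 chk_E8.admZ

/-- For `k ≠ r` the `(h_i, e_{-r})` entry of `x_k(t) - 1` vanishes, when `0 < w r ≤ w k`. -/
theorem x_entry_h_ne (cw : List ℤ) (k r : ℕ) (hk : k < chevE8.nroots) (hr : r < chevE8.nroots)
    (hkr : k ≠ r) (hm : 0 < wN cw r) (hle : wN cw r ≤ wN cw k) (t : ZMod 2) (i : Fin chevE8.rank)
    (c : Fin chevE8.nroots) (hc : c.val = chevE8.neg r) :
    (chevE8.x (ZMod 2) k t - 1) (Sum.inl i) (Sum.inr c) = 0 := by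
  by_contra h
  obtain ⟨p, hp, hadm⟩ := x_entry_adm k hk t _ _ h
  have e1 : ix chevE8 (Sum.inl i : chevE8.Idx) = chevE8.nroots + i.val := rfl
  have e2 : ix chevE8 (Sum.inr c : chevE8.Idx) = chevE8.neg r := hc
  rw [e1, e2] at hadm
  have hcw := adm_wN cw
  have f1 := hadm (wN cw) hcw
  have f2 : wN cw (chevE8.nroots + i.val) = 0 := zRl_ge _ _ _ _ (Nat.le_add_right _ _)
  have f3 : wN cw (chevE8.neg r) = - wN cw r := adm_neg tab_E8 tab2_E8 (wN cw) hcw r hr
  rw [f2, f3] at f1
  have hp1 : p = 1 := by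
    by_contra hne
    have hp2 : (2 : ℤ) ≤ (p : ℤ) := by exact_mod_cast (by omega : 2 ≤ p)
    nlinarith
  subst hp1
  apply hkr
  apply root_sep k hk r hr
  intro Z hZ
  have hZadm : Adm chevE8 (zS Z chevE8.nroots) := chk_E8.admZ Z hZ
  have g1 := hadm _ hZadm
  have g2 : zS Z chevE8.nroots (chevE8.nroots + i.val) = 0 := zS_ge _ _ _ (Nat.le_add_right _ _)
  have g3 : zS Z chevE8.nroots (chevE8.neg r) = - zS Z chevE8.nroots r :=
    adm_neg tab_E8 tab2_E8 _ hZadm r hr
  rw [g2, g3] at g1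
  show zS Z chevE8.nroots k = zS Z chevE8.nroots r
  push_cast at g1
  linarith

/-- LT. -/
theorem lt : StLT := by
  intro cw hcwpos t r hrpos htr hmin
  have hn : chevE8.nroots = 240 := rfl
  have hr : r < chevE8.nroots := hrpos.1
  have hm : 0 < wN cw r := hcwpos r hr hrpos
  have hcw := adm_wN cw
  have hm0 : (0 : ℤ) ≤ wN cw r - 1 := by omega
  have hnr : chevE8.neg r < chevE8.nroots := tab_E8.neg_lt r hr
  obtain ⟨c, hc⟩ : ∃ c : Fin chevE8.nroots, c.val = chevE8.neg r := ⟨⟨chevE8.neg r, hnr⟩, Fin.val_mk hnr⟩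
  have wq : wt cw (Sum.inr c : chevE8.Idx) = - wN cw r := by
    show wN cw (ix chevE8 (Sum.inr c : chevE8.Idx)) = _
    have e2 : ix chevE8 (Sum.inr c : chevE8.Idx) = chevE8.neg r := hc
    rw [e2]
    exact adm_neg tab_E8 tab2_E8 (wN cw) hcw r hr
  have wp : ∀ i : Fin chevE8.rank, wt cw (Sum.inl i : chevE8.Idx) = 0 := fun i =>
    zRl_ge _ _ _ _ (Nat.le_add_right _ _)
  have hA : ∀ k, k < chevE8.nroots → chevE8.IsPosRoot k →
      RaisM (wt cw) (wN cw r - 1) (chevE8.x (ZMod 2) k (t k) - 1) := by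
    intro k hk hkpos
    by_cases htk : t k = 0
    · rw [htk, x_zero, sub_self]; exact RaisM.zero
    · exact x_raisM (wN cw) hcw k hk _ hm0 (by have := hmin k hkpos htk; omega) (t k)
  have key : ∀ (d k : ℕ), k + d = 240 →
      RaisM (wt cw) (wN cw r - 1)
        (((tailW hS k t : GLE) : Matrix chevE8.Idx chevE8.Idx (ZMod 2)) - 1) ∧
      ∀ i : Fin chevE8.rank,
        (((tailW hS k t : GLE) : Matrix chevE8.Idx chevE8.Idx (ZMod 2)) - 1) (Sum.inl i) (Sum.inr c) =
          if k ≤ r then (chevE8.x (ZMod 2) r (t r) - 1) (Sum.inl i) (Sum.inr c) else 0 := by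
    intro d
    induction d with
    | zero =>
      intro k hk
      rw [tailW_ge hS k (by rw [hn]; omega) t]
      refine ⟨by rw [Units.val_one, sub_self]; exact RaisM.zero, fun i => ?_⟩
      rw [Units.val_one, sub_self, if_neg (by rw [hn] at hr; omega)]
      rfl
    | succ d ih =>
      intro k hk
      have hkn : k < chevE8.nroots := by rw [hn]; omega
      obtain ⟨ih1, ih2⟩ := ih (k + 1) (by omega)
      by_cases hp : chevE8.IsPosRoot k
      · rw [tailW_pos hS k hkn hp t, Units.val_mul, xU_val]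
        have hAk := hA k hkn hp
        refine ⟨raisM_mul_sub_one hm0 hAk ih1, fun i => ?_⟩
        have e : chevE8.x (ZMod 2) k (t k) *
            ((tailW hS (k + 1) t : GLE) : Matrix chevE8.Idx chevE8.Idx (ZMod 2)) - 1 =
            (chevE8.x (ZMod 2) k (t k) - 1) *
              (((tailW hS (k + 1) t : GLE) : Matrix chevE8.Idx chevE8.Idx (ZMod 2)) - 1) +
            (chevE8.x (ZMod 2) k (t k) - 1) +
            (((tailW hS (k + 1) t : GLE) : Matrix chevE8.Idx chevE8.Idx (ZMod 2)) - 1) := by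
          noncomm_ring
        rw [e, Matrix.add_apply, Matrix.add_apply, ih2 i]
        have z1 : ((chevE8.x (ZMod 2) k (t k) - 1) *
            (((tailW hS (k + 1) t : GLE) : Matrix chevE8.Idx chevE8.Idx (ZMod 2)) - 1))
              (Sum.inl i) (Sum.inr c) = 0 := by
          by_contra hne
          obtain ⟨l, hl1, hl2⟩ := exists_of_mul_ne_zero hne
          have f1 := hAk _ _ hl1
          have f2 := ih1 _ _ hl2
          rw [wp i] at f1
          rw [wq] at f2
          omega
        rw [z1, zero_add]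
        by_cases hkr : k = r
        · rw [if_neg (by omega), if_pos (by omega), add_zero, hkr]
        · have z2 : (chevE8.x (ZMod 2) k (t k) - 1) (Sum.inl i) (Sum.inr c) = 0 := by
            by_cases htk : t k = 0
            · rw [htk, x_zero, sub_self]; rfl
            · exact x_entry_h_ne cw k r hkn hr hkr hm (hmin k hp htk) (t k) i c hc
          rw [z2, zero_add]
          by_cases hle : k ≤ r
          · rw [if_pos hle, if_pos (by omega)]
          · rw [if_neg hle, if_neg (by omega)]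
      · rw [tailW_not_pos hS k hkn hp t]
        refine ⟨ih1, fun i => ?_⟩
        rw [ih2 i]
        have hkr : k ≠ r := fun e => hp (e ▸ hrpos)
        by_cases hle : k ≤ r
        · rw [if_pos hle, if_pos (by omega)]
        · rw [if_neg hle, if_neg (by omega)]
  obtain ⟨-, k2⟩ := key 240 0 (by norm_num)
  -- an odd coroot coordinate
  have hodd : ∃ i, i < chevE8.rank ∧ (((chevE8.coroot.getD r #[]).getD i 0 : ℤ) : ZMod 2) ≠ 0 := by
    by_contra hcon
    push_neg at hcon
    have hb := bez_of bzE8 tabHalf_E8 bez_E8 r hr hrpos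
    have h1 : ((∑ i ∈ Finset.range chevE8.rank,
        bzF chevE8 bzE8 r i * (chevE8.coroot.getD r #[]).getD i 0 : ℤ) : ZMod 2) = 0 := by
      rw [Int.cast_sum]
      apply Finset.sum_eq_zero
      intro i hi
      rw [Int.cast_mul, hcon i (Finset.mem_range.mp hi), mul_zero]
    rw [hb, Int.cast_one] at h1
    exact one_ne_zero h1
  obtain ⟨i, hi, hodd⟩ := hodd
  have hceq : c = ⟨chevE8.neg r, tab_E8.neg_lt r hr⟩ := Fin.ext (hc.trans (Fin.val_mk (tab_E8.neg_lt r hr)).symm)
  refine ⟨⟨i, hi⟩, c, hc, ?_⟩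
  have h3 := k2 ⟨i, hi⟩
  rw [if_pos (Nat.zero_le r)] at h3
  have e1 : ∀ M : Matrix chevE8.Idx chevE8.Idx (ZMod 2),
      (M - 1) (Sum.inl ⟨i, hi⟩) (Sum.inr c) = M (Sum.inl ⟨i, hi⟩) (Sum.inr c) := by
    intro M
    rw [Matrix.sub_apply, Matrix.one_apply_ne (by simp), sub_zero]
  rw [e1, e1] at h3
  rw [h3, hceq, x_entry_h tab_E8 tab2_E8 r hr i hi (t r)]
  exact mul_ne_zero hodd htr

example : Cfsg.Agent.H23.Ic.StLT := lt

end Cfsg.Agent.H78.Ic
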