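import Cfsg.Agent.H46.OSDefs

/-!
# S2159, piece OS-ABSN (helper78, parallel take): normality, commutativity and cyclicity in `A ⧸ I`
-/

set_option autoImplicit false

namespace Cfsg.Agent.H78.OSN

open Cfsg.Agent.H46.OS

universe u

theorem absN : StAbsN.{u} := by
  intro A _ I _ Dg Fd Gr hcomm hcyc hfd hgd hgf hdec Dbar Fbar hD hF
  subst hD hF
  set mk := QuotientGroup.mk' I with hmk
  have hmk_surj : Function.Surjective mk := QuotientGroup.mk'_surjective I
  have hmkI : ∀ i ∈ I, mk i = 1 := fun i hi => (QuotientGroup.eq_one_iff i).mpr hi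
  -- conjugation by `f ∈ Fd`, `g ∈ Gr`, `d ∈ closure Dg` preserves `closure Dg`
  have conjF : ∀ f ∈ Fd, ∀ x ∈ Subgroup.closure Dg, f * x * f⁻¹ ∈ Subgroup.closure Dg := by
    intro f hf x hx
    have hle : Subgroup.closure Dg ≤ (Subgroup.closure Dg).comap (MulAut.conj f).toMonoidHom := by
      rw [Subgroup.closure_le]
      intro d hd
      show f * d * f⁻¹ ∈ Subgroup.closure Dg
      exact Subgroup.subset_closure (hfd f hf d hd)
    exact hle hx
  have conjG : ∀ g ∈ Gr, ∀ x ∈ Subgroup.closure Dg, g * x * g⁻¹ ∈ Subgroup.closure Dg := by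
    intro g hg x hx
    have hle : Subgroup.closure Dg ≤ (Subgroup.closure Dg).comap (MulAut.conj g).toMonoidHom := by
      rw [Subgroup.closure_le]
      intro d hd
      show g * d * g⁻¹ ∈ Subgroup.closure Dg
      exact Subgroup.subset_closure (hgd g hg d hd)
    exact hle hx
  -- `g ∈ Gr` centralises `closure Fd`
  have centG : ∀ g ∈ Gr, ∀ y ∈ Subgroup.closure Fd, g * y * g⁻¹ = y := by
    intro g hg y hy
    have hle : Subgroup.closure Fd ≤ Subgroup.centralizer {g} := by
      rw [Subgroup.closure_le]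
      intro f hf
      rw [SetLike.mem_coe, Subgroup.mem_centralizer_iff]
      intro h hh
      rw [Set.mem_singleton_iff] at hh
      subst hh
      exact hgf h hg f hf
    have h1 := Subgroup.mem_centralizer_iff.mp (hle hy) g (Set.mem_singleton g)
    rw [h1, mul_inv_cancel_right]
  -- D̄ is normal
  have hDn : ((Subgroup.closure Dg).map mk).Normal := by
    constructor
    intro n hn q
    obtain ⟨x, hx, rfl⟩ := hn
    obtain ⟨θ, rfl⟩ := hmk_surj q
    obtain ⟨i, hi, d, hd, g, hg, f, hf, rfl⟩ := hdec θ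
    have h1 := conjF f hf x hx
    have h2 := conjG g hg _ h1
    have h3 : d * (g * (f * x * f⁻¹) * g⁻¹) * d⁻¹ ∈ Subgroup.closure Dg :=
      Subgroup.mul_mem _ (Subgroup.mul_mem _ (Subgroup.subset_closure hd) h2)
        (Subgroup.inv_mem _ (Subgroup.subset_closure hd))
    refine ⟨d * (g * (f * x * f⁻¹) * g⁻¹) * d⁻¹, h3, ?_⟩
    have e : i * d * g * f * x * (i * d * g * f)⁻¹ = i * (d * (g * (f * x * f⁻¹) * g⁻¹) * d⁻¹) * i⁻¹ := by
      group
    have e2 : mk (i * d * g * f) * mk x * (mk (i * d * g * f))⁻¹ =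
        mk (d * (g * (f * x * f⁻¹) * g⁻¹) * d⁻¹) := by
      rw [← map_inv, ← map_mul, ← map_mul, e, map_mul, map_mul, map_inv, hmkI i hi, one_mul, inv_one,
        mul_one]
    exact e2.symm
  -- commutativity
  have hDc : ∀ x ∈ Subgroup.closure Dg, ∀ y ∈ Subgroup.closure Dg, x * y = y * x := by
    intro x hx y hy
    have h1 : Subgroup.closure Dg ≤ Subgroup.centralizer (Subgroup.closure Dg : Set A) := by
      rw [Subgroup.closure_le]
      intro d hd
      rw [SetLike.mem_coe, Subgroup.mem_centralizer_iff]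
      intro h hh
      have h2 : Subgroup.closure Dg ≤ Subgroup.centralizer {d} := by
        rw [Subgroup.closure_le]
        intro d' hd'
        rw [SetLike.mem_coe, Subgroup.mem_centralizer_iff]
        intro h' hh'
        rw [Set.mem_singleton_iff] at hh'
        subst hh'
        exact hcomm h' hd d' hd'
      exact (Subgroup.mem_centralizer_iff.mp (h2 hh) d (Set.mem_singleton d)).symm
    exact (Subgroup.mem_centralizer_iff.mp (h1 hy) x hx)
  have hcommBar : IsMulCommutative ↥((Subgroup.closure Dg).map mk) := by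
    refine ⟨⟨?_⟩⟩
    rintro ⟨a, x, hx, rfl⟩ ⟨b, y, hy, rfl⟩
    apply Subtype.ext
    show mk x * mk y = mk y * mk x
    rw [← map_mul, ← map_mul, hDc x hx y hy]
  -- cyclicity
  have hcycBar : IsCyclic ↥((Subgroup.closure Fd).map mk) := by
    obtain ⟨φ0, hφ0⟩ := hcyc
    have h1 : Subgroup.closure Fd ≤ Subgroup.zpowers φ0 := by
      rw [Subgroup.closure_le]
      exact fun f hf => hφ0 f hf
    have h2 : (Subgroup.closure Fd).map mk ≤ Subgroup.zpowers (mk φ0) := by
      rw [← MonoidHom.map_zpowers]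
      exact Subgroup.map_mono h1
    exact Subgroup.isCyclic_of_le h2
  -- D̄ F̄ is normal
  set N := (Subgroup.closure Dg).map mk ⊔ (Subgroup.closure Fd).map mk with hN
  have hDN : (Subgroup.closure Dg).map mk ≤ N := le_sup_left
  have hFN : (Subgroup.closure Fd).map mk ≤ N := le_sup_right
  have conjN_of_mem : ∀ a ∈ N, ∀ n ∈ N, a * n * a⁻¹ ∈ N := fun a ha n hn =>
    Subgroup.mul_mem _ (Subgroup.mul_mem _ ha hn) (Subgroup.inv_mem _ ha)
  have conjN_G : ∀ g ∈ Gr, ∀ n ∈ N, mk g * n * (mk g)⁻¹ ∈ N := by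
    intro g hg n hn
    have hle : N ≤ N.comap (MulAut.conj (mk g)).toMonoidHom := by
      rw [hN]
      apply sup_le
      · intro n hn
        show mk g * n * (mk g)⁻¹ ∈ N
        exact hDN (hDn.conj_mem n hn (mk g))
      · rintro n ⟨y, hy, rfl⟩
        show mk g * mk y * (mk g)⁻¹ ∈ N
        rw [← map_inv, ← map_mul, ← map_mul, centG g hg y hy]
        exact hFN ⟨y, hy, rfl⟩
    exact hle hn
  have hNn : N.Normal := by
    constructor
    intro n hn q
    obtain ⟨θ, rfl⟩ := hmk_surj q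
    obtain ⟨i, hi, d, hd, g, hg, f, hf, rfl⟩ := hdec θ
    have hdN : mk d ∈ N := hDN ⟨d, Subgroup.subset_closure hd, rfl⟩
    have hfN : mk f ∈ N := hFN ⟨f, Subgroup.subset_closure hf, rfl⟩
    have h1 := conjN_of_mem _ hfN n hn
    have h2 := conjN_G g hg _ h1
    have h3 := conjN_of_mem _ hdN _ h2
    have e : mk (i * d * g * f) * n * (mk (i * d * g * f))⁻¹ =
        mk d * (mk g * (mk f * n * (mk f)⁻¹) * (mk g)⁻¹) * (mk d)⁻¹ := by
      rw [map_mul, map_mul, map_mul, hmkI i hi]
      group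
    rw [e]
    exact h3
  refine ⟨hDn, hcommBar, hcycBar, hNn, ?_⟩
  intro q
  obtain ⟨θ, rfl⟩ := hmk_surj q
  obtain ⟨i, hi, d, hd, g, hg, f, hf, rfl⟩ := hdec θ
  refine ⟨g, hg, ?_⟩
  have hdN : mk d ∈ N := hDN ⟨d, Subgroup.subset_closure hd, rfl⟩
  have hfN : mk f ∈ N := hFN ⟨f, Subgroup.subset_closure hf, rfl⟩
  have e : mk (i * d * g * f) * (mk g)⁻¹ = mk d * mk f := by
    have h1 : g * f * g⁻¹ = f := centG g hg f (Subgroup.subset_closure hf)
    have h2 : i * d * g * f * g⁻¹ = i * (d * (g * f * g⁻¹)) := by group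
    rw [← map_inv, ← map_mul, h2, h1, map_mul, map_mul, hmkI i hi, one_mul]
  rw [e]
  exact Subgroup.mul_mem _ hdN hfN

example : StAbsN.{u} := absN

end Cfsg.Agent.H78.OSN
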