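import Cfsg.Agent.H78.SdGlue
import Cfsg.Agent.H46.OutGDefs
import Cfsg.Agent.H23.OrdD4
import Cfsg.Agent.H56.StbCoordD4
import Cfsg.Agent.H46.OSChain
import Cfsg.Agent.H36.StbGE6Syl

/-!
# S2156 (helper23's SD project): the instance of type `D₄` (helper78)

`sdType_D4 : StType chevD4` — every automorphism of `D₄(q)` is inner ∘ diagonal ∘ graph ∘ field — from the
generic glue `stType_of_tables` and the table facts of type `D₄` (nodes numbered from 0: node 1 is the central
node; no root is long in the sense of `isLong`).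
-/

set_option autoImplicit false

namespace Cfsg.Agent.H78.Sd

open Cfsg.Lie Cfsg.Agent.H23 Cfsg.Agent.H23.Stb Cfsg.Agent.H23.StbD Cfsg.Agent.H46.OutE

universe u

/-- The exponent function of type `D4`. -/
abbrev zD4 : ℕ → ℕ → ℤ := zR chevD4 ctblD4

/-- The signs of type `D4`. -/
abbrev ηD4 : ℕ → ℕ → ℤ := fun i s => etaBit (etaD4.getD i 0) s

theorem tabL_D4' : TabL chevD4 rTD4 where
  one := by decide +kernel
  lin := by decide +kernel
  pos := by decide +kernel
  neg := by decide +kernel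

theorem packB_D4 (F : Type u) [Field F] : PackB chevD4 F zD4 ηD4 :=
  ⟨chk_D4.sem F, nconj_D4.semN chk_D4.tblOK F, comm_D4.semC chk_D4.tblOK F, tab_D4, tabC_D4,
    etaNeg_D4, tab2_D4⟩

/-- The pack of table facts of type `D4`. -/
theorem packS_D4 (F : Type u) [Field F] : PackS chevD4 F zD4 ηD4 rTD4 w0D4 :=
  ⟨packB_D4 F, trin_D4.semV chk_D4.tblOK F, tabT_D4, tabL_D4', tabW_D4⟩

/-- `U` is a Sylow `p`-subgroup of `D₄(q)` in characteristic `p`. -/
theorem syl_D4 (F : Type u) [Field F] [Fintype F] (p : ℕ) [hp : Fact p.Prime] [CharP F p] :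
    ∃ P : Sylow p ↥(chevD4.group F),
      (P : Subgroup ↥(chevD4.group F)) = (chevD4.posUnipotent F).subgroupOf (chevD4.group F) := by
  have hS := packS_D4 F
  have hP := hS.hP
  obtain ⟨⟨f, hf0⟩, -, hf⟩ := FiniteField.card F p
  simp only [PNat.mk_coe] at hf
  have hcU : Nat.card ↥((chevD4.posUnipotent F).subgroupOf (chevD4.group F)) = p ^ (f * 12) := by
    rw [Nat.card_congr (Subgroup.subgroupOfEquivOfLe (posUnipotent_le_group hP.sem)).toEquiv,
      Cfsg.Agent.H36.StbG.syl_card_posUnipotent hP hS.hV w0D4 hS.hW, numPos_D4,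
      Nat.card_eq_fintype_card, hf, pow_mul]
  have hq1 : 1 ≤ Fintype.card F := Fintype.card_pos
  have hpq : p ∣ Fintype.card F := by rw [hf]; exact dvd_pow_self p hf0.ne'
  apply Cfsg.Agent.H36.StbG.syl_of_card_mul p _ (f * 12) (Nat.gcd 2 (Fintype.card F - 1) ^ 2)
    (([2, 4, 4, 6].map fun d => Fintype.card F ^ d - 1).prod) hcU
  · rw [order_D4 rfl, pow_mul, ← hf]
    simp only [List.map_cons, List.map_nil, List.prod_cons, List.prod_nil, mul_one, mul_assoc]
  · exact Cfsg.Agent.H36.StbG.syl_not_dvd_prod p (Fintype.card F) hp.out hpq hq1 _ (by decide)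

theorem d4_w0 : ∀ i < chevD4.rank,
    reflW chevD4 w0D4 (chevD4.neg (chevD4.simple i)) = chevD4.simple (id i) := by
  decide +kernel

theorem d4_t1 : ∀ i < chevD4.rank, ∀ j < chevD4.rank, i ≠ j →
    chevD4.commTerms (chevD4.neg (chevD4.simple i)) (chevD4.simple j) = [] := by
  decide +kernel

theorem d4_t2 : ∀ i < chevD4.rank, ∀ j < chevD4.rank, i ≠ j →
    zD4 (chevD4.simple j) (chevD4.simple i) = 0 →
    chevD4.commTerms (chevD4.simple i) (chevD4.simple j) = [] := by
  decide +kernel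

theorem d4_t3 : ∀ i < chevD4.rank, ∀ j < chevD4.rank, i ≠ j →
    zD4 (chevD4.simple j) (chevD4.simple i) ≠ 0 →
    chevD4.reflectRoot i (chevD4.simple j) ≠ chevD4.simple j := by
  decide +kernel

theorem d4_t4 : ∀ i < chevD4.rank, chevD4.reflectRoot i (chevD4.simple i) = chevD4.neg (chevD4.simple i) := by
  decide +kernel

theorem d4_cz : ∀ i < chevD4.rank, ∀ j < chevD4.rank,
    chevD4.cartan i (chevD4.simple j) = zD4 (chevD4.simple i) (chevD4.simple j) := by
  decide +kernel

theorem d4_A : ∀ i < chevD4.rank, ∀ j < chevD4.rank, i ≠ j →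
    zD4 (chevD4.simple j) (chevD4.simple i) ≠ 0 →
    zD4 (chevD4.simple j) (chevD4.simple i) =
      if chevD4.isLong (chevD4.simple i) && !chevD4.isLong (chevD4.simple j) then -((2 : ℕ) : ℤ) else -1 := by
  decide +kernel

theorem d4_short : ∀ i < chevD4.rank, chevD4.isLong (chevD4.simple i) = false := by
  decide +kernel

theorem d4_star : ∀ j < chevD4.rank, 1 ≠ j → zD4 (chevD4.simple j) (chevD4.simple 1) ≠ 0 := by
  decide +kernel

theorem d4_ex : zD4 (chevD4.simple 1) (chevD4.simple 0) = -1 := by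
  decide +kernel

/-- **S2156 for type `D₄`.** -/
theorem sdType_D4 : StType.{u} chevD4 := by
  refine stType_of_tables chevD4 zD4 ηD4 rTD4 w0D4 id Cfsg.Agent.H56.StbG.mCD4 2 1 1
    (fun F _ => packS_D4 F) (fun F _ _ p _ _ => syl_D4 F p) (fun i hi => hi) (fun i _ => rfl) d4_w0
    d4_t1 d4_t2 d4_t3 d4_t4 Cfsg.Agent.H56.StbG.d4_coord d4_cz (Or.inl rfl) d4_A (by decide) (by decide)
    ?_ (Or.inr ⟨d4_short, rfl⟩) ⟨0, by decide, 1, by decide, by decide, d4_ex⟩ ?_
    Cfsg.Agent.H46.OS.chain_D4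
  · intro P h1 _ hstep i hi
    by_cases h : 1 = i
    · rw [← h]; exact h1
    · refine hstep 1 (by decide) i hi h (d4_star i hi h) ?_ h1
      rw [d4_short 1 (by decide), d4_short i hi]
  · intro π hlt _ _
    left
    intro i hi
    rw [d4_short i hi, d4_short (π i) (hlt i hi)]

example : Cfsg.Agent.H23.StbD.StType.{u} Cfsg.Lie.chevD4 := sdType_D4

end Cfsg.Agent.H78.Sd
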