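import Cfsg.Agent.H78.OdDefs
import Cfsg.Agent.H78.SdD4
import Cfsg.Agent.H13.D4Comm
import Cfsg.Agent.H61.D4Field
import Cfsg.Agent.H49.FieldAutCyc

/-!
# S2608, the half `m = 4`: the assembly of the OD pieces (helper78)

`Out(D₄(q)) ≅ S₄ × C_f` for `q = p^f` odd, from the Steinberg decomposition (`sdType_D4`), the graph and field
homomorphisms (helper13, helper61), the cyclic Galois group (helper49) and the OD pieces.
-/

set_option autoImplicit false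

namespace Cfsg.Agent.H78.Od

open Cfsg Cfsg.Lie Cfsg.Agent.H23 Cfsg.Agent.H23.Stb Cfsg.Agent.H13.D4N

universe u

/-- **OD-ASM**: `Out(D₄(q)) ≅ S₄ × C_f` from the pieces. -/
theorem main_of_pieces (hDG : StDG.{u}) (hFour : StFour.{u}) (hGN : StGN.{u}) (hFaith : StFaith.{u})
    (hFD : StFD.{u}) (hNI : StNI.{u}) (hAbs : StAbs.{u}) : StMain.{u} := by
  intro F _ _ p f _ hf hF hp
  have hch : CharP F p := Cfsg.Agent.H49.charP_of_card_pow hF
  have h2 : (2 : F) ≠ 0 := by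
    intro h
    have h' : ((2 : ℕ) : F) = 0 := by exact_mod_cast h
    rw [CharP.cast_eq_zero_iff F p 2] at h'
    exact hp ((Nat.prime_dvd_prime_iff_eq (Fact.out : p.Prime) Nat.prime_two).mp h')
  obtain ⟨Φ, hΦinj, hΦ⟩ := Cfsg.Agent.H13.D4N.d4_graph_hom F
  obtain ⟨Ψ, hΨinj, hΨ⟩ := Cfsg.Agent.H61.D4F.d4_field_hom F
  obtain ⟨hcyc, hcard⟩ := Cfsg.Agent.H49.ringAut_card (F := F) p f hf hF
  obtain ⟨hD1, hDmul, hDinv, hDcomm, hDsq⟩ := hDG F
  have hgraph : ∀ ρ, chevD4.IsGraphAut (Φ ρ) := fun ρ => (hΦ _).mpr ⟨ρ, rfl⟩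
  have hfield : ∀ σ, chevD4.IsFieldAut (Ψ σ) := fun σ => (hΨ _).mpr ⟨σ, rfl⟩
  have hfin : Finite (MulAut ↥(chevD4.group F)) := inferInstance
  refine hAbs (MulAut ↥(chevD4.group F)) (Cfsg.Inn ↥(chevD4.group F)) (F ≃+* F) f
    {d | chevD4.IsDiagonalAut d} Φ Ψ hcyc hcard hf hD1 (fun d hd d' hd' => hDmul d d' hd hd') hDinv
    (fun d hd d' hd' => hDcomm d d' hd hd') hDsq ?_
    (fun ρ d hd => hGN F _ _ (hgraph ρ) hd) ?_ (fun σ d hd => hFD F h2 _ _ (hfield σ) hd) ?_ ?_ ?_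
  · -- the four classes
    obtain ⟨a, b, ha, hb, h1, h2', h3, h4⟩ := hFour F h2
    exact ⟨a, ha, b, hb, h1, h2', h3, h4⟩
  · -- faithfulness
    intro ρ hρ
    have hne : Φ ρ ≠ 1 := by
      intro h
      apply hρ
      apply hΦinj
      rw [h, map_one]
    exact hFaith F h2 (Φ ρ) (hgraph ρ) hne
  · -- graph and field automorphisms commute
    intro σ ρ
    exact (Cfsg.Agent.H13.D4N.d4_graph_field_commute F (Φ ρ) (Ψ σ) (hgraph ρ) (hfield σ)).symm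
  · -- independence
    intro d hd ρ σ h
    obtain ⟨e1, e2⟩ := hNI F d (Φ ρ) (Ψ σ) hd (hgraph ρ) (hfield σ) h
    constructor
    · apply hΦinj
      rw [e1, map_one]
    · apply hΨinj
      rw [e2, map_one]
  · -- the decomposition
    intro θ
    obtain ⟨x, d, g, f', hd, hg, hf', hθ⟩ := Cfsg.Agent.H78.Sd.sdType_D4.{u} F θ
    obtain ⟨ρ, rfl⟩ := (hΦ g).mp hg
    obtain ⟨σ, rfl⟩ := (hΨ f').mp hf'
    refine ⟨MulAut.conj x, ⟨x, rfl⟩, d, hd, ρ, σ, ?_⟩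
    apply MulEquiv.ext
    intro y
    rw [hθ y]
    rfl

end Cfsg.Agent.H78.Od
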