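import Cfsg.Agent.H78.OdDefs
import Cfsg.Agent.S1082

/-!
# S2608: the glue of the two halves (helper78)

`m = 4`: `Out(D₄(q)) ≅ S₄ × C_f` (`StMain`) transported along `D₄(F) ≅ PΩ⁺₈(F)` (S1082); `m ≥ 5`: a hypothesis.
-/

set_option autoImplicit false

namespace Cfsg.Agent.H78.Od

open Cfsg Cfsg.Lie

universe u v

/-- Transport of the outer automorphism group along an isomorphism. -/
noncomputable def outCongrOd {G : Type u} {H : Type v} [Group G] [Group H] (e : G ≃* H) :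
    Cfsg.Out G ≃* Cfsg.Out H :=
  QuotientGroup.congr (Cfsg.Inn G) (Cfsg.Inn H) (MulAut.congr e) (by
    ext ψ
    constructor
    · rintro ⟨φ, ⟨g, rfl⟩, rfl⟩
      refine ⟨e g, ?_⟩
      ext x
      simp [MulAut.congr]
    · rintro ⟨h, rfl⟩
      refine ⟨MulAut.conj (e.symm h), ⟨e.symm h, rfl⟩, ?_⟩
      ext x
      simp [MulAut.congr])

/-- S2608 from its two halves. -/
theorem s2608_of_halves {F : Type u} [Field F] [Fintype F] {p f m : ℕ} [Fact p.Prime] (hf : 1 ≤ f)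
    (hF : Fintype.card F = p ^ f) (hp : p ≠ 2) (hm : 4 ≤ m) (h4 : StMain.{u})
    (h5 : 5 ≤ m → if p ^ f % 4 = 3 ∧ Odd m then
        Nonempty (Cfsg.Out (Cfsg.POmega F (Cfsg.quadFormPlus m F)) ≃*
          Multiplicative (ZMod 2 × ZMod 2 × ZMod f))
      else Nonempty (Cfsg.Out (Cfsg.POmega F (Cfsg.quadFormPlus m F)) ≃*
          DihedralGroup 4 × Multiplicative (ZMod f))) :
    if m = 4 then Nonempty (Cfsg.Out (Cfsg.POmega F (Cfsg.quadFormPlus m F)) ≃*
        Equiv.Perm (Fin 4) × Multiplicative (ZMod f))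
    else if p ^ f % 4 = 3 ∧ Odd m then
      Nonempty (Cfsg.Out (Cfsg.POmega F (Cfsg.quadFormPlus m F)) ≃*
        Multiplicative (ZMod 2 × ZMod 2 × ZMod f))
    else Nonempty (Cfsg.Out (Cfsg.POmega F (Cfsg.quadFormPlus m F)) ≃*
        DihedralGroup 4 × Multiplicative (ZMod f)) := by
  by_cases h : m = 4
  · subst h
    rw [if_pos rfl]
    obtain ⟨e⟩ := Cfsg.Agent.S1082.result (F := F)
    obtain ⟨b⟩ := h4 F p f hf hF hp
    exact ⟨(outCongrOd e).symm.trans b⟩
  · rw [if_neg h]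
    exact h5 (by omega)

end Cfsg.Agent.H78.Od
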