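import Cfsg.Agent.H78.OdDefs
import Cfsg.Agent.H12.OdDG

/-!
# S2608, the half `m = 4`: piece OD-GN (helper78, parallel take)

Graph automorphisms normalise the diagonal ones: `g d g⁻¹` acts through the scalars `c ∘ L⁻¹`.
-/

set_option autoImplicit false

namespace Cfsg.Agent.H78.Od

open Cfsg Cfsg.Lie Cfsg.Agent.H23 Cfsg.Agent.H23.Stb Cfsg.Agent.H13.D4N

universe u

theorem gN_tab : ∀ L ∈ [[0, 1, 2, 3], [0, 1, 3, 2], [2, 1, 0, 3], [3, 1, 2, 0], [2, 1, 3, 0],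
    [3, 1, 0, 2]], ∀ i < chevD4.rank, L.idxOf i < chevD4.rank ∧ L.getD (L.idxOf i) 0 = i := by
  decide

/-- **OD-GN**. -/
theorem gN (h1 : StDA1.{u}) (h2 : StDA2.{u}) : StGN.{u} := by
  intro F _ g d hg hd
  obtain ⟨c, hc0, hact⟩ := h1 F d hd
  obtain ⟨L, hLmem, hL⟩ := actS_of_isGraphAut F g hg
  have htab := gN_tab L hLmem
  refine Cfsg.Agent.H12.Od.isDiagonalAut_of_diagAct h2 F (g * d * g⁻¹) (fun i => c (L.idxOf i)) ?_
  refine ⟨fun i hi => hc0 _ (htab i hi).1, ?_⟩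
  intro i hi t
  obtain ⟨hj, hji⟩ := htab i hi
  have hgj := hL (L.idxOf i) hj
  beta_reduce at hgj
  rw [hji] at hgj
  have e1 : ∀ u : F, g⁻¹ (xG (packS_D4 F).hP.sem (chevD4.simple i) u) =
      xG (packS_D4 F).hP.sem (chevD4.simple (L.idxOf i)) u := by
    intro u
    apply g.injective
    rw [MulAut.apply_inv_self, (hgj u).1]
  have e2 : ∀ u : F, g⁻¹ (xG (packS_D4 F).hP.sem (chevD4.neg (chevD4.simple i)) u) =
      xG (packS_D4 F).hP.sem (chevD4.neg (chevD4.simple (L.idxOf i))) u := by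
    intro u
    apply g.injective
    rw [MulAut.apply_inv_self, (hgj u).2]
  constructor
  · rw [MulAut.mul_apply, MulAut.mul_apply, e1, (hact _ hj t).1, (hgj _).1]
  · rw [MulAut.mul_apply, MulAut.mul_apply, e2, (hact _ hj t).2, (hgj _).2]

example (h1 : StDA1.{u}) (h2 : StDA2.{u}) : StGN.{u} := gN h1 h2

end Cfsg.Agent.H78.Od
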