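import Cfsg.Agent.H78.OdDefs
import Cfsg.Agent.H13.D4NotInnD
import Cfsg.Agent.H56.OdDA2

/-!
# S2608, the half `m = 4`: piece OD-INN2 (helper78)

If an automorphism acting through the scalars `c i` on the fundamental root elements of `D₄(F)` is inner, then
`c₀ c₂` and `c₀ c₃` are squares: the conjugating element normalises `U` and `V`, so lies in `H`, and every
element of `H` has this property (the Cartan integers `⟨α₀ + α₂, r^∨⟩`, `⟨α₀ + α₃, r^∨⟩` are even).
-/

set_option autoImplicit false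

namespace Cfsg.Agent.H78.Od

open Cfsg Cfsg.Lie Cfsg.Agent.H23 Cfsg.Agent.H23.Stb Cfsg.Agent.H13.D4N

universe u

theorem inn2_par02 : ∀ r < chevD4.nroots,
    (zD4 r (chevD4.simple 0) + zD4 r (chevD4.simple 2)) % 2 = 0 := by decide +kernel

theorem inn2_par03 : ∀ r < chevD4.nroots,
    (zD4 r (chevD4.simple 0) + zD4 r (chevD4.simple 3)) % 2 = 0 := by decide +kernel

theorem inn2_sq {F : Type u} [Field F] (t : F) (ht : t ≠ 0) (m n : ℤ) (h : (m + n) % 2 = 0) :
    IsSquare (t ^ m * t ^ n) := by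
  obtain ⟨k, hk⟩ : ∃ k : ℤ, m + n = k + k := by
    refine ⟨(m + n) / 2, ?_⟩
    omega
  refine ⟨t ^ k, ?_⟩
  rw [← zpow_add₀ ht, ← zpow_add₀ ht, hk]

/-- The invariant of the elements of `H`. -/
theorem inn2_inv (F : Type u) [Field F] (h : GL chevD4.Idx F) (hh : h ∈ chevD4.diagonalSubgroup F) :
    ∃ a b e : F, a ≠ 0 ∧ b ≠ 0 ∧ e ≠ 0 ∧
      (∀ t : F, h * xU (packS_D4 F).hP.sem (chevD4.simple 0) t * h⁻¹ =
        xU (packS_D4 F).hP.sem (chevD4.simple 0) (a * t)) ∧
      (∀ t : F, h * xU (packS_D4 F).hP.sem (chevD4.simple 2) t * h⁻¹ =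
        xU (packS_D4 F).hP.sem (chevD4.simple 2) (b * t)) ∧
      (∀ t : F, h * xU (packS_D4 F).hP.sem (chevD4.simple 3) t * h⁻¹ =
        xU (packS_D4 F).hP.sem (chevD4.simple 3) (e * t)) ∧
      IsSquare (a * b) ∧ IsSquare (a * e) := by
  have hS : Sem chevD4 F zD4 := (packS_D4 F).hP.sem
  have hT := (packS_D4 F).hP.tab
  have l0 : chevD4.simple 0 < chevD4.nroots := hT.simple_lt 0 (by decide)
  have l2 : chevD4.simple 2 < chevD4.nroots := hT.simple_lt 2 (by decide)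
  have l3 : chevD4.simple 3 < chevD4.nroots := hT.simple_lt 3 (by decide)
  unfold ChevalleyDatum.diagonalSubgroup at hh
  induction hh using Subgroup.closure_induction with
  | mem g hg =>
    obtain ⟨r, t, hr, ht, hg⟩ := hg
    have hg' : g = hU hS r t := eq_wordU hS g _ hg
    subst hg'
    refine ⟨t ^ zD4 r (chevD4.simple 0), t ^ zD4 r (chevD4.simple 2), t ^ zD4 r (chevD4.simple 3),
      zpow_ne_zero _ ht, zpow_ne_zero _ ht, zpow_ne_zero _ ht,
      fun u => hU_conj hS r hr t ht _ l0 u, fun u => hU_conj hS r hr t ht _ l2 u,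
      fun u => hU_conj hS r hr t ht _ l3 u, inn2_sq t ht _ _ (inn2_par02 r hr),
      inn2_sq t ht _ _ (inn2_par03 r hr)⟩
  | one =>
    refine ⟨1, 1, 1, one_ne_zero, one_ne_zero, one_ne_zero, ?_, ?_, ?_, ⟨1, by ring⟩, ⟨1, by ring⟩⟩
    · intro t; rw [one_mul, one_mul, inv_one, mul_one]
    · intro t; rw [one_mul, one_mul, inv_one, mul_one]
    · intro t; rw [one_mul, one_mul, inv_one, mul_one]
  | mul g g' _ _ ih ih' =>
    obtain ⟨a, b, e, ha, hb, he, h0, h2, h3, ⟨s, hs⟩, ⟨s', hs'⟩⟩ := ih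
    obtain ⟨a', b', e', ha', hb', he', h0', h2', h3', ⟨q, hq⟩, ⟨q', hq'⟩⟩ := ih'
    have key : ∀ (r : ℕ) (A A' : F),
        (∀ t : F, g * xU hS r t * g⁻¹ = xU hS r (A * t)) →
        (∀ t : F, g' * xU hS r t * g'⁻¹ = xU hS r (A' * t)) →
        ∀ t : F, (g * g') * xU hS r t * (g * g')⁻¹ = xU hS r (A * A' * t) := by
      intro r A A' hA hA' t
      have e1 : (g * g') * xU hS r t * (g * g')⁻¹ = g * (g' * xU hS r t * g'⁻¹) * g⁻¹ := by group
      rw [e1, hA', hA, mul_assoc]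
    refine ⟨a * a', b * b', e * e', mul_ne_zero ha ha', mul_ne_zero hb hb', mul_ne_zero he he',
      key _ a a' h0 h0', key _ b b' h2 h2', key _ e e' h3 h3', ⟨s * q, ?_⟩, ⟨s' * q', ?_⟩⟩
    · calc a * a' * (b * b') = (a * b) * (a' * b') := by ring
        _ = s * q * (s * q) := by rw [hs, hq]; ring
    · calc a * a' * (e * e') = (a * e) * (a' * e') := by ring
        _ = s' * q' * (s' * q') := by rw [hs', hq']; ring
  | inv g _ ih =>
    obtain ⟨a, b, e, ha, hb, he, h0, h2, h3, ⟨s, hs⟩, ⟨s', hs'⟩⟩ := ih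
    have key : ∀ (r : ℕ) (A : F), A ≠ 0 →
        (∀ t : F, g * xU hS r t * g⁻¹ = xU hS r (A * t)) →
        ∀ t : F, g⁻¹ * xU hS r t * g⁻¹⁻¹ = xU hS r (A⁻¹ * t) := by
      intro r A hA0 hA t
      have e1 := hA (A⁻¹ * t)
      rw [mul_inv_cancel_left₀ hA0] at e1
      rw [← e1]
      group
    refine ⟨a⁻¹, b⁻¹, e⁻¹, inv_ne_zero ha, inv_ne_zero hb, inv_ne_zero he,
      key _ a ha h0, key _ b hb h2, key _ e he h3, ⟨s⁻¹, ?_⟩, ⟨s'⁻¹, ?_⟩⟩
    · rw [← mul_inv, hs, mul_inv]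
    · rw [← mul_inv, hs', mul_inv]

/-- **OD-INN2**. -/
theorem inn2 : StInn2.{u} := by
  intro F _ d c hdc hInn
  have hC := packS_D4 F
  have hP := hC.hP
  have hS : Sem chevD4 F zD4 := (packS_D4 F).hP.sem
  have hT := hP.tab
  have hN := hP.semN
  obtain ⟨hc0, hact⟩ := hdc
  -- `d` is a diagonal automorphism
  obtain ⟨d', hd', -, hact'⟩ := Cfsg.Agent.H56.Od.dA2 F c hc0
  have hdd : d' = d := by
    apply MulEquiv.toMonoidHom_injective
    apply Cfsg.Agent.H78.StbG.hom_ext_fundG hS hN hT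
    intro y i t hi hy
    rcases hy with hy | hy
    · rw [eq_xG hS y _ t hy]
      exact ((hact' i hi t).1).trans ((hact i hi t).1).symm
    · rw [eq_xG hS y _ t hy]
      exact ((hact' i hi t).2).trans ((hact i hi t).2).symm
  subst hdd
  obtain ⟨χ, -, hdU, hdV⟩ := act_of_isDiagonalAut F d' hd'
  obtain ⟨x, hx⟩ := hInn
  have hx' : ∀ y : ↥(chevD4.group F), d' y = x * y * x⁻¹ := by
    intro y
    have := congrArg (fun φ : MulAut ↥(chevD4.group F) => φ y) hx
    exact this.symm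
  have hUG : chevD4.posUnipotent F ≤ chevD4.group F := posUnipotent_le_group hS
  have hVG : chevD4.negUnipotent F ≤ chevD4.group F := negUnipotent_le_group hS
  have key : ∀ K : Subgroup (GL chevD4.Idx F), K ≤ chevD4.group F → Pres d' K K →
      ∀ y : GL chevD4.Idx F, y ∈ K ↔ (x : GL chevD4.Idx F) * y * (x : GL chevD4.Idx F)⁻¹ ∈ K := by
    intro K hK hdK y
    by_cases hy : y ∈ chevD4.group F
    · have e1 := hdK ⟨y, hy⟩
      rw [hx' ⟨y, hy⟩] at e1
      exact e1.symm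
    · constructor
      · intro h; exact absurd (hK h) hy
      · intro h
        exfalso
        apply hy
        have h2 := hK h
        have : y = (x : GL chevD4.Idx F)⁻¹ *
            ((x : GL chevD4.Idx F) * y * (x : GL chevD4.Idx F)⁻¹) * (x : GL chevD4.Idx F) := by
          group
        rw [this]
        exact Subgroup.mul_mem _ (Subgroup.mul_mem _ (Subgroup.inv_mem _ x.2) h2) x.2
  have hNUV := Cfsg.Agent.H13.StbG.nuv Cfsg.Agent.H61.Stb.normU Cfsg.Agent.H18.Stb.w0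
  have hxH : (x : GL chevD4.Idx F) ∈ chevD4.diagonalSubgroup F :=
    hNUV chevD4 F zD4 ηD4 rTD4 w0D4 hC _ x.2 (key _ hUG hdU) (key _ hVG hdV)
  obtain ⟨a, b, e, ha, hb, he, h0, h2, h3, hsq1, hsq2⟩ := inn2_inv F _ hxH
  have cmp : ∀ i < chevD4.rank, ∀ A : F,
      (∀ t : F, (x : GL chevD4.Idx F) * xU hS (chevD4.simple i) t * (x : GL chevD4.Idx F)⁻¹ =
        xU hS (chevD4.simple i) (A * t)) → c i = A := by
    intro i hi A hA
    have e1 := hx' (xG hS (chevD4.simple i) 1)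
    rw [(hact i hi 1).1] at e1
    have e2 : xU hS (chevD4.simple i) (c i * 1) = xU hS (chevD4.simple i) (A * 1) := by
      rw [← hA 1]
      exact congrArg Subtype.val e1
    have e3 := xU_inj hS hT hP.tab2 _ (hT.simple_lt i hi) _ _ e2
    rwa [mul_one, mul_one] at e3
  rw [cmp 0 (by decide) a h0, cmp 2 (by decide) b h2, cmp 3 (by decide) e h3]
  exact ⟨hsq1, hsq2⟩

example : StInn2.{u} := inn2

end Cfsg.Agent.H78.Od
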