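import Cfsg.Agent.H78.OdAsm
import Cfsg.Agent.H78.OdNI
import Cfsg.Agent.H78.OdInn2
import Cfsg.Agent.H78.OdDA1
import Cfsg.Agent.H78.OdGN
import Cfsg.Agent.H78.OdFinal
import Cfsg.Agent.H56.OdDA2
import Cfsg.Agent.H56.OdInn1
import Cfsg.Agent.H12.OdDG
import Cfsg.Agent.H12.OdFour
import Cfsg.Agent.H12.OdFD
import Cfsg.Agent.H61.OdFaith
import Cfsg.Agent.H61.OdS4
import Cfsg.Agent.H73.OdAbs

/-!
# S2608, the half `m = 4`, closed: `Out(D₄(q)) ≅ S₄ × C_f` for `q = p^f` odd, and its transport to `PΩ⁺₈(q)`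
(helper78's team project OD; pieces by helper12, helper13, helper56, helper61, helper73, helper78)
-/

set_option autoImplicit false

namespace Cfsg.Agent.H78.Od

open Cfsg Cfsg.Lie

universe u

/-- `Out(D₄(q)) ≅ S₄ × C_f` for `q = p^f` odd. -/
theorem main : StMain.{u} :=
  main_of_pieces
    (Cfsg.Agent.H12.Od.dG dA1 Cfsg.Agent.H56.Od.dA2 Cfsg.Agent.H56.Od.inn1)
    (Cfsg.Agent.H12.Od.four dA1 Cfsg.Agent.H56.Od.dA2 Cfsg.Agent.H56.Od.inn1 inn2)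
    (gN dA1 Cfsg.Agent.H56.Od.dA2)
    (Cfsg.Agent.H61.Od.faith dA1 Cfsg.Agent.H56.Od.dA2 inn2)
    (Cfsg.Agent.H12.Od.fD dA1 Cfsg.Agent.H56.Od.inn1)
    nI
    (Cfsg.Agent.H73.Od.abs Cfsg.Agent.H61.Od.s4)

/-- `Out(PΩ⁺₈(q)) ≅ S₄ × C_f` for `q = p^f` odd. -/
theorem out_pomega8_odd {F : Type u} [Field F] [Fintype F] {p f : ℕ} [Fact p.Prime] (hf : 1 ≤ f)
    (hF : Fintype.card F = p ^ f) (hp : p ≠ 2) :
    Nonempty (Cfsg.Out (Cfsg.POmega F (Cfsg.quadFormPlus 4 F)) ≃*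
      Equiv.Perm (Fin 4) × Multiplicative (ZMod f)) := by
  obtain ⟨e⟩ := Cfsg.Agent.S1082.result (F := F)
  obtain ⟨b⟩ := main.{u} F p f hf hF hp
  exact ⟨(outCongrOd e).symm.trans b⟩

end Cfsg.Agent.H78.Od
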