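import Mathlib
import Cfsg.Agent.H81.SchurBound

/-!
# helper78: a variant of Schur's bound (after `Cfsg.Agent.H81.schur_bound`)

The `p`-rationality hypothesis is replaced by invariance of the character under the power maps
`x ↦ x ^ k` (`p ∤ k`) on a `p`-subgroup, and faithfulness by a bound for the kernel.
-/

set_option autoImplicit false
set_option linter.style.haveILetI false
set_option linter.unusedSectionVars false

namespace Cfsg.Agent.H78.PS

open Cfsg Cfsg.Agent.H20 Cfsg.Agent.H4 Cfsg.Agent.H81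
open scoped ComplexConjugate

universe u

section SchurBound

variable {G : Type u} [Group G] [Finite G]

/-- At a `p`-element outside the kernel, a character of degree `n` that is invariant under the
power maps prime to `p` takes a value `n - p j` with `1 ≤ j ≤ n / (p - 1)`. -/
theorem char_value_of_pow_inv {p : ℕ} (hp : p.Prime) {χ : G → ℂ} (hχ : IsCharacter G χ)
    {n : ℕ} (hn : χ 1 = n) (x : G) (e : ℕ) (hx : x ^ p ^ e = 1) (hx1 : χ x ≠ χ 1)
    (hpow : ∀ k : ℕ, ¬ p ∣ k → χ (x ^ k) = χ x) :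
    ∃ j : ℕ, 1 ≤ j ∧ j ≤ n / (p - 1) ∧ χ x = (n : ℂ) - (p : ℂ) * j := by
  classical
  letI : Fintype G := Fintype.ofFinite G
  obtain ⟨e', -, he'⟩ := (Nat.dvd_prime_pow hp).mp (orderOf_dvd_of_pow_eq_one hx)
  have he'0 : e' ≠ 0 := by
    rintro rfl
    rw [pow_zero, orderOf_eq_one_iff] at he'
    exact hx1 (by rw [he'])
  obtain ⟨f, rfl⟩ : ∃ f : ℕ, e' = f + 1 := ⟨e' - 1, by omega⟩
  have hop : orderOf (x ^ p) = p ^ f := by
    rw [orderOf_pow_of_dvd hp.ne_zero (by rw [he']; exact dvd_pow_self p (Nat.succ_ne_zero f)),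
      he', pow_succ, Nat.mul_div_cancel _ hp.pos]
  obtain ⟨m, hm⟩ := Cfsg.Agent.H80.sum_subgroup_character (Subgroup.zpowers x) χ hχ
  obtain ⟨m', hm'⟩ := Cfsg.Agent.H80.sum_subgroup_character (Subgroup.zpowers (x ^ p)) χ hχ
  rw [Nat.card_zpowers, he'] at hm
  rw [Nat.card_zpowers, hop] at hm'
  have hconv : ∀ H : Subgroup G, ∑ᶠ u : H, χ (u : G)
      = ∑ g ∈ Finset.univ.filter (· ∈ H), χ g := by
    intro H
    rw [finsum_eq_sum_of_fintype]
    exact (Finset.sum_subtype _ (by simp) _).symm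
  rw [hconv] at hm hm'
  have hsub : Finset.univ.filter (· ∈ Subgroup.zpowers (x ^ p))
      ⊆ Finset.univ.filter (· ∈ Subgroup.zpowers x) := by
    intro g hg
    rw [Finset.mem_filter] at hg ⊢
    exact ⟨hg.1, (Subgroup.zpowers_le.mpr
      (Subgroup.pow_mem _ (Subgroup.mem_zpowers x) p)) hg.2⟩
  have hdiff : ∀ g ∈ Finset.univ.filter (· ∈ Subgroup.zpowers x) \
      Finset.univ.filter (· ∈ Subgroup.zpowers (x ^ p)), χ g = χ x := by
    intro g hg
    rw [Finset.mem_sdiff, Finset.mem_filter, Finset.mem_filter] at hg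
    obtain ⟨⟨_, hg1⟩, hg2⟩ := hg
    have hg2' : g ∉ Subgroup.zpowers (x ^ p) := fun h => hg2 ⟨Finset.mem_univ _, h⟩
    obtain ⟨k, hk⟩ := (mem_powers_iff_mem_zpowers.mpr hg1)
    have hk' : x ^ k = g := hk
    subst hk'
    apply hpow k
    intro hpk
    obtain ⟨c, rfl⟩ := hpk
    apply hg2'
    rw [pow_mul]
    exact Subgroup.pow_mem _ (Subgroup.mem_zpowers _) c
  have hsplit := Finset.sum_sdiff hsub (f := χ)
  rw [Finset.sum_congr rfl hdiff, Finset.sum_const, Finset.card_sdiff_of_subset hsub, hm, hm',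
    card_filter_mem_subgroup', card_filter_mem_subgroup', Nat.card_zpowers, Nat.card_zpowers,
    he', hop, nsmul_eq_mul, Nat.cast_sub (Nat.pow_le_pow_right hp.pos (Nat.le_succ f))] at hsplit
  have hpf : ((p : ℂ)) ^ f ≠ 0 := pow_ne_zero f (by exact_mod_cast hp.ne_zero)
  have hp1 : ((p : ℂ) - 1) ≠ 0 := by
    intro h0
    have h1 : (p : ℂ) = 1 := by linear_combination h0
    have : p = 1 := by exact_mod_cast h1
    exact hp.one_lt.ne' this
  have hkey : ((p : ℂ) - 1) * χ x = (p : ℂ) * m - m' := by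
    push_cast at hsplit
    have h1 : (p : ℂ) ^ f * (((p : ℂ) - 1) * χ x) = (p : ℂ) ^ f * ((p : ℂ) * m - m') := by
      rw [pow_succ] at hsplit
      linear_combination hsplit
    exact mul_left_cancel₀ hpf h1
  -- the value is rational, hence an integer
  have hq : χ x = (((((p : ℚ) * m - m') / ((p : ℚ) - 1)) : ℚ) : ℂ) := by
    push_cast
    rw [eq_div_iff hp1]
    linear_combination hkey
  have hint : IsIntegral ℤ (χ x) := isIntegral_of_isCharacter hχ x
  rw [hq] at hint
  obtain ⟨z, hz⟩ := exists_int_of_isIntegral_ratCast _ hint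
  have hχz : χ x = (z : ℂ) := by
    rw [hq, ← hz]
    simp
  have hzeq : ((p : ℤ) - 1) * z = (p : ℤ) * m - m' := by
    have h1 : (((((p : ℤ) - 1) * z : ℤ)) : ℂ) = ((((p : ℤ) * m - m' : ℤ)) : ℂ) := by
      push_cast
      rw [← hχz]
      exact hkey
    exact_mod_cast h1
  -- congruence modulo `p`
  obtain ⟨M, hM⟩ := exists_isPModular hp
  have hc := Cfsg.Agent.H79.char_mul_sub_memLocalIdeal hM hχ x 1 (Commute.one_right x) e hx
  rw [mul_one, hχz, hn] at hc
  have hc' : MemLocalIdeal M (((z - n : ℤ)) : ℂ) := by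
    have : (((z - n : ℤ)) : ℂ) = (z : ℂ) - (n : ℂ) := by push_cast; ring
    rw [this]
    exact hc
  obtain ⟨c', hc'eq⟩ := (memLocalIdeal_intCast_iff hM _).mp hc'
  -- bounds
  have hnorm := norm_le_of_isCharacter hχ hn x
  rw [hχz] at hnorm
  have hzle : z ≤ n := by
    have h1 : ((z : ℤ) : ℝ) ≤ (n : ℝ) := by
      refine le_trans ?_ hnorm
      rw [Complex.norm_intCast]
      exact le_abs_self _
    exact_mod_cast h1
  have hzne : z ≠ n := by
    intro h
    apply hx1
    rw [hχz, hn, h]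
    simp
  have hm'n : (m' : ℤ) ≤ n := by
    have h1 : ‖∑ g ∈ Finset.univ.filter (· ∈ Subgroup.zpowers (x ^ p)), χ g‖
        ≤ ∑ g ∈ Finset.univ.filter (· ∈ Subgroup.zpowers (x ^ p)), (n : ℝ) :=
      le_trans (norm_sum_le _ _) (Finset.sum_le_sum fun g _ => norm_le_of_isCharacter hχ hn g)
    rw [hm', Finset.sum_const, card_filter_mem_subgroup', Nat.card_zpowers, hop, nsmul_eq_mul,
      norm_mul, Complex.norm_natCast, Complex.norm_natCast] at h1
    have h2 : (0 : ℝ) < ((p ^ f : ℕ) : ℝ) := by exact_mod_cast pow_pos hp.pos f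
    have h3 : (m' : ℝ) ≤ n := le_of_mul_le_mul_left h1 h2
    exact_mod_cast h3
  -- the index `j`
  have hpos : (0 : ℤ) < p := by exact_mod_cast hp.pos
  have hcneg : c' < 0 := by
    by_contra hcn
    push Not at hcn
    have : (0 : ℤ) ≤ (p : ℤ) * c' := mul_nonneg hpos.le hcn
    have h2 : z < n := lt_of_le_of_ne hzle hzne
    omega
  refine ⟨(-c').toNat, ?_, ?_, ?_⟩
  · omega
  · have hj : (((-c').toNat : ℕ) : ℤ) = -c' := Int.toNat_of_nonneg (by omega)
    have hp1' : 0 < p - 1 := Nat.sub_pos_of_lt hp.one_lt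
    rw [Nat.le_div_iff_mul_le hp1']
    have h1 : ((((-c').toNat * (p - 1) : ℕ)) : ℤ) ≤ (n : ℤ) := by
      push_cast
      rw [hj, Nat.cast_sub hp.one_lt.le]
      push_cast
      have e1 : ((p : ℤ) - 1) * ((n : ℤ) + (p : ℤ) * c') = (p : ℤ) * m - m' := by
        have : z = (n : ℤ) + (p : ℤ) * c' := by linarith
        rw [← this]
        exact hzeq
      have h5 : (p : ℤ) * (-c' * ((p : ℤ) - 1)) ≤ (p : ℤ) * n := by
        nlinarith [e1, hm'n, mul_nonneg hpos.le (Int.natCast_nonneg m)]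
      exact le_of_mul_le_mul_left h5 hpos
    exact_mod_cast h1
  · rw [hχz]
    have hj : (((-c').toNat : ℕ) : ℤ) = -c' := Int.toNat_of_nonneg (by omega)
    have h1 : z = (n : ℤ) - (p : ℤ) * (((-c').toNat : ℕ) : ℤ) := by
      rw [hj]
      linarith
    have h2 : (z : ℂ) = (((n : ℤ) - (p : ℤ) * (((-c').toNat : ℕ) : ℤ) : ℤ) : ℂ) := by
      rw [← h1]
    rw [h2]
    push_cast
    ring

/-- **Schur's bound**, subgroup form: if a character of degree `n` is invariant under the
`p'`-power maps on the `p`-subgroup `P` of order `p ^ a`, and the elements of `P` in its kernel lie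
in a subgroup of order at most `p ^ c`, then `a ≤ c + ∑ i, ⌊n / ((p - 1) p ^ i)⌋`. -/
theorem schur_bound_sub {p : ℕ} (hp : p.Prime) {χ : G → ℂ} (hχ : IsCharacter G χ)
    {n : ℕ} (hn : χ 1 = n) (P : Subgroup G) (a : ℕ) (hPcard : Nat.card P = p ^ a)
    (hpow : ∀ x ∈ P, ∀ k : ℕ, ¬ p ∣ k → χ (x ^ k) = χ x)
    (C : Subgroup G) (c : ℕ) (hCc : Nat.card C ≤ p ^ c) (hC : ∀ x ∈ P, χ x = χ 1 → x ∈ C) :
    a ≤ c + ∑ i ∈ Finset.range (n + 1), n / ((p - 1) * p ^ i) := by
  classical
  haveI : Fact p.Prime := ⟨hp⟩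
  letI : Fintype P := Fintype.ofFinite P
  obtain ⟨J, hJ⟩ : ∃ J : ℕ, J = n / (p - 1) := ⟨_, rfl⟩
  obtain ⟨F, hF⟩ : ∃ F : Polynomial ℤ, F = ∏ i ∈ Finset.range J,
      (Polynomial.X - Polynomial.C ((n : ℤ) - (p : ℤ) * ((i + 1 : ℕ) : ℤ))) := ⟨_, rfl⟩
  obtain ⟨z, hz⟩ := sum_aeval_char_subgroup hχ P F
  have hval : ∀ x : G, Polynomial.aeval (χ x) F
      = ∏ i ∈ Finset.range J, (χ x - ((n : ℂ) - (p : ℂ) * ((i + 1 : ℕ) : ℂ))) := by
    intro x
    rw [hF, map_prod]
    apply Finset.prod_congr rfl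
    intro j _
    rw [map_sub, Polynomial.aeval_X, Polynomial.aeval_C]
    simp
  obtain ⟨S, hS⟩ : ∃ S : Finset P, S = Finset.univ.filter (fun x : P => χ (x : G) = χ 1) :=
    ⟨_, rfl⟩
  have h1 : ∀ x : P, Polynomial.aeval (χ (x : G)) F
      = if χ (x : G) = χ 1 then (p : ℂ) ^ J * (J.factorial : ℂ) else 0 := by
    intro x
    split_ifs with h
    · rw [hval, h, hn]
      have h1 : ∀ i ∈ Finset.range J,
          ((n : ℂ) - ((n : ℂ) - (p : ℂ) * ((i + 1 : ℕ) : ℂ))) = (p : ℂ) * ((i + 1 : ℕ) : ℂ) :=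
        fun j _ => by ring
      rw [Finset.prod_congr rfl h1, Finset.prod_mul_distrib, Finset.prod_const, Finset.card_range]
      congr 1
      rw [← Nat.cast_prod, Finset.prod_range_add_one_eq_factorial]
    · rw [hval]
      have hxp : (x : G) ^ p ^ a = 1 := by
        have h2 : x ^ Nat.card P = 1 := pow_card_eq_one'
        rw [hPcard] at h2
        have h3 := congrArg (Subtype.val) h2
        simpa using h3
      obtain ⟨j, hj1, hj2, hj3⟩ :=
        char_value_of_pow_inv hp hχ hn (x : G) _ hxp h (hpow (x : G) x.2)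
      apply Finset.prod_eq_zero (i := j - 1) (Finset.mem_range.mpr (by omega))
      rw [hj3, Nat.sub_add_cancel hj1]
      ring
  have hsum : ∑ᶠ x : P, Polynomial.aeval (χ (x : G)) F
      = (S.card : ℂ) * ((p : ℂ) ^ J * (J.factorial : ℂ)) := by
    rw [finsum_eq_sum_of_fintype, Finset.sum_congr rfl (fun x _ => h1 x), ← Finset.sum_filter,
      Finset.sum_const, nsmul_eq_mul, hS]
  rw [hsum, hPcard] at hz
  have hSpos : 0 < S.card := by
    apply Finset.card_pos.mpr
    refine ⟨1, ?_⟩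
    rw [hS, Finset.mem_filter]
    exact ⟨Finset.mem_univ _, rfl⟩
  have hScard : S.card ≤ p ^ c := by
    refine le_trans ?_ hCc
    letI : Fintype C := Fintype.ofFinite C
    rw [Nat.card_eq_fintype_card, ← Finset.card_univ]
    have hmem : ∀ x ∈ S, (x : G) ∈ C := by
      intro x hx
      rw [hS, Finset.mem_filter] at hx
      exact hC (x : G) x.2 hx.2
    apply Finset.card_le_card_of_injOn (fun x : P => if h : (x : G) ∈ C then (⟨x, h⟩ : C) else 1)
    · intro x _
      exact Finset.mem_univ _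
    · intro x hx y hy hxy
      have hx' := hmem x hx
      have hy' := hmem y hy
      simp only [dif_pos hx', dif_pos hy'] at hxy
      have := congrArg (Subtype.val) hxy
      exact Subtype.ext this
  have hdvd : p ^ a ∣ S.card * (p ^ J * J.factorial) := by
    have h1 : ((S.card * (p ^ J * J.factorial) : ℕ) : ℤ) = ((p ^ a : ℕ) : ℤ) * z := by
      have h2 : (((S.card * (p ^ J * J.factorial) : ℕ) : ℤ) : ℂ)
          = ((((p ^ a : ℕ) : ℤ) * z : ℤ) : ℂ) := by
        push_cast
        push_cast at hz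
        exact hz
      exact_mod_cast h2
    exact Int.natCast_dvd_natCast.mp ⟨z, h1⟩
  have hne : S.card * (p ^ J * J.factorial) ≠ 0 :=
    mul_ne_zero hSpos.ne' (mul_ne_zero (pow_ne_zero J hp.ne_zero) (Nat.factorial_ne_zero J))
  have hle : a ≤ (S.card * (p ^ J * J.factorial)).factorization p :=
    (hp.pow_dvd_iff_le_factorization hne).mp hdvd
  have hlog : Nat.log p J < n + 1 := by
    have h1 : Nat.log p J ≤ J := Nat.log_le_self p J
    have h2 : J ≤ n := by rw [hJ]; exact Nat.div_le_self n (p - 1)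
    omega
  have hSf : S.card.factorization p ≤ c := by
    have h1 : p ^ S.card.factorization p ∣ S.card := Nat.ordProj_dvd S.card p
    have h2 : p ^ S.card.factorization p ≤ p ^ c := le_trans (Nat.le_of_dvd hSpos h1) hScard
    exact (Nat.pow_le_pow_iff_right hp.one_lt).mp h2
  rw [Nat.factorization_mul hSpos.ne'
      (mul_ne_zero (pow_ne_zero J hp.ne_zero) (Nat.factorial_ne_zero J)),
    Nat.factorization_mul (pow_ne_zero J hp.ne_zero) (Nat.factorial_ne_zero J),
    Finsupp.add_apply, Finsupp.add_apply, Nat.Prime.factorization_pow hp, Finsupp.single_eq_same,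
    Nat.factorization_def J.factorial hp, padicValNat_factorial hlog] at hle
  have hterm : ∀ i : ℕ, n / ((p - 1) * p ^ i) = J / p ^ i := fun i => by
    rw [hJ, Nat.div_div_eq_div_mul]
  simp only [hterm]
  rw [Finset.range_eq_Ico, Finset.sum_eq_sum_Ico_succ_bot (by omega : 0 < n + 1)]
  simp only [pow_zero, Nat.div_one, zero_add] at hle ⊢
  omega

end SchurBound

end Cfsg.Agent.H78.PS
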