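import Mathlib
import Cfsg.Agent.H78.PS1
import Cfsg.Agent.H78.PS3
import Cfsg.Agent.H82.Irr

/-!
# helper78: the Schur bound for a `p`-group acting on a `p'`-group inside a linear group
-/

set_option autoImplicit false
set_option linter.style.haveILetI false
set_option linter.unusedSectionVars false

namespace Cfsg.Agent.H78.PS

open Cfsg Cfsg.Agent.H4 Cfsg.Agent.H82 Cfsg.Agent.Clifford

universe u

theorem lam_mono (p n' n : ℕ) (h : n' ≤ n) :
    ∑ i ∈ Finset.range (n' + 1), n' / ((p - 1) * p ^ i) ≤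
      ∑ i ∈ Finset.range (n + 1), n / ((p - 1) * p ^ i) :=
  calc ∑ i ∈ Finset.range (n' + 1), n' / ((p - 1) * p ^ i)
      ≤ ∑ i ∈ Finset.range (n' + 1), n / ((p - 1) * p ^ i) :=
        Finset.sum_le_sum (fun i _ => Nat.div_le_div_right h)
    _ ≤ ∑ i ∈ Finset.range (n + 1), n / ((p - 1) * p ^ i) :=
        Finset.sum_le_sum_of_subset (Finset.range_subset_range.mpr (by omega))

section Internal

variable {X : Type u} [Group X] [Finite X]

/-- Internal form: `N` a normal `p'`-subgroup of `X`, `Q` a `p`-subgroup with `N Q = X`, and a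
character of degree `n` faithful on `N`: `|Q : C_Q(N)| ≤ p ^ λ(n)`. -/
theorem bound_internal {p : ℕ} (hp : p.Prime) (N : Subgroup X) [hN : N.Normal]
    (hNp : (Nat.card N).Coprime p) (Q : Subgroup X) (a : ℕ) (hQ : Nat.card Q = p ^ a)
    (hNQ : N ⊔ Q = ⊤) {χ : X → ℂ} (hχ : IsCharacter X χ) (n : ℕ) (hn : χ 1 = n)
    (hfaith : ∀ h : N, χ h = χ 1 → h = 1)
    (C : Subgroup X) (c : ℕ) (hCc : Nat.card C ≤ p ^ c)
    (hC : Q ⊓ Subgroup.centralizer (N : Set X) ≤ C) :
    a ≤ c + ∑ i ∈ Finset.range (n + 1), n / ((p - 1) * p ^ i) := by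
  classical
  have hidx : N.index ∣ p ^ a := by
    rw [← hQ, ← Subgroup.relIndex_top_right, ← hNQ, Subgroup.relIndex_sup_left]
    exact Subgroup.relIndex_dvd_card N Q
  have hcop : (Nat.card N).Coprime N.index :=
    Nat.Coprime.coprime_dvd_right hidx (Nat.Coprime.pow_right a hNp)
  obtain ⟨ψ, n', hψ, hψ1, hn', hψk, hψf⟩ := exists_stable_char N hcop hχ n hn hfaith
  have hcardX : Nat.card X = Nat.card N * N.index := (Subgroup.card_mul_index N).symm
  -- invariance under the power maps on `Q`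
  have hpow : ∀ x ∈ Q, ∀ k : ℕ, ¬ p ∣ k → ψ (x ^ k) = ψ x := by
    intro x hx k hk
    have hc1 : Nat.Coprime (p ^ (a + 1)) (Nat.card N) :=
      (Nat.Coprime.pow_right (a + 1) hNp).symm
    obtain ⟨k', hk'1, hk'2⟩ : ∃ k' : ℕ, k' ≡ k [MOD p ^ (a + 1)] ∧ k' ≡ 1 [MOD Nat.card N] :=
      ⟨Nat.chineseRemainder hc1 k 1, (Nat.chineseRemainder hc1 k 1).2.1,
        (Nat.chineseRemainder hc1 k 1).2.2⟩
    have hk'p : ¬ p ∣ k' := by
      intro hd
      apply hk
      have h1 : k' ≡ k [MOD p] := hk'1.of_dvd (dvd_pow_self p (Nat.succ_ne_zero a))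
      exact (Nat.modEq_zero_iff_dvd.mp (h1.symm.trans (Nat.modEq_zero_iff_dvd.mpr hd)))
    have hk'cop : k'.Coprime (Nat.card X) := by
      rw [hcardX]
      apply Nat.Coprime.mul_right
      · have h1 := hk'2.gcd_eq
        unfold Nat.Coprime
        rw [h1]
        exact Nat.gcd_one_left _
      · exact Nat.Coprime.coprime_dvd_right hidx
          (Nat.Coprime.pow_right a ((Nat.Prime.coprime_iff_not_dvd hp).mpr hk'p).symm)
    have hxo : orderOf x ∣ p ^ (a + 1) := by
      have h1 : orderOf (⟨x, hx⟩ : Q) ∣ Nat.card Q := orderOf_dvd_natCard _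
      rw [hQ] at h1
      have h2 : orderOf (⟨x, hx⟩ : Q) = orderOf x := Subgroup.orderOf_mk x hx
      rw [h2] at h1
      exact h1.trans (pow_dvd_pow p (Nat.le_succ a))
    have h2 : x ^ k' = x ^ k := by
      rw [pow_eq_pow_iff_modEq]
      exact hk'1.of_dvd hxo
    rw [← h2]
    exact hψk k' hk'cop hk'2 x
  -- the kernel centralizes `N`
  have hker : ∀ x ∈ Q, ψ x = ψ 1 → x ∈ C := by
    intro x hx hx1
    apply hC
    refine Subgroup.mem_inf.mpr ⟨hx, ?_⟩
    rw [Subgroup.mem_centralizer_iff]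
    intro h hh
    have hcm : x * h * x⁻¹ * h⁻¹ ∈ N := N.mul_mem (hN.conj_mem h hh x) (N.inv_mem hh)
    have hψc : ψ (x * h * x⁻¹ * h⁻¹) = ψ 1 := by
      obtain ⟨m, ρ, hρ⟩ := hψ
      rw [← hρ] at hx1 ⊢
      rw [char_eq_one_iff] at hx1 ⊢
      have hxi : ρ x⁻¹ = 1 := by
        have h3 : ρ x⁻¹ * ρ x = 1 := by rw [← map_mul, inv_mul_cancel, map_one]
        rw [hx1, mul_one] at h3
        exact h3
      rw [map_mul, map_mul, map_mul, hx1, hxi, one_mul, mul_one, ← map_mul, mul_inv_cancel,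
        map_one]
    have h3 := hψf ⟨_, hcm⟩ hψc
    have h4 : x * h * x⁻¹ * h⁻¹ = 1 := congrArg Subtype.val h3
    have h5 : x * h = h * x := by
      have h6 : x * h * x⁻¹ * h⁻¹ * (h * x) = x * h := by group
      rw [← h6, h4, one_mul]
    exact h5.symm
  have hb := schur_bound_sub hp hψ hψ1 Q a hQ hpow C c hCc hker
  exact hb.trans (Nat.add_le_add_left (lam_mono p n' n hn') c)

end Internal

section Ambient

variable {G : Type u} [Group G] [Finite G]

/-- Ambient form: `H` a `p'`-subgroup normalized by the `p`-subgroup `Q` of order `p ^ a`, in a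
group with a faithful character of degree `n`; if `C_Q(H)` lies in a subgroup of order at most
`p ^ c` then `a ≤ c + λ(n)`. -/
theorem bound_ambient {p : ℕ} (hp : p.Prime) (H Q : Subgroup G)
    (hHp : (Nat.card H).Coprime p) (a : ℕ) (hQ : Nat.card Q = p ^ a)
    (hnorm : Q ≤ Subgroup.normalizer (H : Set G))
    {χ : G → ℂ} (hχ : IsCharacter G χ) (n : ℕ) (hn : χ 1 = n)
    (hfaith : ∀ g : G, χ g = χ 1 → g = 1)
    (C : Subgroup G) (c : ℕ) (hCc : Nat.card C ≤ p ^ c)
    (hC : Q ⊓ Subgroup.centralizer (H : Set G) ≤ C) :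
    a ≤ c + ∑ i ∈ Finset.range (n + 1), n / ((p - 1) * p ^ i) := by
  classical
  obtain ⟨X, hX⟩ : ∃ X : Subgroup G, X = Q ⊔ H := ⟨_, rfl⟩
  have hHX : H ≤ X := by rw [hX]; exact le_sup_right
  have hQX : Q ≤ X := by rw [hX]; exact le_sup_left
  haveI hNn : (H.subgroupOf X).Normal := by
    rw [hX]; exact Subgroup.normal_subgroupOf_sup_of_le_normalizer hnorm
  have hcN : Nat.card (H.subgroupOf X) = Nat.card H :=
    Nat.card_congr (Subgroup.subgroupOfEquivOfLe hHX).toEquiv
  have hcQ : Nat.card (Q.subgroupOf X) = Nat.card Q :=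
    Nat.card_congr (Subgroup.subgroupOfEquivOfLe hQX).toEquiv
  have hsup : H.subgroupOf X ⊔ Q.subgroupOf X = ⊤ := by
    rw [← Subgroup.subgroupOf_sup hHX hQX, sup_comm, ← hX, Subgroup.subgroupOf_self]
  have hcC : Nat.card (C.subgroupOf X) ≤ p ^ c := by
    refine le_trans ?_ hCc
    apply Nat.card_le_card_of_injective (fun x : C.subgroupOf X => (⟨((x : X) : G), x.2⟩ : C))
    intro x y hxy
    have h1 : ((⟨((x : X) : G), x.2⟩ : C) : G) = ((⟨((y : X) : G), y.2⟩ : C) : G) :=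
      congrArg Subtype.val hxy
    exact Subtype.ext (Subtype.ext h1)
  apply bound_internal hp (H.subgroupOf X) (by rw [hcN]; exact hHp) (Q.subgroupOf X) a
    (by rw [hcQ]; exact hQ) hsup (isCharacter_restrict X hχ) n hn _ (C.subgroupOf X) c hcC
  · rintro x ⟨hxQ, hxc⟩
    rw [Subgroup.mem_subgroupOf]
    apply hC
    refine Subgroup.mem_inf.mpr ⟨hxQ, ?_⟩
    rw [Subgroup.mem_centralizer_iff]
    intro h hh
    have hxc' : x ∈ Subgroup.centralizer ((H.subgroupOf X : Subgroup X) : Set X) := hxc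
    rw [Subgroup.mem_centralizer_iff] at hxc'
    have h1 := hxc' ⟨h, hHX hh⟩ (by rw [SetLike.mem_coe, Subgroup.mem_subgroupOf]; exact hh)
    exact congrArg Subtype.val h1
  · intro h hh
    have h1 : ((h : X) : G) = 1 := hfaith _ hh
    exact Subtype.ext (Subtype.ext h1)

end Ambient

end Cfsg.Agent.H78.PS
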