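import Mathlib
import Cfsg.Agent.H66.HHA
import Cfsg.Agent.H80.PSolvable
import Cfsg.Agent.H80.GroupBasic
import Cfsg.Agent.H13.PCore
import Cfsg.Agent.H1.SZConj

/-!
# helper78: the group-theoretic reduction for the `p`-solvable Schur bound

In a finite `p`-solvable group `G` with `U = O_p(G)` there are a `p'`-subgroup `H` and a
`p`-subgroup `Q` normalizing `H` with `|Q : Q ∩ U| = |G : U|_p` and `C_Q(H) ≤ U`.
-/

set_option autoImplicit false
set_option linter.style.haveILetI false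
set_option linter.unusedSectionVars false
set_option linter.unusedVariables false

namespace Cfsg.Agent.H78.PS

open Cfsg
open scoped Pointwise

universe u

/-- In a finite group, an element conjugating a subgroup into itself normalizes it. -/
theorem mem_normalizer_of_conj_mem {G : Type u} [Group G] [Finite G] (H : Subgroup G) (g : G)
    (h : ∀ x ∈ H, g * x * g⁻¹ ∈ H) : g ∈ Subgroup.normalizer (H : Set G) := by
  rw [Subgroup.mem_normalizer_iff]
  intro x
  refine ⟨h x, fun hx => ?_⟩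
  let f : H → H := fun y => ⟨g * y * g⁻¹, h y y.2⟩
  have hinj : Function.Injective f := by
    intro a b hab
    have h1 : g * a * g⁻¹ = g * b * g⁻¹ := congrArg Subtype.val hab
    have h2 : (a : G) = b := by
      have := congrArg (fun z => g⁻¹ * z * g) h1
      simpa [mul_assoc] using this
    exact Subtype.ext h2
  have hsurj : Function.Surjective f := Finite.surjective_of_injective hinj
  obtain ⟨y, hy⟩ := hsurj ⟨g * x * g⁻¹, hx⟩
  have h1 : g * y * g⁻¹ = g * x * g⁻¹ := congrArg Subtype.val hy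
  have h2 : (y : G) = x := by
    have := congrArg (fun z => g⁻¹ * z * g) h1
    simpa [mul_assoc] using this
  rw [← h2]
  exact y.2

theorem exists_hall_pair {G : Type u} [Group G] [Finite G] (p : ℕ) [hp : Fact p.Prime]
    (hsolv : IsPSolvable p G) :
    ∃ (H Q : Subgroup G) (a c : ℕ), (Nat.card H).Coprime p ∧ Nat.card Q = p ^ a ∧
      Q ≤ Subgroup.normalizer (H : Set G) ∧ Nat.card (Q ⊓ pCore p G : Subgroup G) = p ^ c ∧
      a = c + (pCore p G).index.factorization p ∧
      Q ⊓ Subgroup.centralizer (H : Set G) ≤ pCore p G := by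
  classical
  obtain ⟨U, hU⟩ : ∃ U : Subgroup G, U = pCore p G := ⟨_, rfl⟩
  haveI hUn : U.Normal := by rw [hU]; exact H13.pCore_normal p G
  have hUp : IsPGroup p U := by rw [hU]; exact H13.pCore_isPGroup p G
  have hsolv' : IsPSolvable p (G ⧸ U) := H80.isPSolvable_quotient p U hsolv
  have hcore : pCore p (G ⧸ U) = ⊥ := by subst hU; exact H66.pCore_quotient_pCore_bot p
  have hcent := H66.centralizer_pPrimeCore_le p hsolv' hcore
  obtain ⟨Kb, hKb⟩ : ∃ Kb : Subgroup (G ⧸ U), Kb = pPrimeCore p (G ⧸ U) := ⟨_, rfl⟩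
  rw [← hKb] at hcent
  haveI hKbn : Kb.Normal := by rw [hKb]; exact H80.pPrimeCore_normal p (G ⧸ U)
  have hKbc : (Nat.card Kb).Coprime p := by rw [hKb]; exact H80.pPrimeCore_coprime p (G ⧸ U)
  obtain ⟨K, hK⟩ : ∃ K : Subgroup G, K = Kb.comap (QuotientGroup.mk' U) := ⟨_, rfl⟩
  haveI hKn : K.Normal := by rw [hK]; infer_instance
  have hmemK : ∀ g : G, g ∈ K ↔ (QuotientGroup.mk' U g) ∈ Kb := by
    intro g; rw [hK, Subgroup.mem_comap]
  have hUK : U ≤ K := by
    intro u hu
    rw [hmemK]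
    have h1 : QuotientGroup.mk' U u = 1 := (QuotientGroup.eq_one_iff u).mpr hu
    rw [h1]
    exact Kb.one_mem
  have hKcard : Nat.card K = Nat.card U * Nat.card Kb := by
    rw [hK]; exact H80.card_comap_mk' U Kb
  obtain ⟨pk, hpk⟩ := IsPGroup.iff_card.mp hUp
  -- Schur–Zassenhaus in `K`
  obtain ⟨UK, hUKdef⟩ : ∃ UK : Subgroup K, UK = U.subgroupOf K := ⟨_, rfl⟩
  haveI hUKn : UK.Normal := by rw [hUKdef]; exact hUn.subgroupOf K
  have hmemUK : ∀ k : K, k ∈ UK ↔ (k : G) ∈ U := by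
    intro k; rw [hUKdef]; exact Subgroup.mem_subgroupOf
  have hUKcard : Nat.card UK = Nat.card U := by
    rw [hUKdef]; exact Nat.card_congr (Subgroup.subgroupOfEquivOfLe hUK).toEquiv
  have hUKidx : UK.index = Nat.card Kb := by
    have h1 := Subgroup.card_mul_index UK
    rw [hUKcard, hKcard] at h1
    exact Nat.eq_of_mul_eq_mul_left Nat.card_pos h1
  have hcopK : (Nat.card UK).Coprime UK.index := by
    rw [hUKcard, hUKidx, hpk]
    exact Nat.Coprime.pow_left _ hKbc.symm
  obtain ⟨HK, hHK⟩ := Subgroup.exists_right_complement'_of_coprime hcopK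
  have hHKcard : Nat.card HK = UK.index := hHK.symm.index_eq_card.symm
  obtain ⟨H, hH⟩ : ∃ H : Subgroup G, H = HK.map K.subtype := ⟨_, rfl⟩
  have hmemH : ∀ g : G, g ∈ H ↔ ∃ k : K, k ∈ HK ∧ (k : G) = g := by
    intro g
    rw [hH, Subgroup.mem_map]
    rfl
  have hHcard : Nat.card H = Nat.card Kb := by
    rw [hH, Subgroup.card_map_of_injective K.subtype_injective, hHKcard, hUKidx]
  have hsolvUK : Group.IsSolvable UK := by
    have : IsPGroup p UK := by
      apply IsPGroup.of_card (n := pk)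
      rw [hUKcard, hpk]
    haveI := this.isNilpotent
    infer_instance
  -- decomposition of elements of `K`
  have hdecomp : ∀ k : K, ∃ u : K, u ∈ UK ∧ ∃ h : K, h ∈ HK ∧ u * h = k := by
    intro k
    obtain ⟨⟨u, h⟩, huh⟩ := hHK.2 k
    exact ⟨u, u.2, h, h.2, huh⟩
  -- Sylow
  obtain ⟨P⟩ : Nonempty (Sylow p G) := inferInstance
  have hUP : U ≤ P := by rw [hU]; exact H13.pCore_le_sylow P
  obtain ⟨Q, hQ⟩ : ∃ Q : Subgroup G, Q = (P : Subgroup G) ⊓ Subgroup.normalizer (H : Set G) :=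
    ⟨_, rfl⟩
  have hQP : Q ≤ P := by rw [hQ]; exact inf_le_left
  have hQN : Q ≤ Subgroup.normalizer (H : Set G) := by rw [hQ]; exact inf_le_right
  -- Frattini argument
  have hfrat : ∀ x ∈ (P : Subgroup G), ∃ u ∈ U, u⁻¹ * x ∈ Q := by
    intro x hx
    obtain ⟨φ, hφ⟩ : ∃ φ : K ≃* K, ∀ k : K, ((φ k : K) : G) = x * k * x⁻¹ :=
      ⟨MulAut.conjNormal x, fun k => rfl⟩
    obtain ⟨HK', hHK'⟩ : ∃ HK' : Subgroup K, HK' = HK.map φ.toMonoidHom := ⟨_, rfl⟩
    have hHK'card : Nat.card HK' = UK.index := by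
      rw [hHK', Subgroup.card_map_of_injective φ.injective, hHKcard]
    obtain ⟨k, hk⟩ := H1.sz_conj_card UK HK HK' hcopK (Or.inl hsolvUK) hHKcard hHK'card
    obtain ⟨u, hu, h, hh, huh⟩ := hdecomp k
    refine ⟨(u : G), (hmemUK u).mp hu, ?_⟩
    have hnorm : (u : G)⁻¹ * x ∈ Subgroup.normalizer (H : Set G) := by
      apply mem_normalizer_of_conj_mem
      intro g hg
      obtain ⟨g₀, hg₀, rfl⟩ := (hmemH g).mp hg
      have h1 : φ g₀ ∈ HK' := by
        rw [hHK']
        exact Subgroup.mem_map_of_mem _ hg₀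
      rw [← hk] at h1
      obtain ⟨h₁, hh₁, hh₁eq⟩ : ∃ h₁ ∈ HK, k * h₁ * k⁻¹ = φ g₀ := by
        rw [Subgroup.mem_pointwise_smul_iff_inv_smul_mem] at h1
        refine ⟨_, h1, ?_⟩
        simp [MulAut.smul_def, mul_assoc]
      rw [(hmemH _)]
      refine ⟨h * h₁ * h⁻¹, HK.mul_mem (HK.mul_mem hh hh₁) (HK.inv_mem hh), ?_⟩
      have h2 : ((k * h₁ * k⁻¹ : K) : G) = x * g₀ * x⁻¹ := by rw [hh₁eq, hφ]
      rw [← huh] at h2
      push_cast at h2 ⊢
      have h3 : (u : G)⁻¹ * x * (g₀ : G) * ((u : G)⁻¹ * x)⁻¹ =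
          (u : G)⁻¹ * (x * g₀ * x⁻¹) * u := by group
      rw [h3, ← h2]
      group
    rw [hQ]
    exact ⟨(P : Subgroup G).mul_mem ((P : Subgroup G).inv_mem (hUP ((hmemUK u).mp hu))) hx, hnorm⟩
  -- `P = U Q`
  have hPUQ : (P : Subgroup G) = U ⊔ Q := by
    apply le_antisymm
    · intro x hx
      obtain ⟨u, hu, huq⟩ := hfrat x hx
      have h1 : x = u * (u⁻¹ * x) := by group
      rw [h1]
      exact Subgroup.mul_mem_sup hu huq
    · exact sup_le hUP hQP
  -- cardinalities
  have hPcard : Nat.card (P : Subgroup G) = p ^ (Nat.card G).factorization p :=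
    P.card_eq_multiplicity
  obtain ⟨a, ha⟩ : ∃ a, Nat.card Q = p ^ a := IsPGroup.iff_card.mp (P.2.to_le hQP)
  have hQU : Q ⊓ U ≤ U := inf_le_right
  obtain ⟨c, hc⟩ : ∃ c, Nat.card (Q ⊓ U : Subgroup G) = p ^ c :=
    IsPGroup.iff_card.mp (hUp.to_le hQU)
  have hr : U.relIndex P = (Q ⊓ U).relIndex Q := by
    rw [hPUQ, Subgroup.relIndex_sup_left, ← Subgroup.inf_relIndex_right, inf_comm]
  have h1 : Nat.card (P : Subgroup G) = Nat.card U * U.relIndex P :=
    H80.card_eq_card_mul_relIndex hUP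
  have h2 : Nat.card Q = Nat.card (Q ⊓ U : Subgroup G) * (Q ⊓ U).relIndex Q :=
    H80.card_eq_card_mul_relIndex inf_le_left
  have h3 : Nat.card G = Nat.card U * U.index := (Subgroup.card_mul_index U).symm
  have hA : (Nat.card G).factorization p = pk + U.index.factorization p := by
    rw [h3, Nat.factorization_mul Nat.card_pos.ne' Subgroup.index_ne_zero_of_finite,
      Finsupp.add_apply, hpk, Nat.Prime.factorization_pow hp.out, Finsupp.single_eq_same]
  have hfin : a = c + U.index.factorization p := by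
    rw [hPcard, hpk, hA] at h1
    rw [ha, hc, ← hr] at h2
    have h4 : U.relIndex P = p ^ U.index.factorization p := by
      rw [pow_add] at h1
      exact (Nat.eq_of_mul_eq_mul_left (pow_pos hp.out.pos pk) h1).symm
    rw [h4, ← pow_add] at h2
    exact Nat.pow_right_injective hp.out.two_le h2
  -- the centralizer of `H` in `Q` lies in `U`
  have hcentQ : Q ⊓ Subgroup.centralizer (H : Set G) ≤ U := by
    intro y hy
    obtain ⟨hyQ, hyc⟩ := Subgroup.mem_inf.mp hy
    rw [Subgroup.mem_centralizer_iff] at hyc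
    have hyb : QuotientGroup.mk' U y ∈ Subgroup.centralizer (Kb : Set (G ⧸ U)) := by
      rw [Subgroup.mem_centralizer_iff]
      intro z hz
      obtain ⟨k, rfl⟩ := QuotientGroup.mk'_surjective U z
      have hkK : k ∈ K := (hmemK k).mpr hz
      obtain ⟨u, hu, h, hh, huh⟩ := hdecomp ⟨k, hkK⟩
      have hk : k = (u : G) * (h : G) := by
        have h5 := congrArg Subtype.val huh
        simpa using h5.symm
      have hu1 : QuotientGroup.mk' U (u : G) = 1 :=
        (QuotientGroup.eq_one_iff _).mpr ((hmemUK u).mp hu)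
      have hhH : (h : G) ∈ H := (hmemH _).mpr ⟨h, hh, rfl⟩
      have hcomm := hyc (h : G) hhH
      rw [hk, map_mul, hu1, one_mul, ← map_mul, ← map_mul, hcomm]
    have hyKb : QuotientGroup.mk' U y ∈ Kb := hcent hyb
    have ho1 : orderOf (QuotientGroup.mk' U y) ∣ Nat.card Kb := by
      have h5 := orderOf_dvd_natCard (⟨_, hyKb⟩ : Kb)
      rwa [Subgroup.orderOf_mk] at h5
    have ho2 : orderOf (QuotientGroup.mk' U y) ∣ p ^ (Nat.card G).factorization p := by
      have h5 : orderOf y ∣ p ^ (Nat.card G).factorization p := by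
        have h6 := orderOf_dvd_natCard (⟨y, hQP hyQ⟩ : (P : Subgroup G))
        rwa [Subgroup.orderOf_mk, hPcard] at h6
      exact (orderOf_map_dvd _ y).trans h5
    have ho : orderOf (QuotientGroup.mk' U y) = 1 := by
      have h5 := Nat.dvd_gcd ho1 ho2
      rw [Nat.Coprime.gcd_eq_one (Nat.Coprime.pow_right _ hKbc)] at h5
      exact Nat.dvd_one.mp h5
    rw [orderOf_eq_one_iff] at ho
    exact (QuotientGroup.eq_one_iff y).mp ho
  refine ⟨H, Q, a, c, ?_, ha, hQN, ?_, ?_, ?_⟩
  · rw [hHcard]; exact hKbc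
  · rw [← hU]; exact hc
  · rw [← hU]; exact hfin
  · rw [← hU]; exact hcentQ

end Cfsg.Agent.H78.PS
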