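import Cfsg.Agent.H78.SdGlue
import Cfsg.Agent.H46.OutGDefs
import Cfsg.Agent.H23.OrdB2
import Cfsg.Agent.H56.StbCoordB2
import Cfsg.Agent.H46.OSChain
import Cfsg.Agent.H36.StbGE6Syl

/-!
# S2156 (helper23's SD project): the instance of type `B₂` (helper78)

`sdType_B2 : StType chevB2` — every automorphism of `B₂(q)` is inner ∘ diagonal ∘ graph ∘ field — from the
generic glue `stType_of_tables` and the table facts of type `B₂` (nodes numbered from 0: `α₀` short, `α₁` long).
-/

set_option autoImplicit false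

namespace Cfsg.Agent.H78.Sd

open Cfsg.Lie Cfsg.Agent.H23 Cfsg.Agent.H23.Stb Cfsg.Agent.H23.StbD Cfsg.Agent.H46.OutE

universe u

/-- The exponent function of type `B2`. -/
abbrev zB2 : ℕ → ℕ → ℤ := zR chevB2 ctblB2

/-- The signs of type `B2`. -/
abbrev ηB2 : ℕ → ℕ → ℤ := fun i s => etaBit (etaB2.getD i 0) s

theorem tabL_B2' : TabL chevB2 rTB2 where
  one := by decide +kernel
  lin := by decide +kernel
  pos := by decide +kernel
  neg := by decide +kernel

theorem packB_B2 (F : Type u) [Field F] : PackB chevB2 F zB2 ηB2 :=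
  ⟨chk_B2.sem F, nconj_B2.semN chk_B2.tblOK F, comm_B2.semC chk_B2.tblOK F, tab_B2, tabC_B2,
    etaNeg_B2, tab2_B2⟩

/-- The pack of table facts of type `B2`. -/
theorem packS_B2 (F : Type u) [Field F] : PackS chevB2 F zB2 ηB2 rTB2 w0B2 :=
  ⟨packB_B2 F, trin_B2.semV chk_B2.tblOK F, tabT_B2, tabL_B2', tabW_B2⟩

/-- `U` is a Sylow `p`-subgroup of `B₂(q)` in characteristic `p`. -/
theorem syl_B2 (F : Type u) [Field F] [Fintype F] (p : ℕ) [hp : Fact p.Prime] [CharP F p] :
    ∃ P : Sylow p ↥(chevB2.group F),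
      (P : Subgroup ↥(chevB2.group F)) = (chevB2.posUnipotent F).subgroupOf (chevB2.group F) := by
  have hS := packS_B2 F
  have hP := hS.hP
  obtain ⟨⟨f, hf0⟩, -, hf⟩ := FiniteField.card F p
  simp only [PNat.mk_coe] at hf
  have hcU : Nat.card ↥((chevB2.posUnipotent F).subgroupOf (chevB2.group F)) = p ^ (f * 4) := by
    rw [Nat.card_congr (Subgroup.subgroupOfEquivOfLe (posUnipotent_le_group hP.sem)).toEquiv,
      Cfsg.Agent.H36.StbG.syl_card_posUnipotent hP hS.hV w0B2 hS.hW, numPos_B2,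
      Nat.card_eq_fintype_card, hf, pow_mul]
  have hq1 : 1 ≤ Fintype.card F := Fintype.card_pos
  have hpq : p ∣ Fintype.card F := by rw [hf]; exact dvd_pow_self p hf0.ne'
  apply Cfsg.Agent.H36.StbG.syl_of_card_mul p _ (f * 4) (Nat.gcd 2 (Fintype.card F - 1))
    (([2, 4].map fun d => Fintype.card F ^ d - 1).prod) hcU
  · rw [order_B2 rfl, pow_mul, ← hf]
    simp only [List.map_cons, List.map_nil, List.prod_cons, List.prod_nil, mul_one, mul_assoc]
  · exact Cfsg.Agent.H36.StbG.syl_not_dvd_prod p (Fintype.card F) hp.out hpq hq1 _ (by decide)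

theorem b2_w0 : ∀ i < chevB2.rank,
    reflW chevB2 w0B2 (chevB2.neg (chevB2.simple i)) = chevB2.simple (id i) := by
  decide +kernel

theorem b2_t1 : ∀ i < chevB2.rank, ∀ j < chevB2.rank, i ≠ j →
    chevB2.commTerms (chevB2.neg (chevB2.simple i)) (chevB2.simple j) = [] := by
  decide +kernel

theorem b2_t2 : ∀ i < chevB2.rank, ∀ j < chevB2.rank, i ≠ j →
    zB2 (chevB2.simple j) (chevB2.simple i) = 0 →
    chevB2.commTerms (chevB2.simple i) (chevB2.simple j) = [] := by
  decide +kernel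

theorem b2_t3 : ∀ i < chevB2.rank, ∀ j < chevB2.rank, i ≠ j →
    zB2 (chevB2.simple j) (chevB2.simple i) ≠ 0 →
    chevB2.reflectRoot i (chevB2.simple j) ≠ chevB2.simple j := by
  decide +kernel

theorem b2_t4 : ∀ i < chevB2.rank, chevB2.reflectRoot i (chevB2.simple i) = chevB2.neg (chevB2.simple i) := by
  decide +kernel

theorem b2_cz : ∀ i < chevB2.rank, ∀ j < chevB2.rank,
    chevB2.cartan i (chevB2.simple j) = zB2 (chevB2.simple i) (chevB2.simple j) := by
  decide +kernel

theorem b2_A : ∀ i < chevB2.rank, ∀ j < chevB2.rank, i ≠ j →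
    zB2 (chevB2.simple j) (chevB2.simple i) ≠ 0 →
    zB2 (chevB2.simple j) (chevB2.simple i) =
      if chevB2.isLong (chevB2.simple i) && !chevB2.isLong (chevB2.simple j) then -((2 : ℕ) : ℤ) else -1 := by
  decide +kernel

theorem b2_case : chevB2.isLong (chevB2.simple 1) = true ∧ chevB2.isLong (chevB2.simple 0) = false ∧
    zB2 (chevB2.simple 0) (chevB2.simple 1) ≠ 0 ∧ zB2 (chevB2.simple 1) (chevB2.simple 0) ≠ 0 := by
  decide +kernel

theorem b2_ex : zB2 (chevB2.simple 1) (chevB2.simple 0) = -1 := by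
  decide +kernel

/-- **S2156 for type `B₂`.** -/
theorem sdType_B2 : StType.{u} chevB2 := by
  have hr : chevB2.rank = 2 := rfl
  obtain ⟨hL1, hL0, -, -⟩ := b2_case
  refine stType_of_tables chevB2 zB2 ηB2 rTB2 w0B2 id Cfsg.Agent.H56.StbG.mCB2 2 1 0
    (fun F _ => packS_B2 F) (fun F _ _ p _ _ => syl_B2 F p) (fun i hi => hi) (fun i _ => rfl) b2_w0
    b2_t1 b2_t2 b2_t3 b2_t4 Cfsg.Agent.H56.StbG.b2_coord b2_cz (Or.inl rfl) b2_A (by decide) (by decide)
    ?_ (Or.inl b2_case) ⟨0, by decide, 1, by decide, by decide, b2_ex⟩ ?_ Cfsg.Agent.H46.OS.chain_B2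
  · intro P h0 h1 _ i hi
    have hi' : i < 2 := hi
    interval_cases i
    · exact h0
    · exact h1
  · intro π hlt hinj _
    have h0 := hlt 0 (by decide)
    have h1 := hlt 1 (by decide)
    have hne : π 0 ≠ π 1 := fun h => absurd (hinj 0 (by decide) 1 (by decide) h) (by decide)
    rw [hr] at h0 h1
    have hcases : (π 0 = 0 ∧ π 1 = 1) ∨ (π 0 = 1 ∧ π 1 = 0) := by omega
    rcases hcases with ⟨e0, e1⟩ | ⟨e0, e1⟩
    · left
      intro i hi
      have hi' : i < 2 := hi
      interval_cases i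
      · rw [e0]
      · rw [e1]
    · right
      intro i hi
      have hi' : i < 2 := hi
      interval_cases i
      · rw [e0, hL1, hL0]; rfl
      · rw [e1, hL1, hL0]; rfl

example : Cfsg.Agent.H23.StbD.StType.{u} Cfsg.Lie.chevB2 := sdType_B2

end Cfsg.Agent.H78.Sd
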