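import Cfsg.Agent.H23.StbDecDefs2
import Cfsg.Agent.H85.StbDDecomp2
import Cfsg.Agent.H19.StbDAdj
import Cfsg.Agent.H63.StbDNF1
import Cfsg.Agent.H63.StbDNF2
import Cfsg.Agent.H11.StbDRootMapG
import Cfsg.Agent.H11.StbDPsiG
import Cfsg.Agent.H70.StbDEdge
import Cfsg.Agent.H18.StbSyl
import Cfsg.Agent.H18.StbW0
import Cfsg.Agent.H13.StbOpp
import Cfsg.Agent.H13.StbPV
import Cfsg.Agent.H13.StbHatEx
import Cfsg.Agent.H61.StbNormU
import Cfsg.Agent.H61.StbPar
import Cfsg.Agent.H70.StbNeg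
import Cfsg.Agent.H70.StbHatAut
import Cfsg.Agent.H78.StbPsi
import Cfsg.Agent.H78.StbRank1
import Cfsg.Agent.H73.StbGPosG
import Cfsg.Agent.H73.StbGMatchG

/-!
# S2156 (helper23's SD project): the generic glue (helper78)

`nfClosed : StNF` (the normal-form piece, from the landed halves and the landed pieces of S2153 / S2123),
and `stType_of_tables`: the conclusion of S2156 for one datum `D` from a pack of table facts, the Sylow fact
and finitely many decidable facts about the tables of `D`.  Generic closure only (no type tables).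
-/

set_option autoImplicit false

namespace Cfsg.Agent.H78.Sd

open Cfsg.Lie Cfsg.Agent.H23 Cfsg.Agent.H23.Stb Cfsg.Agent.H23.StbD

universe u

/-- **SD-NF**, closed. -/
theorem nfClosed : StNF.{u} := by
  have hW0 := Cfsg.Agent.H18.Stb.w0.{u}
  have hNormU := Cfsg.Agent.H61.Stb.normU.{u}
  have hNeg := Cfsg.Agent.H70.Stb.neg hNormU Cfsg.Agent.H61.Stb.par (Cfsg.Agent.H13.Stb.pv hW0)
  exact nf_of_halves
    (Cfsg.Agent.H63.StbD.nf1 Cfsg.Agent.H18.Stb.syl (Cfsg.Agent.H13.Stb.opp hW0) hNeg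
      (Cfsg.Agent.H73.StbG.posG hNeg hW0) Cfsg.Agent.H73.StbG.matchG Cfsg.Agent.H11.StbD.rootMapG)
    (Cfsg.Agent.H63.StbD.nf2 Cfsg.Agent.H13.Stb.hatEx Cfsg.Agent.H70.Stb.hatAut
      (Cfsg.Agent.H11.StbD.psiG Cfsg.Agent.H78.Stb.rank1) Cfsg.Agent.H70.StbD.edge)

/-- The conclusion of S2156 for one datum, from a pack and table facts. -/
theorem stType_of_tables (D : ChevalleyDatum) (z η : ℕ → ℕ → ℤ) (rT w0 : List ℕ)
    (τ : ℕ → ℕ) (m : ℕ → ℕ → ℤ) (c bL bS : ℕ)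
    (hpack : ∀ (F : Type u) [Field F], PackS D F z η rT w0)
    (hsyl : ∀ (F : Type u) [Field F] [Fintype F] (p : ℕ) [Fact p.Prime] [CharP F p],
      ∃ P : Sylow p ↥(D.group F),
        (P : Subgroup ↥(D.group F)) = (D.posUnipotent F).subgroupOf (D.group F))
    (hτ1 : ∀ i < D.rank, τ i < D.rank) (hτ2 : ∀ i < D.rank, τ (τ i) = i)
    (hw0 : ∀ i < D.rank, reflW D w0 (D.neg (D.simple i)) = D.simple (τ i))
    (t1 : ∀ i < D.rank, ∀ j < D.rank, i ≠ j → D.commTerms (D.neg (D.simple i)) (D.simple j) = [])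
    (t2 : ∀ i < D.rank, ∀ j < D.rank, i ≠ j → z (D.simple j) (D.simple i) = 0 →
      D.commTerms (D.simple i) (D.simple j) = [])
    (t3 : ∀ i < D.rank, ∀ j < D.rank, i ≠ j → z (D.simple j) (D.simple i) ≠ 0 →
      D.reflectRoot i (D.simple j) ≠ D.simple j)
    (t4 : ∀ i < D.rank, D.reflectRoot i (D.simple i) = D.neg (D.simple i))
    (hm : Coord D m)
    (hcz : ∀ i < D.rank, ∀ j < D.rank, D.cartan i (D.simple j) = z (D.simple i) (D.simple j))
    (hc23 : c = 2 ∨ c = 3)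
    (hA : ∀ i < D.rank, ∀ j < D.rank, i ≠ j → z (D.simple j) (D.simple i) ≠ 0 →
      z (D.simple j) (D.simple i) =
        if D.isLong (D.simple i) && !D.isLong (D.simple j) then -(c : ℤ) else -1)
    (hbL : bL < D.rank) (hbS : bS < D.rank)
    (hconn : ∀ P : ℕ → Prop, P bS → P bL →
      (∀ i < D.rank, ∀ j < D.rank, i ≠ j → z (D.simple j) (D.simple i) ≠ 0 →
        D.isLong (D.simple i) = D.isLong (D.simple j) → P i → P j) → ∀ i < D.rank, P i)
    (hcase : (D.isLong (D.simple bL) = true ∧ D.isLong (D.simple bS) = false ∧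
        z (D.simple bS) (D.simple bL) ≠ 0 ∧ z (D.simple bL) (D.simple bS) ≠ 0) ∨
      ((∀ i < D.rank, D.isLong (D.simple i) = false) ∧ bL = bS))
    (hex : ∃ i < D.rank, ∃ j < D.rank, i ≠ j ∧ z (D.simple j) (D.simple i) = -1)
    (hπlen : ∀ π : ℕ → ℕ, (∀ i < D.rank, π i < D.rank) →
      (∀ i < D.rank, ∀ j < D.rank, π i = π j → i = j) →
      (∀ i < D.rank, ∀ j < D.rank, i ≠ j →
        (z (D.simple (π j)) (D.simple (π i)) ≠ 0 ↔ z (D.simple j) (D.simple i) ≠ 0)) →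
      ((∀ i < D.rank, D.isLong (D.simple (π i)) = D.isLong (D.simple i)) ∨
        (∀ i < D.rank, D.isLong (D.simple (π i)) = !D.isLong (D.simple i))))
    (hchain : ∀ r < D.nroots, ∀ s < D.nroots, ∀ k, D.chainRoot r s 1 = some k →
      k < D.nroots ∧ s ≠ r ∧ s ≠ D.neg r) :
    StType.{u} D := by
  intro F _ _ θ
  have hC := hpack F
  obtain ⟨p, hp⟩ := CharP.exists F
  have : Fintype F := Fintype.ofFinite F
  have : Fact p.Prime := ⟨CharP.char_is_prime F p⟩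
  obtain ⟨hc2, hadjiff⟩ := Cfsg.Agent.H19.StbD.adj D F z η rT w0 hC t1 t2 t3 t4
  have hnf := nfClosed.{u} D F p z η rT w0 hC (fun i j => z (D.simple j) (D.simple i) ≠ 0) τ m
    (hsyl F p) hτ1 hτ2 hw0 hc2 hadjiff hm θ
  refine Cfsg.Agent.H85.StbD.decomp2Closed.{u} D F z η rT w0 hC c bL bS hcz hc23 hA hbL hbS hconn hcase
    hex hπlen hchain θ ?_
  obtain ⟨x, δ, π, φ, hδ, hπ, hinj, hπadj, hNF⟩ := hnf
  exact ⟨x, δ, π, φ, hδ, hπ, hinj, hπadj, hNF⟩

example : Cfsg.Agent.H23.StbD.StNF.{u} := nfClosed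

end Cfsg.Agent.H78.Sd
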