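import Mathlib

/-!
# Groups with a self-centralizing element of prime order

Helper library of helper78 (namespace `Cfsg.Agent.H78`).
`SC p x` : `x` has order `p` and `C_G(x) = ⟨x⟩`.
-/

set_option autoImplicit false
set_option linter.style.haveILetI false

namespace Cfsg.Agent.H78

open Subgroup
open scoped Pointwise commutatorElement

variable {G : Type*} [Group G]

/-- `x` has order `p` and is self-centralizing: `C_G(x) = ⟨x⟩`. -/
def SC (p : ℕ) (x : G) : Prop :=
  orderOf x = p ∧ centralizer ({x} : Set G) = zpowers x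

theorem SC.conj {p : ℕ} {x : G} (h : SC p x) (g : G) : SC p (g * x * g⁻¹) := by
  refine ⟨?_, ?_⟩
  · have : SemiconjBy g x (g * x * g⁻¹) := by
      simp [SemiconjBy]
    rw [← this.orderOf_eq, h.1]
  · have h1 : zpowers (g * x * g⁻¹) = (zpowers x).map (MulAut.conj g).toMonoidHom := by
      rw [MonoidHom.map_zpowers]; rfl
    rw [h1, ← h.2]
    ext k
    simp only [mem_centralizer_singleton_iff, mem_map, MulEquiv.coe_toMonoidHom, MulAut.conj_apply]
    constructor
    · intro hk
      refine ⟨g⁻¹ * k * g, ?_, by group⟩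
      have : k * (g * x * g⁻¹) * g = (g * x * g⁻¹) * k * g := by rw [hk]
      calc g⁻¹ * k * g * x = g⁻¹ * (k * (g * x * g⁻¹) * g) := by group
        _ = g⁻¹ * ((g * x * g⁻¹) * k * g) := by rw [this]
        _ = x * (g⁻¹ * k * g) := by group
    · rintro ⟨y, hy, rfl⟩
      calc g * y * g⁻¹ * (g * x * g⁻¹) = g * (y * x) * g⁻¹ := by group
        _ = g * (x * y) * g⁻¹ := by rw [hy]
        _ = g * x * g⁻¹ * (g * y * g⁻¹) := by group

theorem SC.ne_one {p : ℕ} (hp : p.Prime) {x : G} (h : SC p x) : x ≠ 1 := by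
  rintro rfl
  have := h.1
  rw [orderOf_one] at this
  exact hp.one_lt.ne this

theorem SC.card_zpowers {p : ℕ} {x : G} (h : SC p x) : Nat.card (zpowers x) = p := by
  rw [Nat.card_zpowers, h.1]

/-- A nontrivial element of `⟨x⟩` is again self-centralizing of order `p`. -/
theorem SC.of_mem_zpowers {p : ℕ} (hp : p.Prime) {x z : G} (h : SC p x) (hz : z ∈ zpowers x)
    (hz1 : z ≠ 1) : SC p z ∧ zpowers z = zpowers x := by
  have ho : orderOf z = p := by
    have h1 : orderOf z ∣ p := by
      have := (zpowers x).orderOf_dvd_natCard hz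
      rwa [h.card_zpowers] at this
    rcases (Nat.dvd_prime hp).mp h1 with h2 | h2
    · exact absurd (orderOf_eq_one_iff.mp h2) hz1
    · exact h2
  have hfin : Finite (zpowers x) := by
    apply Nat.finite_of_card_ne_zero
    rw [h.card_zpowers]; exact hp.ne_zero
  have hzx : zpowers z = zpowers x := by
    apply eq_of_le_of_card_ge (zpowers_le.mpr hz)
    rw [h.card_zpowers, Nat.card_zpowers, ho]
  refine ⟨⟨ho, ?_⟩, hzx⟩
  apply le_antisymm
  · intro k hk
    rw [mem_centralizer_singleton_iff] at hk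
    rw [hzx, ← h.2, mem_centralizer_singleton_iff]
    have h3 : zpowers z ≤ centralizer ({k} : Set G) := by
      rw [zpowers_le, mem_centralizer_singleton_iff]; exact hk.symm
    have h4 : x ∈ centralizer ({k} : Set G) := h3 (hzx ▸ mem_zpowers x)
    rw [mem_centralizer_singleton_iff] at h4
    exact h4.symm
  · rw [zpowers_le, mem_centralizer_singleton_iff]

/-- A `p`-subgroup containing a self-centralizing element of order `p` is generated by it. -/
theorem SC.eq_zpowers_of_isPGroup {p : ℕ} (hp : p.Prime) {x : G} (h : SC p x) {Q : Subgroup G}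
    [Finite Q] (hQ : IsPGroup p Q) (hx : x ∈ Q) : Q = zpowers x := by
  haveI := Fact.mk hp
  haveI : Nontrivial Q := ⟨⟨⟨x, hx⟩, 1, fun hh => h.ne_one hp (Subtype.ext_iff.mp hh)⟩⟩
  haveI : Nontrivial (center Q) := hQ.center_nontrivial
  obtain ⟨⟨z, hzc⟩, hz1⟩ := exists_ne (1 : center Q)
  have hz1' : (z : G) ≠ 1 := by
    intro hh
    apply hz1
    ext
    exact hh
  have hzx : (z : G) ∈ zpowers x := by
    rw [← h.2, mem_centralizer_singleton_iff]
    have := (mem_center_iff.mp hzc) ⟨x, hx⟩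
    have := congrArg Subtype.val this
    simpa using this.symm
  obtain ⟨hsc, hzz⟩ := h.of_mem_zpowers hp hzx hz1'
  apply le_antisymm
  · intro q hq
    rw [← hzz, ← hsc.2, mem_centralizer_singleton_iff]
    have := (mem_center_iff.mp hzc) ⟨q, hq⟩
    have := congrArg Subtype.val this
    simpa using this
  · exact zpowers_le.mpr hx

/-- `⟨x⟩` as a Sylow `p`-subgroup. -/
theorem SC.exists_sylow {p : ℕ} (hp : p.Prime) [Finite G] {x : G} (h : SC p x) :
    ∃ P : Sylow p G, (P : Subgroup G) = zpowers x := by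
  have hpg : IsPGroup p (zpowers x) := IsPGroup.of_card (n := 1) (by rw [h.card_zpowers, pow_one])
  obtain ⟨P, hP⟩ := hpg.exists_le_sylow
  exact ⟨P, h.eq_zpowers_of_isPGroup hp P.2 (hP (mem_zpowers x))⟩

/-- Every Sylow `p`-subgroup has order `p`. -/
theorem SC.card_sylow {p : ℕ} (hp : p.Prime) [Finite G] {x : G} (h : SC p x) (Q : Sylow p G) :
    Nat.card Q = p := by
  haveI := Fact.mk hp
  obtain ⟨P, hP⟩ := h.exists_sylow hp
  rw [Sylow.card_eq_multiplicity, ← Sylow.card_eq_multiplicity P]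
  show Nat.card (P : Subgroup G) = p
  rw [hP, h.card_zpowers]

theorem SC.pow_factorization {p : ℕ} (hp : p.Prime) [Finite G] {x : G} (h : SC p x) :
    p ^ (Nat.card G).factorization p = p := by
  haveI := Fact.mk hp
  obtain ⟨P, hP⟩ := h.exists_sylow hp
  rw [← Sylow.card_eq_multiplicity P]
  show Nat.card (P : Subgroup G) = p
  rw [hP, h.card_zpowers]

/-- Every element of order `p` is self-centralizing. -/
theorem SC.of_orderOf {p : ℕ} (hp : p.Prime) [Finite G] {x y : G} (h : SC p x)
    (hy : orderOf y = p) : SC p y := by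
  haveI := Fact.mk hp
  obtain ⟨P, hP⟩ := h.exists_sylow hp
  have hpg : IsPGroup p (zpowers y) := IsPGroup.of_card (n := 1) (by rw [Nat.card_zpowers, hy, pow_one])
  obtain ⟨Q, hQ⟩ := hpg.exists_le_sylow
  obtain ⟨g, hg⟩ := MulAction.exists_smul_eq G P Q
  have hQ' : (Q : Subgroup G) = zpowers (g * x * g⁻¹) := by
    rw [← hg]
    have h1 : ((g • P : Sylow p G) : Subgroup G) = MulAut.conj g • (P : Subgroup G) := Sylow.coe_subgroup_smul
    rw [h1, hP]
    have : zpowers (g * x * g⁻¹) = (zpowers x).map (MulAut.conj g).toMonoidHom := by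
      rw [MonoidHom.map_zpowers]; rfl
    rw [this]
    rfl
  have hy1 : y ≠ 1 := by
    rintro rfl
    rw [orderOf_one] at hy
    exact hp.one_lt.ne hy
  exact ((h.conj g).of_mem_zpowers hp (hQ' ▸ hQ (mem_zpowers y)) hy1).1

/-- The commutator subgroup of `N_G(Y)` centralizes `Y` for cyclic `Y`. -/
theorem commutator_normalizer_mem_centralizer (Y : Subgroup G) [IsCyclic Y] {a b : G}
    (ha : a ∈ normalizer (Y : Set G)) (hb : b ∈ normalizer (Y : Set G)) :
    ⁅a, b⁆ ∈ centralizer (Y : Set G) := by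
  let _ := (IsCyclic.mulAutMulEquiv Y).toMonoidHom.commGroupOfInjective
    (IsCyclic.mulAutMulEquiv Y).injective
  have h := Abelianization.commutator_subset_ker Y.normalizerMonoidHom
  rw [Subgroup.normalizerMonoidHom_ker] at h
  have h2 : ⁅(⟨a, ha⟩ : normalizer (Y : Set G)), ⟨b, hb⟩⁆ ∈ commutator (normalizer (Y : Set G)) := by
    rw [_root_.commutator_def]
    exact commutator_mem_commutator (mem_top _) (mem_top _)
  have h3 := h h2
  rw [mem_subgroupOf] at h3
  exact h3

theorem SC.commutator_le_of_dvd {p : ℕ} (hp : p.Prime) [Finite G] {x : G} (h : SC p x)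
    (S : Subgroup G) [S.Normal] (hS : p ∣ Nat.card S) : commutator G ≤ S := by
  haveI := Fact.mk hp
  obtain ⟨y, hy⟩ := exists_prime_orderOf_dvd_card' p hS
  have hyG : orderOf (y : G) = p := by rw [Subgroup.orderOf_coe, hy]
  have hsc : SC p (y : G) := h.of_orderOf hp hyG
  have hpg : IsPGroup p (zpowers y) :=
    IsPGroup.of_card (n := 1) (by rw [Nat.card_zpowers, hy, pow_one])
  obtain ⟨P, hP⟩ := hpg.exists_le_sylow
  have hQ : ((P : Subgroup S).map S.subtype) = zpowers (y : G) := by
    apply hsc.eq_zpowers_of_isPGroup hp (P.2.map S.subtype)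
    exact ⟨y, hP (mem_zpowers y), rfl⟩
  have hfr := Sylow.normalizer_sup_eq_top P
  rw [hQ] at hfr
  have hN : ∀ a ∈ normalizer (zpowers (y : G) : Set G),
      ∀ b ∈ normalizer (zpowers (y : G) : Set G), ⁅a, b⁆ ∈ S := by
    intro a ha b hb
    have h1 := commutator_normalizer_mem_centralizer (zpowers (y : G)) ha hb
    have h2 : ⁅a, b⁆ ∈ centralizer ({(y : G)} : Set G) := by
      rw [mem_centralizer_iff] at h1
      rw [mem_centralizer_singleton_iff]
      exact (h1 _ (mem_zpowers _)).symm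
    rw [hsc.2] at h2
    exact (zpowers_le.mpr y.2) h2
  rw [_root_.commutator_def, Subgroup.commutator_le]
  intro a _ b _
  have ha : a ∈ normalizer (zpowers (y : G) : Set G) ⊔ S := hfr ▸ mem_top a
  have hb : b ∈ normalizer (zpowers (y : G) : Set G) ⊔ S := hfr ▸ mem_top b
  obtain ⟨n₁, hn₁, s₁, hs₁, rfl⟩ := mem_sup_of_normal_right.mp ha
  obtain ⟨n₂, hn₂, s₂, hs₂, rfl⟩ := mem_sup_of_normal_right.mp hb
  have h3 := hN n₁ hn₁ n₂ hn₂
  rw [← QuotientGroup.eq_one_iff (N := S)] at h3 ⊢
  have e1 : ((n₁ * s₁ : G) : G ⧸ S) = (n₁ : G ⧸ S) := by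
    rw [QuotientGroup.mk_mul, (QuotientGroup.eq_one_iff s₁).mpr hs₁, mul_one]
  have e2 : ((n₂ * s₂ : G) : G ⧸ S) = (n₂ : G ⧸ S) := by
    rw [QuotientGroup.mk_mul, (QuotientGroup.eq_one_iff s₂).mpr hs₂, mul_one]
  have e3 : ∀ u v : G, ((⁅u, v⁆ : G) : G ⧸ S) = ⁅(u : G ⧸ S), (v : G ⧸ S)⁆ := fun u v =>
    map_commutatorElement (QuotientGroup.mk' S) u v
  rw [e3, e1, e2, ← e3]
  exact h3


theorem SC.inf_zpowers_eq_bot {p : ℕ} (hp : p.Prime) {x : G} (h : SC p x)
    (S : Subgroup G) (hS : ¬ p ∣ Nat.card S) : S ⊓ zpowers x = ⊥ := by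
  have : (Nat.card S).Coprime (Nat.card (zpowers x)) := by
    rw [h.card_zpowers]
    exact ((Nat.Prime.coprime_iff_not_dvd hp).mpr hS).symm
  exact disjoint_iff.mp (disjoint_of_coprime_natCard this)

theorem SC.eq_one_of_mem_of_commute {p : ℕ} (hp : p.Prime) {x : G} (h : SC p x)
    (S : Subgroup G) (hS : ¬ p ∣ Nat.card S) {s : G} (hs : s ∈ S) (hc : s * x = x * s) : s = 1 := by
  have h1 : s ∈ S ⊓ zpowers x := by
    refine ⟨hs, ?_⟩
    show s ∈ zpowers x
    rw [← h.2, mem_centralizer_singleton_iff]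
    exact hc
  rw [h.inf_zpowers_eq_bot hp S hS] at h1
  exact h1

theorem SC.card_mod {p : ℕ} (hp : p.Prime) [Finite G] {x : G} (h : SC p x)
    (S : Subgroup G) [S.Normal] (hS : ¬ p ∣ Nat.card S) : Nat.card S % p = 1 := by
  haveI := Fact.mk hp
  have hpg : IsPGroup p (zpowers x) :=
    IsPGroup.of_card (n := 1) (by rw [h.card_zpowers, pow_one])
  letI : MulAction (zpowers x) S :=
    MulAction.compHom S ((MulAut.conjNormal (H := S)).comp (zpowers x).subtype)
  have key := hpg.card_modEq_card_fixedPoints S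
  have hfix : MulAction.fixedPoints (zpowers x) S = {1} := by
    ext s
    simp only [MulAction.mem_fixedPoints, Set.mem_singleton_iff]
    constructor
    · intro hs
      have h1 := hs ⟨x, mem_zpowers x⟩
      have h2 : x * (s : G) * x⁻¹ = s := congrArg Subtype.val h1
      have h3 : (s : G) * x = x * s := by
        calc (s : G) * x = (x * s * x⁻¹) * x := by rw [h2]
          _ = x * s := by group
      ext
      exact h.eq_one_of_mem_of_commute hp S hS s.2 h3
    · rintro rfl g
      exact map_one (MulAut.conjNormal (H := S) (g : G))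
  rw [hfix] at key
  have h1 : Nat.card ({1} : Set S) = 1 := by simp
  rw [h1] at key
  have := key
  unfold Nat.ModEq at this
  rw [this]
  exact Nat.mod_eq_of_lt hp.one_lt

/-- Subgroups of order `p` are the Sylow `p`-subgroups. -/
noncomputable def SC.sylowEquiv {p : ℕ} (hp : p.Prime) [Finite G] {x : G} (h : SC p x) :
    haveI := Fact.mk hp
    {H : Subgroup G // Nat.card H = p} ≃ Sylow p G :=
  haveI := Fact.mk hp
  { toFun := fun H => Sylow.ofCard H.1 (by rw [H.2, h.pow_factorization hp])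
    invFun := fun P => ⟨P, h.card_sylow hp P⟩
    left_inv := fun H => by ext; rfl
    right_inv := fun P => by ext; rfl }

theorem SC.card_subgroups {p : ℕ} (hp : p.Prime) [Finite G] {x : G} (h : SC p x) :
    Nat.card {H : Subgroup G // Nat.card H = p} = (normalizer (zpowers x : Set G)).index := by
  haveI := Fact.mk hp
  obtain ⟨P, hP⟩ := h.exists_sylow hp
  rw [Nat.card_congr (h.sylowEquiv hp), Sylow.card_eq_index_normalizer P]
  have : ((P : Subgroup G) : Set G) = (zpowers x : Set G) := by rw [hP]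
  exact congrArg (fun s => (normalizer s).index) this

theorem SC.normalizer_inf_eq_bot {p : ℕ} (hp : p.Prime) {x : G} (h : SC p x)
    (S : Subgroup G) [hn : S.Normal] (hS : ¬ p ∣ Nat.card S) :
    S ⊓ normalizer (zpowers x : Set G) = ⊥ := by
  rw [eq_bot_iff]
  rintro s ⟨hs, hsn⟩
  rw [mem_bot]
  apply h.eq_one_of_mem_of_commute hp S hS hs
  have h1 : s * x * s⁻¹ ∈ zpowers x := (mem_normalizer_iff.mp hsn x).mp (mem_zpowers x)
  have h2 : x⁻¹ * (s * x * s⁻¹) ∈ S ⊓ zpowers x := by
    refine ⟨?_, (zpowers x).mul_mem ((zpowers x).inv_mem (mem_zpowers x)) h1⟩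
    have h3 : x⁻¹ * s * x ∈ S := by
      have := hn.conj_mem s hs x⁻¹
      simpa using this
    have h4 : x⁻¹ * (s * x * s⁻¹) = (x⁻¹ * s * x) * s⁻¹ := by group
    rw [h4]
    exact S.mul_mem h3 (S.inv_mem hs)
  rw [h.inf_zpowers_eq_bot hp S hS, mem_bot] at h2
  calc s * x = x * (x⁻¹ * (s * x * s⁻¹)) * s := by group
    _ = x * s := by rw [h2, mul_one]

theorem SC.card_dvd_index_normalizer {p : ℕ} (hp : p.Prime) [Finite G] {x : G} (h : SC p x)
    (S : Subgroup G) [hn : S.Normal] (hS : ¬ p ∣ Nat.card S) :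
    Nat.card S ∣ (normalizer (zpowers x : Set G)).index := by
  set N := normalizer (zpowers x : Set G) with hN
  have h1 : S.relIndex (S ⊔ N) = S.relIndex N := relIndex_sup_left N S
  have h2 : S.relIndex N = Nat.card N := by
    rw [← inf_relIndex_right, h.normalizer_inf_eq_bot hp S hS, relIndex_bot_left]
  have h3 : Nat.card (S.subgroupOf (S ⊔ N)) = Nat.card S :=
    Nat.card_congr (subgroupOfEquivOfLe le_sup_left).toEquiv
  have h4 : Nat.card (S.subgroupOf (S ⊔ N)) * (S.subgroupOf (S ⊔ N)).index = Nat.card (S ⊔ N : Subgroup G) :=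
    card_mul_index _
  have h5 : Nat.card (S ⊔ N : Subgroup G) * (S ⊔ N).index = Nat.card G := card_mul_index _
  have h6 : Nat.card N * N.index = Nat.card G := card_mul_index _
  have h7 : (S.subgroupOf (S ⊔ N)).index = Nat.card N := by
    rw [← h2, ← h1]; rfl
  rw [h3, h7] at h4
  rw [← h4] at h5
  have h8 : Nat.card N * (Nat.card S * (S ⊔ N).index) = Nat.card N * N.index := by
    rw [h6, ← h5]; ring
  have hpos : 0 < Nat.card N := Nat.card_pos
  exact ⟨_, (Nat.eq_of_mul_eq_mul_left hpos h8).symm⟩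


/-- Every element of the coset `xS` is `S`-conjugate to `x`. -/
theorem SC.exists_conj {p : ℕ} (hp : p.Prime) [Finite G] {x : G} (h : SC p x)
    (S : Subgroup G) [hn : S.Normal] (hS : ¬ p ∣ Nat.card S) {t : G} (ht : t ∈ S) :
    ∃ s ∈ S, s * x * s⁻¹ = x * t := by
  let f : S → S := fun s => ⟨x⁻¹ * s * x * (s : G)⁻¹, by
    have h1 : x⁻¹ * s * x ∈ S := by
      have := hn.conj_mem s s.2 x⁻¹
      simpa using this
    exact S.mul_mem h1 (S.inv_mem s.2)⟩
  have hinj : Function.Injective f := by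
    intro a b hab
    have h1 : x⁻¹ * a * x * (a : G)⁻¹ = x⁻¹ * b * x * (b : G)⁻¹ := congrArg Subtype.val hab
    have h2 : ((b : G)⁻¹ * a) * x = x * ((b : G)⁻¹ * a) := by
      have h3 : (a : G) * x * (a : G)⁻¹ = b * x * (b : G)⁻¹ := by
        have := congrArg (fun z => x * z) h1
        simpa [mul_assoc] using this
      calc ((b : G)⁻¹ * a) * x = (b : G)⁻¹ * (a * x * (a : G)⁻¹) * a := by group
        _ = (b : G)⁻¹ * (b * x * (b : G)⁻¹) * a := by rw [h3]
        _ = x * ((b : G)⁻¹ * a) := by group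
    have h4 := h.eq_one_of_mem_of_commute hp S hS (S.mul_mem (S.inv_mem b.2) a.2) h2
    ext
    have : (a : G) = b := by
      calc (a : G) = b * ((b : G)⁻¹ * a) := by group
        _ = b := by rw [h4, mul_one]
    exact this
  obtain ⟨s, hs⟩ := (Finite.injective_iff_surjective.mp hinj) ⟨t, ht⟩
  refine ⟨s, s.2, ?_⟩
  have h1 : x⁻¹ * s * x * (s : G)⁻¹ = t := congrArg Subtype.val hs
  rw [← h1]
  group



theorem SC.quotient {p : ℕ} (hp : p.Prime) [Finite G] {x : G} (h : SC p x)
    (S : Subgroup G) [hn : S.Normal] (hS : ¬ p ∣ Nat.card S) :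
    SC p (QuotientGroup.mk x : G ⧸ S) := by
  refine ⟨?_, ?_⟩
  · have h1 : orderOf (QuotientGroup.mk x : G ⧸ S) ∣ p := by
      apply orderOf_dvd_of_pow_eq_one
      rw [← QuotientGroup.mk_pow, ← h.1, pow_orderOf_eq_one]
      rfl
    rcases (Nat.dvd_prime hp).mp h1 with h2 | h2
    · exfalso
      rw [orderOf_eq_one_iff, QuotientGroup.eq_one_iff] at h2
      have : x ∈ S ⊓ zpowers x := ⟨h2, mem_zpowers x⟩
      rw [h.inf_zpowers_eq_bot hp S hS, mem_bot] at this
      exact h.ne_one hp this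
    · exact h2
  · apply le_antisymm
    · intro q hq
      obtain ⟨g, rfl⟩ := QuotientGroup.mk_surjective q
      rw [mem_centralizer_singleton_iff, ← QuotientGroup.mk_mul, ← QuotientGroup.mk_mul,
        QuotientGroup.eq] at hq
      obtain ⟨s, hs, hsx⟩ := h.exists_conj hp S hS hq
      have h1 : (g * s) * x = x * (g * s) := by
        have : s * x * s⁻¹ = g⁻¹ * x * g := by rw [hsx]; group
        calc g * s * x = g * (s * x * s⁻¹) * s := by group
          _ = g * (g⁻¹ * x * g) * s := by rw [this]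
          _ = x * (g * s) := by group
      have h2 : g * s ∈ zpowers x := by
        rw [← h.2, mem_centralizer_singleton_iff]; exact h1
      have h3 : ((g * s : G) : G ⧸ S) = (g : G ⧸ S) := by
        rw [QuotientGroup.mk_mul, (QuotientGroup.eq_one_iff s).mpr hs, mul_one]
      rw [← h3]
      have h4 : zpowers (QuotientGroup.mk x : G ⧸ S) = (zpowers x).map (QuotientGroup.mk' S) := by
        rw [MonoidHom.map_zpowers]; rfl
      rw [h4]
      exact ⟨g * s, h2, rfl⟩
    · rw [zpowers_le, mem_centralizer_singleton_iff]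

end Cfsg.Agent.H78
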