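import Cfsg.Agent.H78.SelfCent2
import Cfsg.Prelude.Def_Solvable

/-!
# Self-centralizing elements of prime order, part 3 (helper78)

`O_{p'}(G) ≤ G'`, and `G'/O_{p'}(G)` is simple unless `N_G(⟨x⟩) = ⟨x⟩`.
-/

set_option autoImplicit false
set_option linter.style.haveILetI false

namespace Cfsg.Agent.H78

open Subgroup
open scoped Pointwise commutatorElement

variable {G : Type*} [Group G]

theorem h78_pPrimeCore_normal (p : ℕ) (X : Type*) [Group X] : (Cfsg.pPrimeCore p X).Normal :=
  Subgroup.sSup_normal _ (fun _ h => h.1)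

theorem h78_le_pPrimeCore {p : ℕ} {X : Type*} [Group X] (N : Subgroup X) (hN : N.Normal)
    (h : (Nat.card N).Coprime p) : N ≤ Cfsg.pPrimeCore p X :=
  le_sSup ⟨hN, h⟩

theorem h78_card_sup_dvd_mul {X : Type*} [Group X] [Finite X] (M N : Subgroup X) [N.Normal] :
    Nat.card (M ⊔ N : Subgroup X) ∣ Nat.card M * Nat.card N := by
  have h1 : Nat.card (M ⊔ N : Subgroup X) = N.relIndex (M ⊔ N) * Nat.card N := by
    have h2 := (N.subgroupOf (M ⊔ N)).index_mul_card
    rw [← h2]
    congr 1
    exact Nat.card_congr (Subgroup.subgroupOfEquivOfLe le_sup_right).toEquiv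
  rw [h1, Subgroup.relIndex_sup_right]
  exact Nat.mul_dvd_mul_right (Subgroup.relIndex_dvd_card N M) _

/-- `O_{p'}(X)` has order prime to `p`, for finite `X`. -/
theorem h78_card_pPrimeCore_coprime (p : ℕ) (X : Type*) [Group X] [Finite X] :
    (Nat.card (Cfsg.pPrimeCore p X)).Coprime p := by
  have hfin : {N : Subgroup X | N.Normal ∧ (Nat.card N).Coprime p}.Finite := Set.toFinite _
  have hbot : (⊥ : Subgroup X) ∈ {N : Subgroup X | N.Normal ∧ (Nat.card N).Coprime p} :=
    ⟨inferInstance, by simp⟩
  obtain ⟨M, hM⟩ := hfin.exists_maximal ⟨⊥, hbot⟩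
  have hMmem : M.Normal ∧ (Nat.card M).Coprime p := hM.prop
  have hle : Cfsg.pPrimeCore p X ≤ M := by
    apply sSup_le
    intro N hN
    haveI := hN.1
    haveI := hMmem.1
    have hsup : (M ⊔ N) ∈ {N : Subgroup X | N.Normal ∧ (Nat.card N).Coprime p} := by
      refine ⟨inferInstance, ?_⟩
      exact Nat.Coprime.coprime_dvd_left (h78_card_sup_dvd_mul M N)
        (Nat.Coprime.mul_left hMmem.2 hN.2)
    have := hM.le_of_ge hsup le_sup_left
    exact le_sup_right.trans this
  exact Nat.Coprime.coprime_dvd_left (Subgroup.card_dvd_of_le hle) hMmem.2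

theorem h78_pPrimeCore_characteristic (p : ℕ) (X : Type*) [Group X] :
    (Cfsg.pPrimeCore p X).Characteristic := by
  rw [characteristic_iff_map_le]
  intro ϕ
  rw [map_le_iff_le_comap]
  apply sSup_le
  intro N hN
  rw [← map_le_iff_le_comap]
  apply le_sSup
  refine ⟨hN.1.map _ ϕ.surjective, ?_⟩
  rw [card_map_of_injective ϕ.injective]
  exact hN.2

theorem SC.not_mem_pPrimeCore {p : ℕ} (hp : p.Prime) [Finite G] {x : G} (h : SC p x) :
    x ∉ Cfsg.pPrimeCore p G := by
  intro hx
  have h1 := (Cfsg.pPrimeCore p G).orderOf_dvd_natCard hx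
  rw [h.1] at h1
  have h2 := h78_card_pPrimeCore_coprime p G
  have := Nat.eq_one_of_dvd_coprimes h2.symm dvd_rfl h1
  exact hp.one_lt.ne' this

theorem SC.not_dvd_card_pPrimeCore {p : ℕ} (hp : p.Prime) [Finite G] :
    ¬ p ∣ Nat.card (Cfsg.pPrimeCore p G) := by
  intro hd
  have h2 := h78_card_pPrimeCore_coprime p G
  have := Nat.eq_one_of_dvd_coprimes h2.symm dvd_rfl hd
  exact hp.one_lt.ne' this

/-- `O_{p'}(G) ≤ G'`. -/
theorem SC.pPrimeCore_le_commutator {p : ℕ} (hp : p.Prime) [Finite G] {x : G} (h : SC p x) :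
    Cfsg.pPrimeCore p G ≤ commutator G := by
  haveI := h78_pPrimeCore_normal p G
  intro t ht
  obtain ⟨s, hs, hsx⟩ := h.exists_conj hp (Cfsg.pPrimeCore p G) (SC.not_dvd_card_pPrimeCore hp) ht
  have : t = ⁅x⁻¹, s⁆ := by
    rw [commutatorElement_def]
    have : t = x⁻¹ * (s * x * s⁻¹) := by rw [hsx]; group
    rw [this]; group
  rw [this, _root_.commutator_def]
  exact commutator_mem_commutator (mem_top _) (mem_top _)

/-- If `N_G(⟨x⟩) = ⟨x⟩` then `G' = O_{p'}(G)`. -/
theorem SC.commutator_eq_pPrimeCore {p : ℕ} (hp : p.Prime) [Finite G] {x : G} (h : SC p x)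
    (he : (zpowers x).relIndex (normalizer (zpowers x : Set G)) = 1) :
    commutator G = Cfsg.pPrimeCore p G := by
  apply le_antisymm
  · apply h78_le_pPrimeCore _ inferInstance
    exact ((Nat.Prime.coprime_iff_not_dvd hp).mpr (h.index_commutator_eq hp he).2).symm
  · exact h.pPrimeCore_le_commutator hp

/-- If `N_G(⟨x⟩) ≠ ⟨x⟩` then `G'/O_{p'}(G)` is simple. -/
theorem SC.isSimpleGroup_commutator_quotient {p : ℕ} (hp : p.Prime) [Finite G] {x : G}
    (h : SC p x) (hne : (zpowers x).relIndex (normalizer (zpowers x : Set G)) ≠ 1)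
    (hn : ((Cfsg.pPrimeCore p G).subgroupOf (commutator G)).Normal) :
    IsSimpleGroup (↥(commutator G) ⧸ (Cfsg.pPrimeCore p G).subgroupOf (commutator G)) := by
  haveI := Fact.mk hp
  haveI := h78_pPrimeCore_normal p G
  have hxG : x ∈ commutator G := (h.index_commutator_le hp hne).1 (mem_zpowers x)
  haveI : Nontrivial (↥(commutator G) ⧸ (Cfsg.pPrimeCore p G).subgroupOf (commutator G)) := by
    refine ⟨⟨QuotientGroup.mk ⟨x, hxG⟩, 1, ?_⟩⟩
    rw [Ne, QuotientGroup.eq_one_iff, mem_subgroupOf]
    exact h.not_mem_pPrimeCore hp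
  refine ⟨fun Mbar hMbar => ?_⟩
  set O' := (Cfsg.pPrimeCore p G).subgroupOf (commutator G) with hO'
  set M := Mbar.comap (QuotientGroup.mk' O') with hM
  haveI hMn : M.Normal := hMbar.comap _
  have hMbar_eq : Mbar = M.map (QuotientGroup.mk' O') :=
    (map_comap_eq_self_of_surjective (QuotientGroup.mk'_surjective O') Mbar).symm
  by_cases hpM : p ∣ Nat.card M
  · right
    obtain ⟨y, hy⟩ := exists_prime_orderOf_dvd_card' p hpM
    have hyG : orderOf ((y : commutator G) : G) = p := by
      rw [Subgroup.orderOf_coe, Subgroup.orderOf_coe, hy]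
    have hfr := h.frattini hp (commutator G) (y : commutator G).2 hyG
    rw [sup_comm] at hfr
    -- all G-conjugates of y lie in the image of M
    have hconj : Group.conjugatesOfSet {((y : commutator G) : G)} ⊆
        ((M.map (commutator G).subtype : Subgroup G) : Set G) := by
      intro z hz
      rw [Group.mem_conjugatesOfSet_iff] at hz
      obtain ⟨a, ha, haz⟩ := hz
      rw [Set.mem_singleton_iff] at ha
      subst ha
      rw [isConj_iff] at haz
      obtain ⟨g, rfl⟩ := haz
      have hg : g ∈ commutator G ⊔ normalizer (zpowers ((y : commutator G) : G) : Set G) :=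
        hfr ▸ mem_top g
      obtain ⟨c, hc, n, hn', rfl⟩ := mem_sup_of_normal_left.mp hg
      have h1 : n * ((y : commutator G) : G) * n⁻¹ ∈ zpowers ((y : commutator G) : G) :=
        (mem_normalizer_iff.mp hn' _).mp (mem_zpowers _)
      have h2 : zpowers ((y : commutator G) : G) ≤ M.map (commutator G).subtype := by
        rw [zpowers_le]
        exact ⟨(y : commutator G), y.2, rfl⟩
      obtain ⟨m, hm, hmn⟩ := h2 h1
      refine ⟨⟨c, hc⟩ * m * ⟨c, hc⟩⁻¹, hMn.conj_mem m hm ⟨c, hc⟩, ?_⟩
      have hmn' : (m : G) = n * ((y : commutator G) : G) * n⁻¹ := hmn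
      show c * (m : G) * c⁻¹ = c * n * ((y : commutator G) : G) * (c * n)⁻¹
      rw [hmn']
      group
    have hcl : normalClosure {((y : commutator G) : G)} ≤ M.map (commutator G).subtype := by
      unfold normalClosure
      rw [closure_le]
      exact hconj
    have hdvd : p ∣ Nat.card (normalClosure {((y : commutator G) : G)}) := by
      have := (normalClosure {((y : commutator G) : G)}).orderOf_dvd_natCard
        (subset_normalClosure (Set.mem_singleton _))
      rwa [hyG] at this
    haveI : (normalClosure {((y : commutator G) : G)}).Normal := normalClosure_normal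
    have hGle := (h.commutator_le_of_dvd hp _ hdvd).trans hcl
    have hMtop : M = ⊤ := by
      rw [eq_top_iff]
      intro z _
      obtain ⟨m, hm, hmz⟩ := hGle z.2
      have : m = z := Subtype.ext hmz
      exact this ▸ hm
    rw [hMbar_eq, hMtop]
    exact map_top_of_surjective _ (QuotientGroup.mk'_surjective O')
  · left
    have hMle : M ≤ Cfsg.pPrimeCore p (commutator G) :=
      h78_le_pPrimeCore M hMn ((Nat.Prime.coprime_iff_not_dvd hp).mpr hpM).symm
    haveI := h78_pPrimeCore_characteristic p (commutator G)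
    haveI hKn : ((Cfsg.pPrimeCore p (commutator G)).map (commutator G).subtype).Normal :=
      ConjAct.normal_of_characteristic_of_normal
    have hKc : (Nat.card ((Cfsg.pPrimeCore p (commutator G)).map (commutator G).subtype)).Coprime p := by
      rw [card_map_of_injective (commutator G).subtype_injective]
      exact h78_card_pPrimeCore_coprime p _
    have hKle := h78_le_pPrimeCore _ hKn hKc
    have hMO : M ≤ O' := by
      intro m hm
      rw [hO', mem_subgroupOf]
      exact hKle ⟨m, hMle hm, rfl⟩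
    rw [hMbar_eq, eq_bot_iff]
    calc M.map (QuotientGroup.mk' O') ≤ O'.map (QuotientGroup.mk' O') := map_mono hMO
      _ = ⊥ := QuotientGroup.map_mk'_self O'

end Cfsg.Agent.H78
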