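import Cfsg.Agent.H78.SelfCent3

/-!
# Self-centralizing elements of prime order, part 4 (helper78)

Normal subgroups of order `[G : N_G(⟨x⟩)]` and the second derived subgroup.
-/

set_option autoImplicit false
set_option linter.style.haveILetI false

namespace Cfsg.Agent.H78

open Subgroup
open scoped Pointwise commutatorElement

variable {G : Type*} [Group G]

theorem SC.card_mul_index_sup {p : ℕ} (hp : p.Prime) [Finite G] {x : G} (h : SC p x)
    (S : Subgroup G) [hn : S.Normal] (hS : ¬ p ∣ Nat.card S) :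
    Nat.card S * (S ⊔ normalizer (zpowers x : Set G)).index =
      (normalizer (zpowers x : Set G)).index := by
  set N := normalizer (zpowers x : Set G) with hN
  have h1 : S.relIndex (S ⊔ N) = S.relIndex N := relIndex_sup_left N S
  have h2 : S.relIndex N = Nat.card N := by
    rw [← inf_relIndex_right, h.normalizer_inf_eq_bot hp S hS, relIndex_bot_left]
  have h3 : Nat.card (S.subgroupOf (S ⊔ N)) = Nat.card S :=
    Nat.card_congr (subgroupOfEquivOfLe le_sup_left).toEquiv
  have h4 : Nat.card (S.subgroupOf (S ⊔ N)) * (S.subgroupOf (S ⊔ N)).index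
      = Nat.card (S ⊔ N : Subgroup G) := card_mul_index _
  have h5 : Nat.card (S ⊔ N : Subgroup G) * (S ⊔ N).index = Nat.card G := card_mul_index _
  have h6 : Nat.card N * N.index = Nat.card G := card_mul_index _
  have h7 : (S.subgroupOf (S ⊔ N)).index = Nat.card N := by
    rw [← h2, ← h1]; rfl
  rw [h3, h7] at h4
  rw [← h4] at h5
  have h8 : Nat.card N * (Nat.card S * (S ⊔ N).index) = Nat.card N * N.index := by
    rw [h6, ← h5]; ring
  have hpos : 0 < Nat.card N := Nat.card_pos
  exact Nat.eq_of_mul_eq_mul_left hpos h8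

theorem commute_of_mem_zpowers {x z₁ z₂ : G} (h₁ : z₁ ∈ zpowers x) (h₂ : z₂ ∈ zpowers x) :
    z₁ * z₂ = z₂ * z₁ := by
  obtain ⟨i, rfl⟩ := mem_zpowers_iff.mp h₁
  obtain ⟨j, rfl⟩ := mem_zpowers_iff.mp h₂
  exact zpow_mul_comm x i j

/-- If `G = S N_G(⟨x⟩)` for a normal `p'`-subgroup `S`, then `G'' ≤ S`. -/
theorem SC.derived_le_of_sup_eq_top {p : ℕ} (hp : p.Prime) [Finite G] {x : G} (h : SC p x)
    (S : Subgroup G) [hn : S.Normal] (htop : S ⊔ normalizer (zpowers x : Set G) = ⊤) :
    ⁅commutator G, commutator G⁆ ≤ S := by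
  -- `S ⊔ ⟨x⟩` is normal
  have hH : (S ⊔ zpowers x).Normal := by
    refine ⟨fun k hk g => ?_⟩
    obtain ⟨s₁, hs₁, z, hz, rfl⟩ := mem_sup_of_normal_left.mp hk
    have hg : g ∈ S ⊔ normalizer (zpowers x : Set G) := htop ▸ mem_top g
    obtain ⟨s, hs, n, hn', rfl⟩ := mem_sup_of_normal_left.mp hg
    have e : s * n * (s₁ * z) * (s * n)⁻¹ =
        (s * n * s₁ * (s * n)⁻¹) * (s * (n * z * n⁻¹) * s⁻¹) := by group
    rw [e]
    apply (S ⊔ zpowers x).mul_mem
    · exact (le_sup_left : S ≤ S ⊔ zpowers x) (hn.conj_mem s₁ hs₁ (s * n))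
    · have hz' : n * z * n⁻¹ ∈ zpowers x := (mem_normalizer_iff.mp hn' z).mp hz
      apply (S ⊔ zpowers x).mul_mem ((S ⊔ zpowers x).mul_mem _ _) _
      · exact (le_sup_left : S ≤ S ⊔ zpowers x) hs
      · exact (le_sup_right : zpowers x ≤ S ⊔ zpowers x) hz'
      · exact (le_sup_left : S ≤ S ⊔ zpowers x) (S.inv_mem hs)
  have hdvd : p ∣ Nat.card (S ⊔ zpowers x : Subgroup G) := by
    have := (S ⊔ zpowers x).orderOf_dvd_natCard
      ((le_sup_right : zpowers x ≤ S ⊔ zpowers x) (mem_zpowers x))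
    rwa [h.1] at this
  have hGH := h.commutator_le_of_dvd hp (S ⊔ zpowers x) hdvd
  rw [Subgroup.commutator_le]
  intro a ha b hb
  obtain ⟨s₁, hs₁, z₁, hz₁, rfl⟩ := mem_sup_of_normal_left.mp (hGH ha)
  obtain ⟨s₂, hs₂, z₂, hz₂, rfl⟩ := mem_sup_of_normal_left.mp (hGH hb)
  rw [← QuotientGroup.eq_one_iff (N := S)]
  have e1 : ((s₁ * z₁ : G) : G ⧸ S) = (z₁ : G ⧸ S) := by
    rw [QuotientGroup.mk_mul, (QuotientGroup.eq_one_iff s₁).mpr hs₁, one_mul]
  have e2 : ((s₂ * z₂ : G) : G ⧸ S) = (z₂ : G ⧸ S) := by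
    rw [QuotientGroup.mk_mul, (QuotientGroup.eq_one_iff s₂).mpr hs₂, one_mul]
  have e3 : ∀ u v : G, ((⁅u, v⁆ : G) : G ⧸ S) = ⁅(u : G ⧸ S), (v : G ⧸ S)⁆ := fun u v =>
    map_commutatorElement (QuotientGroup.mk' S) u v
  rw [e3, e1, e2, ← e3]
  have : ⁅z₁, z₂⁆ = 1 := by
    rw [commutatorElement_eq_one_iff_mul_comm]
    exact commute_of_mem_zpowers hz₁ hz₂
  rw [this]
  rfl

/-- If `N_G(⟨x⟩) ≠ ⟨x⟩` and some normal subgroup has order `[G : N_G(⟨x⟩)]`, then `G'' ≠ G'`. -/
theorem SC.derived_ne_of_normal {p : ℕ} (hp : p.Prime) [Finite G] {x : G} (h : SC p x)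
    (hne : (zpowers x).relIndex (normalizer (zpowers x : Set G)) ≠ 1)
    (S : Subgroup G) [hn : S.Normal] (hS : ¬ p ∣ Nat.card S)
    (hcard : Nat.card S = (normalizer (zpowers x : Set G)).index) :
    ⁅commutator G, commutator G⁆ ≠ commutator G := by
  have h1 := h.card_mul_index_sup hp S hS
  rw [← hcard] at h1
  have h2 : (S ⊔ normalizer (zpowers x : Set G)).index = 1 := by
    have hpos : 0 < Nat.card S := Nat.card_pos
    exact Nat.eq_of_mul_eq_mul_left hpos (by rw [h1, mul_one])
  have htop : S ⊔ normalizer (zpowers x : Set G) = ⊤ := index_eq_one.mp h2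
  have hle := h.derived_le_of_sup_eq_top hp S htop
  intro heq
  have hx : x ∈ S := by
    apply hle
    rw [heq]
    exact (h.index_commutator_le hp hne).1 (mem_zpowers x)
  have : x ∈ S ⊓ zpowers x := ⟨hx, mem_zpowers x⟩
  rw [h.inf_zpowers_eq_bot hp S hS, mem_bot] at this
  exact h.ne_one hp this

/-- If `N_G(⟨x⟩) ≠ ⟨x⟩` and `G'' ≠ G'`, then `G'' = O_{p'}(G)` has order `[G : N_G(⟨x⟩)]`
and `G'` has order `p [G : N_G(⟨x⟩)]`. -/
theorem SC.derived_facts {p : ℕ} (hp : p.Prime) [Finite G] {x : G} (h : SC p x)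
    (hne : (zpowers x).relIndex (normalizer (zpowers x : Set G)) ≠ 1)
    (hd : ⁅commutator G, commutator G⁆ ≠ commutator G) :
    ⁅commutator G, commutator G⁆ = Cfsg.pPrimeCore p G ∧
    Nat.card (Cfsg.pPrimeCore p G) = (normalizer (zpowers x : Set G)).index ∧
    Nat.card (commutator G) = p * (normalizer (zpowers x : Set G)).index := by
  haveI := Fact.mk hp
  haveI := h78_pPrimeCore_normal p G
  set D := ⁅commutator G, commutator G⁆ with hD
  set O := Cfsg.pPrimeCore p G with hO
  have hDG : D ≤ commutator G := commutator_le_left _ _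
  have hxG : x ∈ commutator G := (h.index_commutator_le hp hne).1 (mem_zpowers x)
  have hOG : O ≤ commutator G := h.pPrimeCore_le_commutator hp
  have hpD : ¬ p ∣ Nat.card D := by
    intro hdvd
    exact hd (le_antisymm hDG (h.commutator_le_of_dvd hp D hdvd))
  have hDO : D ≤ O :=
    h78_le_pPrimeCore D inferInstance ((Nat.Prime.coprime_iff_not_dvd hp).mpr hpD).symm
  have hpO : ¬ p ∣ Nat.card O := SC.not_dvd_card_pPrimeCore hp
  have hOD : O ≤ D := by
    intro o ho
    have hq := h.quotient hp D hpD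
    have hS' : ¬ p ∣ Nat.card (O.map (QuotientGroup.mk' D)) := fun hdvd =>
      hpO (hdvd.trans (card_map_dvd O _))
    have hc : (QuotientGroup.mk o : G ⧸ D) * QuotientGroup.mk x =
        QuotientGroup.mk x * QuotientGroup.mk o := by
      rw [← QuotientGroup.mk_mul, ← QuotientGroup.mk_mul, QuotientGroup.eq]
      have : (o * x)⁻¹ * (x * o) = ⁅x⁻¹, o⁻¹⁆ := by
        rw [commutatorElement_def]; group
      rw [this]
      exact commutator_mem_commutator ((commutator G).inv_mem hxG)
        ((commutator G).inv_mem (hOG ho))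
    have := hq.eq_one_of_mem_of_commute hp (O.map (QuotientGroup.mk' D)) hS'
      (mem_map_of_mem _ ho) hc
    exact (QuotientGroup.eq_one_iff o).mp this
  have hDeq : D = O := le_antisymm hDO hOD
  -- the quotient `G'/O`
  haveI hn' : (O.subgroupOf (commutator G)).Normal := normal_subgroupOf
  have hsimple := h.isSimpleGroup_commutator_quotient hp hne hn'
  set O' := O.subgroupOf (commutator G) with hO'
  have hcomm : ∀ a b : (commutator G) ⧸ O', a * b = b * a := by
    intro a b
    induction a using QuotientGroup.induction_on with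
    | H a =>
      induction b using QuotientGroup.induction_on with
      | H b =>
        rw [← QuotientGroup.mk_mul, ← QuotientGroup.mk_mul, QuotientGroup.eq, hO', mem_subgroupOf]
        have : (((a * b)⁻¹ * (b * a) : commutator G) : G) = ⁅(b : G)⁻¹, (a : G)⁻¹⁆ := by
          rw [commutatorElement_def]
          push_cast
          group
        rw [this, ← hDeq]
        exact commutator_mem_commutator ((commutator G).inv_mem b.2) ((commutator G).inv_mem a.2)
  set x' : commutator G := ⟨x, hxG⟩ with hx'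
  have hx'1 : (QuotientGroup.mk x' : (commutator G) ⧸ O') ≠ 1 := by
    rw [Ne, QuotientGroup.eq_one_iff, hO', mem_subgroupOf]
    exact h.not_mem_pPrimeCore hp
  have hZn : (zpowers (QuotientGroup.mk x' : (commutator G) ⧸ O')).Normal := by
    refine ⟨fun k hk g => ?_⟩
    rw [hcomm g k, mul_inv_cancel_right]
    exact hk
  have hZtop : zpowers (QuotientGroup.mk x' : (commutator G) ⧸ O') = ⊤ := by
    rcases hsimple.eq_bot_or_eq_top_of_normal _ hZn with h1 | h1
    · exfalso
      apply hx'1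
      have := mem_zpowers (QuotientGroup.mk x' : (commutator G) ⧸ O')
      rw [h1, mem_bot] at this
      exact this
    · exact h1
  -- `G' ≤ O ⊔ ⟨x⟩`
  have hGle : commutator G ≤ O ⊔ zpowers x := by
    intro g hg
    have h1 : (QuotientGroup.mk ⟨g, hg⟩ : (commutator G) ⧸ O') ∈
        zpowers (QuotientGroup.mk x' : (commutator G) ⧸ O') := hZtop ▸ mem_top _
    have h2 : zpowers (QuotientGroup.mk x' : (commutator G) ⧸ O') =
        (zpowers x').map (QuotientGroup.mk' O') := by
      rw [MonoidHom.map_zpowers]; rfl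
    rw [h2] at h1
    obtain ⟨z, hz, hzg⟩ := h1
    have hzg' : (QuotientGroup.mk z : (commutator G) ⧸ O') = QuotientGroup.mk ⟨g, hg⟩ := hzg
    rw [QuotientGroup.eq, hO', mem_subgroupOf] at hzg'
    have hzX : (z : G) ∈ zpowers x := by
      have h3 : (zpowers x').map (commutator G).subtype = zpowers x := by
        rw [MonoidHom.map_zpowers]; rfl
      rw [← h3]
      exact ⟨z, hz, rfl⟩
    have hg' : g = ((z : G)⁻¹ * g) * ((g⁻¹ * z) * g) := by group
    have hg'' : g = (z : G) * ((z : G)⁻¹ * g) := by group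
    rw [hg'', sup_comm]
    exact mul_mem_sup hzX hzg'
  -- Frattini
  have hfr := h.frattini hp (commutator G) hxG h.1
  have htop : O ⊔ normalizer (zpowers x : Set G) = ⊤ := by
    rw [eq_top_iff, ← hfr]
    apply sup_le le_sup_right
    exact hGle.trans (sup_le_sup_left le_normalizer _)
  have h1 := h.card_mul_index_sup hp O hpO
  rw [htop, index_top, mul_one] at h1
  refine ⟨hDeq, h1, ?_⟩
  -- order of `G'`
  have h3 : Nat.card O' = Nat.card O := Nat.card_congr (subgroupOfEquivOfLe hOG).toEquiv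
  have h4 : Nat.card O' * O'.index = Nat.card (commutator G) := card_mul_index _
  have h5 : O'.index = p := by
    have h6 : O'.index = Nat.card ((commutator G) ⧸ O') := rfl
    rw [h6, ← Subgroup.card_top, ← hZtop, Nat.card_zpowers]
    have h7 : orderOf (QuotientGroup.mk x' : (commutator G) ⧸ O') ∣ p := by
      apply orderOf_dvd_of_pow_eq_one
      rw [← QuotientGroup.mk_pow]
      have : x' ^ p = 1 := by
        apply Subtype.ext
        show x ^ p = 1
        rw [← h.1, pow_orderOf_eq_one]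
      rw [this]
      rfl
    rcases (Nat.dvd_prime hp).mp h7 with h8 | h8
    · exact absurd (orderOf_eq_one_iff.mp h8) hx'1
    · exact h8
  rw [← h4, h3, h5, h1, mul_comm]

end Cfsg.Agent.H78
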