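import Cfsg.Agent.H78.StM4

/-!
# A three point Steinberg module (helper78)

A finite group `G` of order not divisible by `4` acting on a set with a stable three point subset
`{x₁, x₂, x₃}`, an involution fixing `x₁` and exchanging `x₂, x₃`, and an element moving `x₁` to
`x₂`, has (modulo its centre) an irreducible character of degree `2` vanishing on the involutions
of its Sylow `2`-subgroups. (The module is the augmentation-zero part of the permutation module.)
-/

set_option autoImplicit false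

namespace Cfsg.Agent.H78.StM

open scoped Classical

universe u

theorem three_point {G : Type u} [Group G] [Finite G] {X : Type*} [MulAction G X]
    (x₁ x₂ x₃ : X) (h12 : x₁ ≠ x₂) (h13 : x₁ ≠ x₃) (h23 : x₂ ≠ x₃)
    (hT : ∀ g : G, ∀ x, (x = x₁ ∨ x = x₂ ∨ x = x₃) → (g • x = x₁ ∨ g • x = x₂ ∨ g • x = x₃))
    (t : G) (ht1 : t • x₁ = x₁) (ht2 : t • x₂ = x₃) (htt : t * t = 1)
    (g₀ : G) (hg₀ : g₀ • x₁ = x₂) (h4 : ¬ 4 ∣ Nat.card G) :
    ∃ χ : G ⧸ Subgroup.center G → ℂ, Cfsg.IsIrrCharacter (G ⧸ Subgroup.center G) χ ∧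
      ∀ P : Sylow 2 (G ⧸ Subgroup.center G), χ 1 = Nat.card P ∧
        ∀ x : G ⧸ Subgroup.center G, x ∈ P → x ≠ 1 → χ x = 0 := by
  have ht3 : t • x₃ = x₂ := by rw [← ht2, ← mul_smul, htt, one_smul]
  have ht_ne : t ≠ 1 := by
    rintro rfl
    rw [one_smul] at ht2
    exact h23 ht2
  have hUmem : ∀ u ∈ Subgroup.zpowers t, u = 1 ∨ u = t := by
    intro u hu
    obtain ⟨k, rfl⟩ := Subgroup.mem_zpowers_iff.mp hu
    have h2 : t ^ (2 : ℤ) = 1 := by
      rw [zpow_ofNat, pow_two, htt]
    rcases Int.emod_two_eq_zero_or_one k with h | h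
    · left
      rw [← Int.mul_ediv_add_emod k 2, h, add_zero, zpow_mul, h2, one_zpow]
    · right
      rw [← Int.mul_ediv_add_emod k 2, h, zpow_add, zpow_mul, h2, one_zpow, one_mul, zpow_one]
  obtain ⟨a, ha⟩ : ∃ a : Bool → X, a = fun b => if b then x₂ else x₁ := ⟨_, rfl⟩
  obtain ⟨sg, hsg⟩ : ∃ sg : Bool → ℂ, sg = fun b => if b then -1 else 1 := ⟨_, rfl⟩
  have hat : a true = x₂ := by rw [ha]; rfl
  have haf : a false = x₁ := by rw [ha]; rfl
  have hE : ∀ h : G, trep G X h (stE a sg) = dl (h • x₁) - dl (h • x₂) := by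
    intro h
    rw [trep_stE, Fintype.sum_bool, hat, haf, hsg]
    simp only [if_true, Bool.false_eq_true, if_false, neg_smul, one_smul]
    rw [neg_add_eq_sub]
  have hD12 : (dl x₁ - dl x₂ : X → ℂ) ∈ stV (Subgroup.zpowers t) a sg := by
    have h := stE_mem_stV (Subgroup.zpowers t) a sg
    have h1 := hE 1
    rw [map_one, one_smul, one_smul] at h1
    rw [← h1]
    exact h
  have hD13 : (dl x₁ - dl x₃ : X → ℂ) ∈ stV (Subgroup.zpowers t) a sg := by
    have h := trep_mem_stV (Subgroup.zpowers t) a sg t (Subgroup.mem_zpowers t)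
    rw [hE t, ht1, ht2] at h
    exact h
  have hcard : Nat.card (Subgroup.zpowers t) = 2 := by
    rw [Nat.card_zpowers]
    exact orderOf_eq_prime (by rw [pow_two, htt]) ht_ne
  refine steinberg_quot' 2 (Subgroup.zpowers t) a sg x₁ ?_ true ?_ ?_ ⟨g₀, by rw [hg₀, hat]⟩ ?_
    (IsPGroup.of_card (n := 1) (by rw [hcard, pow_one])) ?_ (Subgroup.center G) ?_
  · intro u hu
    rcases hUmem u hu with rfl | rfl
    · rw [one_smul]
    · exact ht1
  · rw [hsg]
    simp
  · intro v hv w h
    rw [hat] at h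
    rcases hUmem v hv with rfl | rfl
    · rw [one_smul] at h
      refine ⟨rfl, ?_⟩
      cases w with
      | true => rfl
      | false => rw [haf] at h; exact absurd h.symm h12
    · rw [ht2] at h
      cases w with
      | true => rw [hat] at h; exact absurd h.symm h23
      | false => rw [haf] at h; exact absurd h.symm h13
  · intro g
    apply stable_of_gen
    intro u
    rw [hE]
    obtain ⟨h, hh⟩ : ∃ h : G, h = g * (u : G) := ⟨_, rfl⟩
    rw [← hh]
    have hne : h • x₁ ≠ h • x₂ := fun e => h12 (MulAction.injective h e)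
    rcases hT h x₁ (Or.inl rfl) with e1 | e1 | e1 <;>
      rcases hT h x₂ (Or.inr (Or.inl rfl)) with e2 | e2 | e2
    · rw [e1, e2] at hne; exact absurd rfl hne
    · rw [e1, e2]; exact hD12
    · rw [e1, e2]; exact hD13
    · rw [e1, e2]
      have : (dl x₂ - dl x₁ : X → ℂ) = - (dl x₁ - dl x₂) := by rw [neg_sub]
      rw [this]
      exact Submodule.neg_mem _ hD12
    · rw [e1, e2] at hne; exact absurd rfl hne
    · rw [e1, e2]
      have : (dl x₂ - dl x₃ : X → ℂ) = (dl x₁ - dl x₃) - (dl x₁ - dl x₂) := by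
        rw [sub_sub_sub_cancel_left]
      rw [this]
      exact Submodule.sub_mem _ hD13 hD12
    · rw [e1, e2]
      have : (dl x₃ - dl x₁ : X → ℂ) = - (dl x₁ - dl x₃) := by rw [neg_sub]
      rw [this]
      exact Submodule.neg_mem _ hD13
    · rw [e1, e2]
      have : (dl x₃ - dl x₂ : X → ℂ) = (dl x₁ - dl x₂) - (dl x₁ - dl x₃) := by
        rw [sub_sub_sub_cancel_left]
      rw [this]
      exact Submodule.sub_mem _ hD12 hD13
    · rw [e1, e2] at hne; exact absurd rfl hne
  · intro hdvd
    apply h4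
    have h := Subgroup.card_mul_index (Subgroup.zpowers t)
    rw [hcard] at h
    obtain ⟨k, hk⟩ := hdvd
    exact ⟨k, by rw [← h, hk]; ring⟩
  · intro z hz
    have hzc : ∀ g : G, g * z = z * g := fun g => Subgroup.mem_center_iff.mp hz g
    refine ⟨fun u _ => (hzc u).symm, ?_⟩
    have hz1 : z • x₁ = x₁ := by
      have hfix : t • (z • x₁) = z • x₁ := by
        rw [← mul_smul, hzc t, mul_smul, ht1]
      rcases hT z x₁ (Or.inl rfl) with e | e | e
      · exact e
      · rw [e, ht2] at hfix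
        exact absurd hfix.symm h23
      · rw [e, ht3] at hfix
        exact absurd hfix h23
    intro w
    cases w with
    | true => rw [hat, ← hg₀, ← mul_smul, ← hzc g₀, mul_smul, hz1]
    | false => rw [haf]; exact hz1

end Cfsg.Agent.H78.StM
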