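import Mathlib
import Cfsg.Agent.H78.SvDefs
import Cfsg.Agent.H11.SvHESS
import Cfsg.Agent.H56.SvLABEL
import Cfsg.Agent.H32.SvTRANS
import Cfsg.Agent.H32.SvFIX
import Cfsg.Agent.H56.SvCHAIN
import Cfsg.Agent.H62.SvHALL
import Cfsg.Agent.H62.SvWEIS
import Cfsg.Agent.H80.SvSS
import Cfsg.Agent.H35.SvCP1
import Cfsg.Agent.H80.SvCP2
import Cfsg.Agent.H70.SvHomAdd
import Cfsg.Agent.H70.SvHomNe
import Cfsg.Agent.H65.SvHOMEQ
import Cfsg.Agent.H65.SvGRAPH
import Cfsg.Agent.H35.SvPHI

/-!
# Values of the Steinberg character of `GL_n(q)` at `p'`-elements (S2425)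

Assembly of the team pieces: the Moebius function of the lattice of stable subspaces of a
semisimple element, by induction on the dimension with Weisner's theorem and the count of stable
complements of a simple submodule.
-/

set_option autoImplicit false
set_option linter.unusedSectionVars false

namespace Cfsg.Agent.H78.Sv

open scoped MatrixGroups

section main

variable {F : Type*} [Field F] [Finite F] {n : ℕ} (T : Module.End F (Fin n → F))

noncomputable instance fintypeInvt : Fintype ↥(Module.End.invtSubmodule T) := Fintype.ofFinite _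

theorem cp_monic (W : ↥(Module.End.invtSubmodule T)) : (cp T W).Monic :=
  LinearMap.charpoly_monic _

theorem natDegree_cp (W : ↥(Module.End.invtSubmodule T)) :
    (cp T W).natDegree = Module.finrank F ↥W.1 :=
  LinearMap.charpoly_natDegree _

theorem finrank_sup_of_inf (U₁ U₂ : ↥(Module.End.invtSubmodule T)) (h : U₁ ⊓ U₂ = ⊥) :
    Module.finrank F ↥(U₁ ⊔ U₂).1 = Module.finrank F ↥U₁.1 + Module.finrank F ↥U₂.1 := by
  rw [← natDegree_cp, ← natDegree_cp, ← natDegree_cp, Cfsg.Agent.H35.Sv.cp_sup T U₁ U₂ h,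
    Polynomial.natDegree_mul (cp_monic T U₁).ne_zero (cp_monic T U₂).ne_zero]

theorem finrank_pos_of_atom (A : ↥(Module.End.invtSubmodule T)) (hA : IsAtom A) :
    0 < Module.finrank F ↥A.1 := by
  rw [← natDegree_cp]
  exact Polynomial.natDegree_pos_iff_degree_pos.mpr
    (Polynomial.degree_pos_of_irreducible (Cfsg.Agent.H80.Sv.cp_irreducible T A hA))

variable [DecidableEq F]

theorem hom_count (hss : RelCompl ↥(Module.End.invtSubmodule T))
    (A : ↥(Module.End.invtSubmodule T)) (hA : IsAtom A) (U : ↥(Module.End.invtSubmodule T)) :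
    Nat.card (HomT T U A) = Nat.card F ^ ((cp T A).natDegree *
      (UniqueFactorizationMonoid.normalizedFactors (cp T U)).count (cp T A)) := by
  induction' h : Module.finrank F ↥U.1 using Nat.strong_induction_on with k ih generalizing U
  by_cases hU : U = ⊥
  · subst hU
    rw [Cfsg.Agent.H70.Sv.card_homT_bot, Cfsg.Agent.H35.Sv.cp_bot]
    simp
  · obtain ⟨B, hB, hBU⟩ := (eq_bot_or_exists_atom_le U).resolve_left hU
    obtain ⟨U', h1, h2⟩ := hss U B hBU
    have hcp : cp T U = cp T U' * cp T B := by rw [← h1, Cfsg.Agent.H35.Sv.cp_sup T U' B h2]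
    have hdim : Module.finrank F ↥U'.1 < k := by
      have := finrank_sup_of_inf T U' B h2
      rw [h1, h] at this
      have := finrank_pos_of_atom T B hB
      omega
    have ihU' := ih _ hdim U' rfl
    have hphi := Cfsg.Agent.H35.Sv.phi_mul (Nat.card F) (cp T U') (cp T B) (cp_monic T U') (cp_monic T B)
      (Cfsg.Agent.H80.Sv.cp_irreducible T B hB)
    have e1 : Nat.card (HomT T U A) = Nat.card (HomT T U' A) * Nat.card (HomT T B A) := by
      rw [← h1]; exact Cfsg.Agent.H70.Sv.card_homT_sup T U' B A h2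
    rw [e1, ihU', hcp]
    by_cases hAB : cp T B = cp T A
    · rw [Cfsg.Agent.H65.Sv.card_homT_of_eq T A B hA hB hAB, ← hAB, hphi.1, ← pow_add, Nat.mul_succ]
    · rw [Cfsg.Agent.H70.Sv.card_homT_of_ne T A B hA hB hAB, hphi.2.1 (cp T A) (Ne.symm hAB), mul_one]

theorem moeb_eq (hss : RelCompl ↥(Module.End.invtSubmodule T))
    (W : ↥(Module.End.invtSubmodule T)) :
    (-1 : ℤ) ^ (Module.finrank F ↥W.1) * moeb W = phi (Nat.card F) (cp T W) := by
  classical
  induction' h : Module.finrank F ↥W.1 using Nat.strong_induction_on with k ih generalizing W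
  by_cases hW : W = ⊥
  · subst hW
    have h0 : k = 0 := by rw [← h]; exact finrank_bot F (Fin n → F)
    rw [Cfsg.Agent.H35.Sv.cp_bot, h0]
    simp [moeb, phi]
  · obtain ⟨A, hA, hAW⟩ := (eq_bot_or_exists_atom_le W).resolve_left hW
    obtain ⟨w₀, h1, h2⟩ := hss W A hAW
    set f := cp T A with hf
    set d := f.natDegree with hd
    have hfirr : Irreducible f := Cfsg.Agent.H80.Sv.cp_irreducible T A hA
    have hfmon : f.Monic := cp_monic T A
    have hdpos : 0 < d := by rw [hd, hf, natDegree_cp]; exact finrank_pos_of_atom T A hA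
    -- facts about each complement
    have key : ∀ w : ↥(Module.End.invtSubmodule T), w ⊔ A = W → w ≠ W →
        cp T W = cp T w * f ∧ Module.finrank F ↥w.1 + d = k := by
      intro w hw1 hw2
      have hinf : w ⊓ A = ⊥ := by
        rcases hA.le_iff.mp (inf_le_right : w ⊓ A ≤ A) with h' | h'
        · exact h'
        · exfalso
          apply hw2
          rw [← hw1]
          exact (sup_eq_left.mpr (inf_eq_right.mp h')).symm
      refine ⟨by rw [← hw1, Cfsg.Agent.H35.Sv.cp_sup T w A hinf], ?_⟩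
      have := finrank_sup_of_inf T w A hinf
      rw [hw1, h] at this
      rw [hd, hf, natDegree_cp]
      omega
    have hw₀ne : w₀ ≠ W := by
      intro h'
      have : A ≤ w₀ := by rw [h']; exact hAW
      have : A ≤ w₀ ⊓ A := le_inf this le_rfl
      rw [h2] at this
      exact hA.1 (le_bot_iff.mp this)
    obtain ⟨hcpW, hdimw₀⟩ := key w₀ h1 hw₀ne
    set c := (UniqueFactorizationMonoid.normalizedFactors (cp T w₀)).count f with hc
    have hphi := Cfsg.Agent.H35.Sv.phi_mul (Nat.card F) (cp T w₀) f (cp_monic T w₀) hfmon hfirr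
    -- the value of phi on every complement
    have hval : ∀ w : ↥(Module.End.invtSubmodule T), w ⊔ A = W → w ≠ W →
        moeb w = (-1 : ℤ) ^ (Module.finrank F ↥w.1) * phi (Nat.card F) (cp T w₀) := by
      intro w hw1 hw2
      obtain ⟨e1, e2⟩ := key w hw1 hw2
      have hcpw : cp T w = cp T w₀ := by
        have : cp T w * f = cp T w₀ * f := by rw [← e1, ← hcpW]
        exact mul_right_cancel₀ hfmon.ne_zero this
      have := ih (Module.finrank F ↥w.1) (by omega) w rfl
      rw [hcpw] at this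
      rw [← this, ← mul_assoc, ← pow_add, ← two_mul, pow_mul]
      simp
    -- Weisner
    have hweis := Cfsg.Agent.H62.Sv.weisner (moeb : ↥(Module.End.invtSubmodule T) → ℤ) Cfsg.Agent.H62.Sv.isMoeb_moeb A W hA.1 hAW
    unfold joinSum at hweis
    have hsplit : ∑ w : ↥(Module.End.invtSubmodule T), (if w ⊔ A = W then moeb w else 0) =
        moeb W + (Nat.card {w : ↥(Module.End.invtSubmodule T) // w ⊔ A = W ∧ w ≠ W} : ℤ) *
          ((-1 : ℤ) ^ (k - d) * phi (Nat.card F) (cp T w₀)) := by
      rw [← Finset.sum_filter, ← Finset.add_sum_erase _ _ (show W ∈ Finset.univ.filter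
        (fun w : ↥(Module.End.invtSubmodule T) => w ⊔ A = W) by simp [hAW])]
      congr 1
      rw [Finset.sum_congr rfl (g := fun _ => (-1 : ℤ) ^ (k - d) * phi (Nat.card F) (cp T w₀))]
      · rw [Finset.sum_const, nsmul_eq_mul]
        congr 2
        rw [Nat.card_eq_fintype_card, Fintype.card_subtype]
        congr 1
        ext w
        simp [and_comm]
      · intro w hw
        rw [Finset.mem_erase, Finset.mem_filter] at hw
        rw [hval w hw.2.2 hw.1]
        have := (key w hw.2.2 hw.1).2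
        congr 2
        omega
    have hweis2 : moeb W + (Nat.card {w : ↥(Module.End.invtSubmodule T) // w ⊔ A = W ∧ w ≠ W} : ℤ) *
          ((-1 : ℤ) ^ (k - d) * phi (Nat.card F) (cp T w₀)) = 0 := by
      rw [← hsplit]
      convert hweis
    clear hweis
    have hweis := hweis2
    rw [Cfsg.Agent.H65.Sv.card_compl T W A w₀ hA h1 h2, hom_count T hss A hA w₀] at hweis
    have hmW : moeb W = - ((Nat.card F : ℤ) ^ (d * c) * ((-1 : ℤ) ^ (k - d) *
        phi (Nat.card F) (cp T w₀))) := by
      have := hweis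
      push_cast at this
      linarith
    rw [hcpW, hphi.2.2, hmW]
    have hk : k = (k - d) + d := by omega
    have hd1 : d = (d - 1) + 1 := by omega
    rw [show (-1 : ℤ) ^ k = (-1) ^ (k - d) * (-1) ^ d by rw [← pow_add, ← hk]]
    rw [show (-1 : ℤ) ^ d = (-1) ^ (d - 1) * (-1) by rw [← pow_succ, ← hd1]]
    have hsq : ((-1 : ℤ) ^ (k - d)) * ((-1 : ℤ) ^ (k - d)) = 1 := by
      rw [← pow_add, ← two_mul, pow_mul]; simp
    linear_combination ((-1 : ℤ) ^ (d - 1) * (Nat.card F : ℤ) ^ (d * c) *
      phi (Nat.card F) (cp T w₀)) * hsq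

end main

theorem steinberg_value {F : Type*} [Field F] [Fintype F] [DecidableEq F] {q : ℕ}
    (hq : Fintype.card F = q) (p : ℕ) [Fact p.Prime] [CharP F p]
    {n : ℕ} (x : GL (Fin n) F) (hx : (orderOf x).Coprime p) :
    Cfsg.unipotentCharacterGL n F (fun _ => 1) x =
      ∏ f ∈ (UniqueFactorizationMonoid.normalizedFactors (x : Matrix (Fin n) (Fin n) F).charpoly).toFinset,
        (-1 : ℂ) ^ ((f.natDegree - 1) * (UniqueFactorizationMonoid.normalizedFactors (x : Matrix (Fin n) (Fin n) F).charpoly).count f) *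
          (q : ℂ) ^ (f.natDegree * (UniqueFactorizationMonoid.normalizedFactors (x : Matrix (Fin n) (Fin n) F).charpoly).count f *
            ((UniqueFactorizationMonoid.normalizedFactors (x : Matrix (Fin n) (Fin n) F).charpoly).count f - 1) / 2) := by
  set T : Module.End F (Fin n → F) := Matrix.toLin' (x : Matrix (Fin n) (Fin n) F) with hT
  have hss : RelCompl ↥(Module.End.invtSubmodule T) := Cfsg.Agent.H80.Sv.relCompl_of_coprime p x hx
  have h1 : Cfsg.unipotentCharacterGL n F (fun _ => 1) x = ∑ S ∈ ends n, (-1 : ℂ) ^ (n - S.card) *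
      Cfsg.fixedPointCharacter (Cfsg.parabolicGL n F (blk S)) x := by
    unfold Cfsg.unipotentCharacterGL
    exact Cfsg.Agent.H11.Sv.hess (fun μ => Cfsg.fixedPointCharacter (Cfsg.parabolicGL n F μ) x)
  have h2 : ∀ S ∈ ends n, Cfsg.fixedPointCharacter (Cfsg.parabolicGL n F (blk S)) x =
      (Nat.card (Flags T S) : ℂ) := by
    intro S hS
    refine Cfsg.Agent.H32.Sv.fix_count S _ ?_ (Cfsg.Agent.H32.Sv.exists_adapted S) x
    intro g
    show (g : Matrix (Fin n) (Fin n) F).BlockTriangular (Cfsg.compLabel (blk S)) ↔ _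
    constructor
    · intro h s hs i j hjs hsi
      exact h ((Cfsg.Agent.H56.Sv.compLabel_blk_lt_iff S hS i j).2 ⟨s, hs, hjs, hsi⟩)
    · intro h i j hij
      obtain ⟨s, hs, hjs, hsi⟩ := (Cfsg.Agent.H56.Sv.compLabel_blk_lt_iff S hS i j).1 hij
      exact h s hs i j hjs hsi
  have h3 := Cfsg.Agent.H56.Sv.chain_count T
  have h4 := moeb_eq T hss ⊤
  have hn : Module.finrank F ↥(⊤ : ↥(Module.End.invtSubmodule T)).1 = n := by
    show Module.finrank F ↥(⊤ : Submodule F (Fin n → F)) = n
    rw [finrank_top, Module.finrank_fin_fun]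
  rw [hn, Cfsg.Agent.H35.Sv.cp_top, hT, Matrix.charpoly_toLin'] at h4
  rw [h1, Finset.sum_congr rfl (fun S hS => by rw [h2 S hS])]
  have h5 : (∑ S ∈ ends n, (-1 : ℂ) ^ (n - S.card) * (Nat.card (Flags T S) : ℂ)) =
      ((phi (Nat.card F) (x : Matrix (Fin n) (Fin n) F).charpoly : ℤ) : ℂ) := by
    rw [← h4, ← h3]
    push_cast
    rfl
  rw [h5, phi, Nat.card_eq_fintype_card, hq]
  push_cast
  rfl

end Cfsg.Agent.H78.Sv
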