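import Mathlib

/-!
# Cyclic TI Sylow subgroups in characteristic `p`: tools (helper78)

* `sum_free`: the sum of an equivariant function over a stable set of free points of a finite
  group action is a relative trace `∑ h, t h w`.
* `geom_sum_eq`: `∑_{i < p^n} X^i = (X - 1)^(p^n - 1)` in characteristic `p`.
* `pow_sub_one_pow`: `(X^a - 1)^(p-1) = (X-1)^(p-1) + R (X-1)^p` if `p ∤ a`.
* `conj_sum_apply_eq_zero`: the relative trace `∑_{i<p^n} A^i ψ A^{-i}` kills `ker (A⁻¹ - 1)^k`
  as soon as `(A - 1)^d = 0` and `k + d ≤ p^n`.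
-/

set_option autoImplicit false

namespace Cfsg.Agent.H78.TIC

open Finset

/-- Sum of an equivariant function over a stable set of free points is a relative trace. -/
theorem sum_free {P Ω M : Type*} [Group P] [Fintype P] [DecidableEq Ω] [MulAction P Ω]
    [AddCommMonoid M] (t : P → M →+ M) (f : Ω → M)
    (hf : ∀ (h : P) (c : Ω), f (h • c) = t h (f c)) :
    ∀ S : Finset Ω, (∀ (h : P), ∀ c ∈ S, h • c ∈ S) → (∀ c ∈ S, ∀ h : P, h • c = c → h = 1) →
      ∃ w : M, ∑ c ∈ S, f c = ∑ h : P, t h w := by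
  intro S
  induction S using Finset.strongInduction with
  | H S ih =>
    intro hstab hfree
    rcases S.eq_empty_or_nonempty with rfl | ⟨c₀, hc₀⟩
    · exact ⟨0, by simp⟩
    · set O : Finset Ω := Finset.univ.image (fun h : P => h • c₀) with hO
      have hOS : O ⊆ S := by
        intro c hc
        rw [hO, Finset.mem_image] at hc
        obtain ⟨h, -, rfl⟩ := hc
        exact hstab h c₀ hc₀
      have hinj : Function.Injective (fun h : P => h • c₀) := by
        intro h h' hh
        have h1 : (h'⁻¹ * h) • c₀ = c₀ := by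
          have hh' : h • c₀ = h' • c₀ := hh
          rw [mul_smul, hh', inv_smul_smul]
        have h2 := hfree c₀ hc₀ _ h1
        exact (inv_mul_eq_one.mp h2).symm
      have hsumO : ∑ c ∈ O, f c = ∑ h : P, t h (f c₀) := by
        rw [hO, Finset.sum_image (fun a _ b _ hab => hinj hab)]
        exact Finset.sum_congr rfl (fun h _ => hf h c₀)
      have hlt : S \ O ⊂ S := by
        refine Finset.sdiff_ssubset hOS ⟨c₀, ?_⟩
        rw [hO, Finset.mem_image]
        exact ⟨1, Finset.mem_univ _, one_smul _ _⟩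
      obtain ⟨w', hw'⟩ := ih (S \ O) hlt (by
        intro h c hc
        rw [Finset.mem_sdiff] at hc ⊢
        refine ⟨hstab h c hc.1, fun hh => hc.2 ?_⟩
        rw [hO, Finset.mem_image] at hh ⊢
        obtain ⟨h', -, hh'⟩ := hh
        exact ⟨h⁻¹ * h', Finset.mem_univ _, by rw [mul_smul, hh', inv_smul_smul]⟩) (by
        intro c hc
        exact hfree c (Finset.mem_sdiff.mp hc).1)
      refine ⟨w' + f c₀, ?_⟩
      rw [← Finset.sum_sdiff hOS, hw', hsumO, ← Finset.sum_add_distrib]
      exact Finset.sum_congr rfl (fun h _ => (map_add (t h) _ _).symm)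

/-- `∑_{i < p^n} X^i = (X - 1)^(p^n - 1)` in characteristic `p`. -/
theorem geom_sum_eq (F : Type*) [Field F] (p : ℕ) [Fact p.Prime] [CharP F p] (n : ℕ) :
    ∑ i ∈ range (p ^ n), (Polynomial.X : Polynomial F) ^ i
      = (Polynomial.X - 1) ^ (p ^ n - 1) := by
  have h1 : (∑ i ∈ range (p ^ n), (Polynomial.X : Polynomial F) ^ i) * (Polynomial.X - 1)
      = Polynomial.X ^ (p ^ n) - 1 := geom_sum_mul _ _
  have h2 : ((Polynomial.X : Polynomial F) - 1) ^ (p ^ n) = Polynomial.X ^ (p ^ n) - 1 := by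
    rw [sub_pow_char_pow, one_pow]
  have hne : (Polynomial.X : Polynomial F) - 1 ≠ 0 := by
    have := Polynomial.X_sub_C_ne_zero (1 : F)
    simpa using this
  have hpos : 0 < p ^ n := pos_of_ne_zero (pow_ne_zero _ (Fact.out : p.Prime).ne_zero)
  have h3 : ((Polynomial.X : Polynomial F) - 1) ^ (p ^ n)
      = (Polynomial.X - 1) ^ (p ^ n - 1) * (Polynomial.X - 1) := by
    rw [← pow_succ, Nat.sub_add_cancel hpos]
  exact mul_right_cancel₀ hne (h1.trans (h2.symm.trans h3))

/-- `(X - 1)^(p^n) = X^(p^n) - 1` in characteristic `p`. -/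
theorem sub_one_pow_eq (F : Type*) [Field F] (p : ℕ) [Fact p.Prime] [CharP F p] (n : ℕ) :
    ((Polynomial.X : Polynomial F) - 1) ^ (p ^ n) = Polynomial.X ^ (p ^ n) - 1 := by
  rw [sub_pow_char_pow, one_pow]

/-- `(X^a - 1)^(p-1) = (X-1)^(p-1) + R (X-1)^p` if `p ∤ a`. -/
theorem pow_sub_one_pow (F : Type*) [Field F] (p : ℕ) [Fact p.Prime] [CharP F p] (a : ℕ)
    (ha : (a : F) ≠ 0) :
    ∃ R : Polynomial F, ((Polynomial.X : Polynomial F) ^ a - 1) ^ (p - 1)
      = (Polynomial.X - 1) ^ (p - 1) + R * (Polynomial.X - 1) ^ p := by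
  have hp := (Fact.out : p.Prime)
  set S : Polynomial F := ∑ i ∈ range a, (Polynomial.X : Polynomial F) ^ i with hS
  have h1 : S * (Polynomial.X - 1) = Polynomial.X ^ a - 1 := geom_sum_mul _ _
  have hfer : (a : F) ^ (p - 1) = 1 := by
    have h2 : (a : F) ^ p = a := by
      have h := congrArg (ZMod.castHom (dvd_refl p) F) (ZMod.pow_card (a : ZMod p))
      rw [map_pow, map_natCast] at h
      exact h
    have h3 : (a : F) * (a : F) ^ (p - 1) = (a : F) * 1 := by
      rw [← pow_succ', Nat.sub_add_cancel hp.one_le, h2, mul_one]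
    exact mul_left_cancel₀ ha h3
  have hroot : (Polynomial.X - Polynomial.C (1 : F)) ∣ S ^ (p - 1) - 1 := by
    rw [Polynomial.dvd_iff_isRoot, Polynomial.IsRoot.def]
    simp [hS, Polynomial.eval_finsetSum, hfer]
  obtain ⟨R, hR⟩ := hroot
  refine ⟨R, ?_⟩
  have h4 : S ^ (p - 1) = 1 + (Polynomial.X - 1) * R := by
    have : S ^ (p - 1) - 1 = (Polynomial.X - 1) * R := by simpa using hR
    rw [← this]; ring
  have h5 : ((Polynomial.X : Polynomial F) - 1) ^ p
      = (Polynomial.X - 1) ^ (p - 1) * (Polynomial.X - 1) := by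
    rw [← pow_succ, Nat.sub_add_cancel hp.one_le]
  rw [← h1, mul_pow, h4, h5]
  ring

/-- Powers of `φ ↦ X φ Y`. -/
theorem mulLR_pow_apply {F V : Type*} [Field F] [AddCommGroup V] [Module F V]
    (X Y φ : Module.End F V) (i : ℕ) :
    ((LinearMap.mulLeft F X * LinearMap.mulRight F Y) ^ i) φ = X ^ i * φ * Y ^ i := by
  induction i generalizing φ with
  | zero => simp
  | succ i ih =>
    rw [pow_succ, Module.End.mul_apply, ih]
    simp only [Module.End.mul_apply, LinearMap.mulLeft_apply, LinearMap.mulRight_apply]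
    rw [pow_succ, pow_succ']
    simp only [mul_assoc]

/-- The relative trace `∑_{i<p^n} A^i ψ B^i` (`B = A⁻¹`) kills `ker (B - 1)^k` as soon as
`(A - 1)^d = 0` and `k + d ≤ p^n`. -/
theorem conj_sum_apply_eq_zero {F V : Type*} [Field F] [AddCommGroup V] [Module F V] (p : ℕ)
    [Fact p.Prime] [CharP F p] (n : ℕ) (A B ψ : Module.End F V) (d k : ℕ)
    (hd : (A - 1) ^ d = 0) (hkd : k + d ≤ p ^ n) (v : V) (hv : ((B - 1) ^ k) v = 0) :
    (∑ i ∈ range (p ^ n), A ^ i * ψ * B ^ i) v = 0 := by
  classical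
  set q := p ^ n with hq
  have hqpos : 0 < q := pos_of_ne_zero (pow_ne_zero _ (Fact.out : p.Prime).ne_zero)
  set a : Module.End F (Module.End F V) := LinearMap.mulLeft F A with ha
  set b : Module.End F (Module.End F V) := LinearMap.mulRight F B with hb
  set α : Module.End F (Module.End F V) := LinearMap.mulLeft F (A - 1) with hα
  set β : Module.End F (Module.End F V) := LinearMap.mulRight F (B - 1) with hβ
  have h1 : ∑ i ∈ range q, (a * b) ^ i = (a * b - 1) ^ (q - 1) := by
    have := congrArg (Polynomial.aeval (a * b)) (geom_sum_eq F p n)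
    simpa using this
  have h2 : a * b - 1 = α * b + β := by
    apply LinearMap.ext; intro φ
    simp only [ha, hb, hα, hβ, LinearMap.sub_apply, Module.End.mul_apply, LinearMap.mulLeft_apply,
      LinearMap.mulRight_apply, Module.End.one_apply, LinearMap.add_apply]
    noncomm_ring
  have h3 : Commute (α * b) β := by
    apply LinearMap.ext; intro φ
    simp only [hb, hα, hβ, Module.End.mul_apply, LinearMap.mulLeft_apply,
      LinearMap.mulRight_apply]
    noncomm_ring
  have h4 : (a * b - 1) ^ (q - 1) = ∑ j ∈ range q, (α * b) ^ j * β ^ (q - 1 - j)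
      * (((q - 1).choose j : ℕ) : Module.End F (Module.End F V)) := by
    rw [h2, h3.add_pow, Nat.sub_add_cancel hqpos]
  have h5 : ∑ i ∈ range q, A ^ i * ψ * B ^ i = (∑ i ∈ range q, (a * b) ^ i) ψ := by
    rw [LinearMap.sum_apply]
    exact Finset.sum_congr rfl (fun i _ => (mulLR_pow_apply A B ψ i).symm)
  have hβpow : ∀ (m : ℕ) (φ : Module.End F V), (β ^ m) φ = φ * (B - 1) ^ m := by
    intro m φ
    have h6 : β = LinearMap.mulLeft F (1 : Module.End F V) * LinearMap.mulRight F (B - 1) := by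
      apply LinearMap.ext; intro φ'
      simp [hβ]
    rw [h6, mulLR_pow_apply, one_pow, one_mul]
  have hcomm : Commute (B - 1) B := (Commute.refl B).sub_left (Commute.one_left B)
  rw [h5, h1, h4, LinearMap.sum_apply, LinearMap.sum_apply]
  refine Finset.sum_eq_zero (fun j hj => ?_)
  rw [Finset.mem_range] at hj
  rw [Module.End.mul_apply, Module.End.mul_apply, Module.End.natCast_apply, map_nsmul, map_nsmul,
    hβpow, hα, hb, mulLR_pow_apply, LinearMap.smul_apply]
  by_cases hjd : d ≤ j
  · rw [pow_eq_zero_of_le hjd hd]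
    simp
  · have hm : k ≤ q - 1 - j := by omega
    have h7 : ((B - 1) ^ (q - 1 - j)) ((B ^ j) v) = 0 := by
      have h8 : (B - 1) ^ (q - 1 - j) * B ^ j = B ^ j * (B - 1) ^ (q - 1 - j) :=
        (hcomm.pow_pow _ _).eq
      have h9 : (B - 1) ^ (q - 1 - j) = (B - 1) ^ (q - 1 - j - k) * (B - 1) ^ k := by
        rw [← pow_add, Nat.sub_add_cancel hm]
      rw [← Module.End.mul_apply, h8, Module.End.mul_apply, h9, Module.End.mul_apply, hv, map_zero,
        map_zero]
    simp only [Module.End.mul_apply, h7, map_zero, smul_zero]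

end Cfsg.Agent.H78.TIC
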