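import Cfsg.Agent.H78.TIC1

/-!
# Cyclic TI Sylow subgroups: faithful irreducible modules in characteristic `p` are large
(helper78)

`cyclic_ti_dim`: if a Sylow `p`-subgroup `P` of `G` is cyclic of order `p^n ≥ p^2` and TI, then
every faithful irreducible representation of `G` over a field of characteristic `p` has
dimension at least `p^n - (p - 1)`.

Proof.  Let `x` generate `P`, `ν = ρ x - 1`, and `T = ∑_{gP ∈ G/P} ρ(g) ν^(p-1) ρ(g)⁻¹`, a
`G`-endomorphism.  `P` acts on `G/P` with fixed points (their number is prime to `p`) and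
free orbits (TI).  A free orbit contributes a relative trace `∑_h ρ(h) ψ ρ(h)⁻¹`, which kills
`ker ν^p` if `dim V + p ≤ p^n`; a fixed point contributes an operator acting as `ν^(p-1)` on
`ker ν^p`.  Hence `T = m ν^(p-1)` on `ker ν^p` with `m ≠ 0` in `F`; `T` kills the `P`-fixed
vectors, so `T = 0` by Schur, so `ν^(p-1)` kills `ker ν^p`, so `ν^(p-1) = 0`, contradicting
faithfulness as `p - 1 < p^(n-1)`.
-/

set_option autoImplicit false
set_option linter.style.haveILetI false

namespace Cfsg.Agent.H78.TIC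

open Finset

/-- Conjugating a power. -/
theorem conj_pow_end {R : Type*} [Monoid R] (a b c : R) (hba : b * a = 1) (hab : a * b = 1)
    (n : ℕ) : (a * c * b) ^ n = a * c ^ n * b := by
  induction n with
  | zero => simp [hab]
  | succ n ih =>
    rw [pow_succ, ih, pow_succ]
    calc a * c ^ n * b * (a * c * b) = a * c ^ n * (b * a) * c * b := by simp only [mul_assoc]
      _ = a * (c ^ n * c) * b := by rw [hba]; simp only [mul_one, mul_assoc]

/-- `(A^m - 1)^(p-1)` acts as `(A-1)^(p-1)` on `ker (A-1)^p` when `p ∤ m`. -/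
theorem pow_sub_one_apply {F V : Type*} [Field F] [AddCommGroup V] [Module F V] (p : ℕ)
    [Fact p.Prime] [CharP F p] (A : Module.End F V) (m : ℕ) (hm : (m : F) ≠ 0) (v : V)
    (hv : ((A - 1) ^ p) v = 0) : ((A ^ m - 1) ^ (p - 1)) v = ((A - 1) ^ (p - 1)) v := by
  obtain ⟨R, hR⟩ := pow_sub_one_pow F p m hm
  have h1 := congrArg (Polynomial.aeval A) hR
  simp only [map_pow, map_sub, map_add, map_mul, Polynomial.aeval_X, map_one] at h1
  rw [h1, LinearMap.add_apply, Module.End.mul_apply, hv, map_zero, add_zero]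

theorem cyclic_ti_dim {G : Type*} [Group G] [Finite G] (p : ℕ) [Fact p.Prime] (P : Sylow p G)
    (hcyc : IsCyclic P) (n : ℕ) (hn : 2 ≤ n) (hPn : Nat.card P = p ^ n)
    (hTI : ∀ Q : Sylow p G, Q ≠ P → (P : Subgroup G) ⊓ (Q : Subgroup G) = ⊥)
    (F : Type*) [Field F] [CharP F p] (V : Type*) [AddCommGroup V] [Module F V]
    [FiniteDimensional F V] (ρ : Representation F G V) (hfaith : Function.Injective ρ)
    (hirr : ρ.IsIrreducible) : p ^ n - (p - 1) ≤ Module.finrank F V := by
  classical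
  have hp := (Fact.out : p.Prime)
  by_contra hcon
  rw [not_le] at hcon
  have hpq : p ≤ p ^ n := by
    calc p = p ^ 1 := (pow_one p).symm
      _ ≤ p ^ n := Nat.pow_le_pow_right hp.pos (by omega)
  have hdq : p + Module.finrank F V ≤ p ^ n := by have := hp.one_le; omega
  haveI : Fintype G := Fintype.ofFinite G
  set H : Subgroup G := (P : Subgroup G) with hH
  have hcyc' : IsCyclic ↥H := hcyc
  have hPn' : Nat.card ↥H = p ^ n := hPn
  haveI : Fintype (G ⧸ H) := Fintype.ofFinite _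
  haveI : Fintype ↥H := Fintype.ofFinite _
  obtain ⟨g, hg⟩ := hcyc'.exists_generator
  have hgord : orderOf g = p ^ n := by rw [orderOf_eq_card_of_forall_mem_zpowers hg, hPn']
  set x : G := (g : G) with hx
  have hxord : orderOf x = p ^ n := by rw [hx, Subgroup.orderOf_coe, hgord]
  have hxH : x ∈ H := g.2
  have hPpow : ∀ y : G, y ∈ H → ∃ a : ℕ, x ^ a = y := by
    intro y hy
    have h1 := hg ⟨y, hy⟩
    rw [← mem_powers_iff_mem_zpowers] at h1
    obtain ⟨a, ha⟩ := h1
    refine ⟨a, ?_⟩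
    have h2 := congrArg Subtype.val ha
    simpa using h2
  have hq1 : 1 < p ^ n := Nat.one_lt_pow (by omega) hp.one_lt
  have hx1 : x ≠ 1 := by
    intro h
    rw [h, orderOf_one] at hxord
    omega
  have hno : x ^ (p ^ (n - 1)) ≠ 1 := by
    intro h
    have h2 := orderOf_dvd_of_pow_eq_one h
    rw [hxord] at h2
    have h3 := (Nat.pow_dvd_pow_iff_le_right hp.one_lt).mp h2
    omega
  set A : Module.End F V := ρ x with hA
  set B : Module.End F V := ρ x⁻¹ with hB
  set ν : Module.End F V := A - 1 with hν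
  have hBA : B * A = 1 := by rw [hA, hB, ← map_mul, inv_mul_cancel, map_one]
  have hAB : A * B = 1 := by rw [hA, hB, ← map_mul, mul_inv_cancel, map_one]
  have hApow : ∀ m : ℕ, A ^ m = ρ (x ^ m) := fun m => (map_pow ρ x m).symm
  have hAq : A ^ (p ^ n) = 1 := by rw [hApow, ← hxord, pow_orderOf_eq_one, map_one]
  have hνq : ν ^ (p ^ n) = 0 := by
    have h1 := congrArg (Polynomial.aeval A) (sub_one_pow_eq F p n)
    simp only [map_pow, map_sub, Polynomial.aeval_X, map_one] at h1
    rw [hν, h1, hAq, sub_self]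
  have hνd : ν ^ (Module.finrank F V) = 0 := by
    have hnil : IsNilpotent ν := ⟨p ^ n, hνq⟩
    have h1 := LinearMap.aeval_self_charpoly ν
    rw [hnil.charpoly_eq_X_pow_finrank] at h1
    simpa using h1
  have hBν : B - 1 = -(B * ν) := by
    rw [hν, mul_sub, hBA, mul_one]
    abel
  have hcBν : Commute B ν := by
    have h1 : Commute B A := by rw [Commute, SemiconjBy, hBA, hAB]
    exact h1.sub_right (Commute.one_right B)
  have hBker : ∀ v : V, (ν ^ p) v = 0 → ((B - 1) ^ p) v = 0 := by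
    intro v hv
    rw [hBν, neg_pow, hcBν.mul_pow, Module.End.mul_apply, Module.End.mul_apply, hv, map_zero,
      map_zero]
  -- elements of `H` commute with `ν`
  have hHcomm : ∀ h : G, h ∈ H → Commute (ρ h) ν := by
    intro h hh
    obtain ⟨a, rfl⟩ := hPpow h hh
    rw [← hApow]
    exact ((Commute.refl A).pow_left a).sub_right (Commute.one_right _)
  set Z : Module.End F V := ν ^ (p - 1) with hZ
  have hwd : ∀ a b : G, (QuotientGroup.leftRel H) a b →
      ρ a * Z * ρ a⁻¹ = ρ b * Z * ρ b⁻¹ := by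
    intro a b hab
    rw [QuotientGroup.leftRel_apply] at hab
    obtain ⟨h, hh, rfl⟩ : ∃ h, h ∈ H ∧ b = a * h := ⟨a⁻¹ * b, hab, by group⟩
    have hc : ρ h * Z = Z * ρ h := ((hHcomm h hh).pow_right (p - 1)).eq
    have h1 : ρ h * ρ h⁻¹ = 1 := by rw [← map_mul, mul_inv_cancel, map_one]
    rw [mul_inv_rev, map_mul, map_mul]
    calc ρ a * Z * ρ a⁻¹ = ρ a * (Z * (ρ h * ρ h⁻¹)) * ρ a⁻¹ := by rw [h1, mul_one]
      _ = ρ a * ρ h * Z * (ρ h⁻¹ * ρ a⁻¹) := by
        rw [← mul_assoc Z, ← hc]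
        simp only [mul_assoc]
  let Fq : G ⧸ H → Module.End F V :=
    fun c => Quotient.liftOn' c (fun a => ρ a * Z * ρ a⁻¹) hwd
  have hFq : ∀ a : G, Fq (a : G ⧸ H) = ρ a * Z * ρ a⁻¹ := fun a => rfl
  have hFeq : ∀ (a : G) (c : G ⧸ H), Fq (a • c) = ρ a * Fq c * ρ a⁻¹ := by
    intro a c
    obtain ⟨b, rfl⟩ := QuotientGroup.mk_surjective c
    rw [show (a • (b : G ⧸ H)) = ((a * b : G) : G ⧸ H) from rfl, hFq, hFq, mul_inv_rev, map_mul,
      map_mul]
    simp only [mul_assoc]
  set T : Module.End F V := ∑ c : G ⧸ H, Fq c with hT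
  have hTconj : ∀ a : G, ρ a * T * ρ a⁻¹ = T := by
    intro a
    rw [hT, Finset.mul_sum, Finset.sum_mul]
    exact Fintype.sum_equiv (MulAction.toPerm a) _ _ (fun c => (hFeq a c).symm)
  have hTcomm : ∀ a : G, T * ρ a = ρ a * T := by
    intro a
    have h1 : ρ a⁻¹ * ρ a = 1 := by rw [← map_mul, inv_mul_cancel, map_one]
    calc T * ρ a = ρ a * T * ρ a⁻¹ * ρ a := by rw [hTconj a]
      _ = ρ a * T := by rw [mul_assoc, h1, mul_one]
  have hschur : (∃ v : V, v ≠ 0 ∧ T v = 0) → T = 0 := by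
    rintro ⟨v, hv0, hTv⟩
    let f : Representation.IntertwiningMap ρ ρ :=
      T.intertwiningMap_of_isIntertwiningMap ρ ρ (fun a w => by
        have h1 := congrArg (fun φ : Module.End F V => φ w) (hTcomm a)
        simpa using h1)
    haveI := hirr
    rcases Representation.IsIrreducible.injective_or_eq_zero f with hinj | h0
    · exfalso
      have h1 : f v = f 0 := by
        rw [map_zero]
        exact hTv
      exact hv0 (hinj h1)
    · have h1 := congrArg Representation.IntertwiningMap.toLinearMap h0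
      exact h1
  -- the group theory of fixed points
  have hD : ∀ (a : G) (h : G), h ∈ H → h ≠ 1 → h • (a : G ⧸ H) = (a : G ⧸ H) → a • P = P := by
    intro a h hh h1 hfix
    by_contra hne
    have h2 := hTI (a • P) hne
    have h3 : h ∈ (P : Subgroup G) ⊓ ((a • P : Sylow p G) : Subgroup G) := by
      refine Subgroup.mem_inf.mpr ⟨hh, ?_⟩
      have h4 : (h * a)⁻¹ * a ∈ H := QuotientGroup.eq.mp hfix
      have h5 : a⁻¹ * h * a ∈ H := by
        have h6 := H.inv_mem h4
        simpa [mul_assoc] using h6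
      rw [Sylow.coe_subgroup_smul]
      have h6 := Subgroup.smul_mem_pointwise_smul _ (MulAut.conj a) _ h5
      simpa [MulAut.smul_def, mul_assoc] using h6
    rw [h2, Subgroup.mem_bot] at h3
    exact h1 h3
  have hconj : ∀ a : G, a • P = P → ∀ y : G, y ∈ H → a * y * a⁻¹ ∈ H := by
    intro a ha y hy
    have h1 := Subgroup.smul_mem_pointwise_smul y (MulAut.conj a) H hy
    rw [hH, ← Sylow.coe_subgroup_smul, ha] at h1
    simpa [MulAut.smul_def] using h1
  have hallfix : ∀ a : G, a • P = P → ∀ h : G, h ∈ H → h • (a : G ⧸ H) = (a : G ⧸ H) := by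
    intro a ha h hh
    have ha' : a⁻¹ • P = P := by rw [inv_smul_eq_iff, ha]
    have h1 := hconj a⁻¹ ha' h⁻¹ (H.inv_mem hh)
    rw [show h • (a : G ⧸ H) = ((h * a : G) : G ⧸ H) from rfl, QuotientGroup.eq]
    simpa [mul_assoc] using h1
  have hfixed : ∀ c : G ⧸ H, (∀ h : ↥H, h • c = c) →
      ∃ m : ℕ, (m : F) ≠ 0 ∧ Fq c = (A ^ m - 1) ^ (p - 1) := by
    intro c hc
    obtain ⟨a, rfl⟩ := QuotientGroup.mk_surjective c
    have haP : a • P = P := hD a x hxH hx1 (hc g)
    obtain ⟨m, hm⟩ := hPpow (a * x * a⁻¹) (hconj a haP x hxH)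
    refine ⟨m, ?_, ?_⟩
    · rw [Ne, CharP.cast_eq_zero_iff F p]
      rintro ⟨m', rfl⟩
      have h1 : (x ^ (p * m')) ^ (p ^ (n - 1)) = 1 := by
        have h2 : p * m' * p ^ (n - 1) = p ^ n * m' := by
          have h3 : p ^ n = p ^ (n - 1) * p := by
            rw [← pow_succ, Nat.sub_add_cancel (by omega)]
          rw [h3]; ring
        rw [← pow_mul, h2, pow_mul, ← hxord, pow_orderOf_eq_one, one_pow]
      rw [hm, conj_pow] at h1
      apply hno
      have h2 : x ^ (p ^ (n - 1)) = a⁻¹ * (a * x ^ (p ^ (n - 1)) * a⁻¹) * a := by group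
      rw [h2, h1]; group
    · have h1 : ρ a⁻¹ * ρ a = 1 := by rw [← map_mul, inv_mul_cancel, map_one]
      have h2 : ρ a * ρ a⁻¹ = 1 := by rw [← map_mul, mul_inv_cancel, map_one]
      rw [hFq, hZ, ← conj_pow_end (ρ a) (ρ a⁻¹) ν h1 h2 (p - 1)]
      congr 1
      rw [hν, mul_sub, sub_mul, mul_one, h2, hApow, hm, hA, map_mul, map_mul]
  -- fixed points and free orbits
  set Ω₀ : Finset (G ⧸ H) := Finset.univ.filter (fun c => ∀ h : ↥H, h • c = c) with hΩ₀
  set S : Finset (G ⧸ H) := Finset.univ.filter (fun c => ¬ ∀ h : ↥H, h • c = c) with hS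
  have hsplit : T = ∑ c ∈ Ω₀, Fq c + ∑ c ∈ S, Fq c := by
    rw [hT, hΩ₀, hS, Finset.sum_filter_add_sum_filter_not]
  have hSstab : ∀ (h : ↥H), ∀ c ∈ S, h • c ∈ S := by
    intro h c hc
    rw [hS, Finset.mem_filter] at hc ⊢
    refine ⟨Finset.mem_univ _, fun hall => hc.2 (fun h' => ?_)⟩
    have h1 := hall (h * h' * h⁻¹)
    rw [mul_smul, mul_smul, inv_smul_smul] at h1
    exact smul_left_cancel h h1
  have hSfree : ∀ c ∈ S, ∀ h : ↥H, h • c = c → h = 1 := by
    intro c hc h hfix
    by_contra h1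
    rw [hS, Finset.mem_filter] at hc
    apply hc.2
    obtain ⟨a, rfl⟩ := QuotientGroup.mk_surjective c
    have haP : a • P = P := hD a (h : G) h.2 (fun h0 => h1 (Subtype.ext h0)) hfix
    intro h'
    exact hallfix a haP (h' : G) h'.2
  let tt : ↥H → Module.End F V →+ Module.End F V := fun h =>
    { toFun := fun φ => ρ (h : G) * φ * ρ (h : G)⁻¹
      map_zero' := by simp
      map_add' := by intro a b; simp [mul_add, add_mul] }
  obtain ⟨w, hw⟩ := sum_free tt Fq (fun h c => hFeq (h : G) c) S hSstab hSfree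
  have hreindex : ∑ h : ↥H, tt h w = ∑ i ∈ range (p ^ n), A ^ i * w * B ^ i := by
    have h1 : Finset.image (fun i => g ^ i) (range (orderOf g)) = Finset.univ :=
      IsCyclic.image_range_orderOf hg
    rw [← h1, Finset.sum_image, hgord]
    · refine Finset.sum_congr rfl (fun i _ => ?_)
      show ρ ((g ^ i : ↥H) : G) * w * ρ ((g ^ i : ↥H) : G)⁻¹ = A ^ i * w * B ^ i
      rw [hApow, hB, ← map_pow, inv_pow]
      rfl
    · intro i hi j hj hij
      exact pow_injOn_Iio_orderOf (by simpa using hi) (by simpa using hj) hij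
  have hkey : ∀ v : V, (ν ^ p) v = 0 → T v = (Ω₀.card : F) • (ν ^ (p - 1)) v := by
    intro v hv
    rw [hsplit, LinearMap.add_apply, hw, hreindex,
      conj_sum_apply_eq_zero p n A B w (Module.finrank F V) p hνd hdq v (hBker v hv), add_zero,
      LinearMap.sum_apply]
    rw [Finset.sum_congr rfl (g := fun _ => (ν ^ (p - 1)) v)]
    · rw [Finset.sum_const, Nat.cast_smul_eq_nsmul]
    · intro c hc
      rw [hΩ₀, Finset.mem_filter] at hc
      obtain ⟨m, hm, hFc⟩ := hfixed c hc.2
      rw [hFc]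
      exact pow_sub_one_apply p A m hm v hv
  -- a nonzero `P`-fixed vector
  have hV : ∃ u : V, u ≠ 0 := by
    by_contra hall
    push Not at hall
    have h1 : ρ x = ρ 1 := LinearMap.ext (fun u => by rw [hall (ρ x u), hall (ρ 1 u)])
    exact hx1 (hfaith h1)
  obtain ⟨u, hu⟩ := hV
  have hex : ∃ j : ℕ, (ν ^ j) u = 0 := ⟨p ^ n, by rw [hνq, LinearMap.zero_apply]⟩
  have hj0 : Nat.find hex ≠ 0 := by
    intro h0
    have h1 := Nat.find_spec hex
    rw [h0, pow_zero, Module.End.one_apply] at h1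
    exact hu h1
  obtain ⟨j', hj'⟩ := Nat.exists_eq_succ_of_ne_zero hj0
  have hv₀ne : (ν ^ j') u ≠ 0 := Nat.find_min hex (by omega : j' < Nat.find hex)
  have hνv₀ : ν ((ν ^ j') u) = 0 := by
    have h1 := Nat.find_spec hex
    rw [hj', Nat.succ_eq_add_one, pow_succ', Module.End.mul_apply] at h1
    exact h1
  have hνpv₀ : (ν ^ p) ((ν ^ j') u) = 0 := by
    rw [← Nat.sub_add_cancel hp.one_le, pow_succ, Module.End.mul_apply, hνv₀, map_zero]
  have hT0 : T = 0 := by
    apply hschur
    refine ⟨(ν ^ j') u, hv₀ne, ?_⟩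
    rw [hkey _ hνpv₀]
    have h1 : (ν ^ (p - 1)) ((ν ^ j') u) = 0 := by
      obtain ⟨k, hk⟩ : ∃ k, p - 1 = k + 1 := ⟨p - 2, by have := hp.two_le; omega⟩
      rw [hk, pow_succ, Module.End.mul_apply, hνv₀, map_zero]
    rw [h1, smul_zero]
  have hcard : (Ω₀.card : F) ≠ 0 := by
    rw [Ne, CharP.cast_eq_zero_iff F p]
    intro hdvd
    have h1 := IsPGroup.card_modEq_card_fixedPoints (p := p) (G := ↥H) P.isPGroup' (G ⧸ H)
    have h2 : Nat.card (MulAction.fixedPoints ↥H (G ⧸ H)) = Ω₀.card := by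
      rw [Nat.card_eq_fintype_card]
      exact Fintype.card_of_subtype Ω₀ (fun c => by simp [hΩ₀, MulAction.mem_fixedPoints])
    have h3 : Nat.card (G ⧸ H) = H.index := rfl
    rw [h2, h3] at h1
    have h4 : p ∣ H.index :=
      Nat.modEq_zero_iff_dvd.mp (h1.trans (Nat.modEq_zero_iff_dvd.mpr hdvd))
    exact P.not_dvd_index h4
  have hker : ∀ v : V, (ν ^ p) v = 0 → (ν ^ (p - 1)) v = 0 := by
    intro v hv
    have h1 := hkey v hv
    rw [hT0, LinearMap.zero_apply] at h1
    exact (smul_eq_zero.mp h1.symm).resolve_left hcard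
  have hdesc : ∀ m : ℕ, ν ^ (p - 1 + m) = 0 → ν ^ (p - 1) = 0 := by
    intro m
    induction m with
    | zero => intro h; simpa using h
    | succ m ih =>
      intro h
      apply ih
      apply LinearMap.ext; intro u'
      rw [pow_add, Module.End.mul_apply, LinearMap.zero_apply]
      apply hker
      rw [← Module.End.mul_apply, ← pow_add]
      have h1 : p + m = p - 1 + (m + 1) := by have := hp.one_le; omega
      rw [h1, h, LinearMap.zero_apply]
  have hν1 : ν ^ (p - 1) = 0 := by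
    apply hdesc (p ^ n - (p - 1))
    rw [Nat.add_sub_cancel' (by omega : p - 1 ≤ p ^ n)]
    exact hνq
  have hν2 : ν ^ (p ^ (n - 1)) = 0 := by
    refine pow_eq_zero_of_le ?_ hν1
    calc p - 1 ≤ p := Nat.sub_le _ _
      _ = p ^ 1 := (pow_one p).symm
      _ ≤ p ^ (n - 1) := Nat.pow_le_pow_right hp.pos (by omega)
  have h3 : A ^ (p ^ (n - 1)) = 1 := by
    have h1 := congrArg (Polynomial.aeval A) (sub_one_pow_eq F p (n - 1))
    simp only [map_pow, map_sub, Polynomial.aeval_X, map_one] at h1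
    rw [← hν, hν2] at h1
    exact (sub_eq_zero.mp h1.symm)
  rw [hApow] at h3
  exact hno (hfaith (h3.trans (map_one ρ).symm))

end Cfsg.Agent.H78.TIC
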