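import Cfsg.Agent.H81.WBO
import Cfsg.Agent.H81.BlockDeg
import Cfsg.Agent.H78.FrobSchur4

/-!
# Blocks for two primes: groups without elements of order `pq` (helper78)

If `G` has no element of order `pq`, then every element is `p`-regular or `q`-regular, so the
class functions `∑_{χ ∈ B} conj (χ x) χ` (`x` `p`-singular, `B` a `p`-block) and
`∑_{ψ ∈ B'} conj (ψ y) ψ` (`y` `q`-singular, `B'` a `q`-block) have disjoint supports by weak
block orthogonality.
-/

set_option autoImplicit false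
set_option linter.unusedSectionVars false
set_option linter.style.haveILetI false

namespace Cfsg.Agent.H78

open Cfsg Cfsg.Agent.H20 Cfsg.Agent.H4

open scoped ComplexConjugate

universe u

variable {G : Type u} [Group G] [Fintype G]

attribute [local instance] Cfsg.Agent.H4.fintypeIrr

open Classical in
/-- For a `p`-block `B` and a `q`-block `B'` of a group all of whose elements are `p`-regular or
`q`-regular, `∑_{χ ∈ B ∩ B'} conj (χ x) χ(y) = 0` for `x` `p`-singular and `y` `q`-singular. -/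
theorem sum_inter_blocks_eq_zero {p q : ℕ} {Mp Mq : Ideal AlgInt} (hMp : IsPModular p Mp)
    (hMq : IsPModular q Mq) (χ₁ χ₂ : IrrCharacter G) (x y : G) (hx : p ∣ orderOf x)
    (hy : q ∣ orderOf y) (hreg : ∀ g : G, ¬ p ∣ orderOf g ∨ ¬ q ∣ orderOf g) :
    ∑ χ : IrrCharacter G, (if χ ∈ blockOf Mp (χ₁ : G → ℂ) ∧ χ ∈ blockOf Mq (χ₂ : G → ℂ)
      then conj ((χ : G → ℂ) x) * (χ : G → ℂ) y else 0) = 0 := by
  set c : IrrCharacter G → ℂ := fun χ =>
    if χ ∈ blockOf Mp (χ₁ : G → ℂ) then conj ((χ : G → ℂ) x) else 0 with hc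
  set d : IrrCharacter G → ℂ := fun χ =>
    if χ ∈ blockOf Mq (χ₂ : G → ℂ) then conj ((χ : G → ℂ) y) else 0 with hd
  set θ : G → ℂ := ∑ χ : IrrCharacter G, c χ • (χ : G → ℂ) with hθ
  set φ : G → ℂ := ∑ χ : IrrCharacter G, d χ • (χ : G → ℂ) with hφ
  have hθ0 : ∀ g : G, ¬ p ∣ orderOf g → θ g = 0 := by
    intro g hg
    have h := Cfsg.Agent.H81.wbo_one hMp χ₁ g x hg hx
    rw [finsum_mem_irr] at h
    rw [hθ, Finset.sum_apply, ← h]
    refine Finset.sum_congr rfl fun χ _ => ?_
    rw [Pi.smul_apply, smul_eq_mul, hc]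
    by_cases hm : χ ∈ blockOf Mp (χ₁ : G → ℂ)
    · simp only [hm, if_true]; ring
    · simp only [hm, if_false, zero_mul]
  have hφ0 : ∀ g : G, ¬ q ∣ orderOf g → φ g = 0 := by
    intro g hg
    have h := Cfsg.Agent.H81.wbo_one hMq χ₂ g y hg hy
    rw [finsum_mem_irr] at h
    rw [hφ, Finset.sum_apply, ← h]
    refine Finset.sum_congr rfl fun χ _ => ?_
    rw [Pi.smul_apply, smul_eq_mul, hd]
    by_cases hm : χ ∈ blockOf Mq (χ₂ : G → ℂ)
    · simp only [hm, if_true]; ring
    · simp only [hm, if_false, zero_mul]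
  have h0 : classInner θ φ = 0 := by
    unfold classInner
    rw [Finset.sum_eq_zero, mul_zero]
    intro g _
    rcases hreg g with h | h
    · rw [hθ0 g h, zero_mul]
    · rw [hφ0 g h, map_zero, mul_zero]
  have h1 : classInner θ φ = ∑ χ : IrrCharacter G, c χ * conj (d χ) := by
    rw [hθ, classInner_sum_left]
    refine Finset.sum_congr rfl fun χ _ => ?_
    rw [classInner_smul_left, hφ, classInner_sum_right]
    congr 1
    rw [Finset.sum_eq_single χ]
    · rw [classInner_smul_right, irr_inner_self, mul_one]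
    · intro ψ _ hψ
      rw [classInner_smul_right, irr_inner_ne (Ne.symm hψ), mul_zero]
    · intro h; exact absurd (Finset.mem_univ _) h
  rw [h1] at h0
  refine Eq.trans (Finset.sum_congr rfl fun χ _ => ?_) h0
  rw [hc, hd]
  by_cases h1 : χ ∈ blockOf Mp (χ₁ : G → ℂ) <;> by_cases h2 : χ ∈ blockOf Mq (χ₂ : G → ℂ) <;>
    simp [h1, h2]

omit [Fintype G] in
/-- **Brauer**: if `p ≠ q` divide `|G|` and `G` has no element of order `pq`, the principal
`p`-block and the principal `q`-block share a nonprincipal irreducible character. -/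
theorem exists_nonprincipal_in_principal_blocks [Finite G] (p q : ℕ) [Fact p.Prime]
    [Fact q.Prime] (hpq : p ≠ q) (hp : p ∣ Nat.card G) (hq : q ∣ Nat.card G)
    (hno : ∀ g : G, orderOf g ≠ p * q) (Mp Mq : Ideal AlgInt) (hMp : IsPModular p Mp)
    (hMq : IsPModular q Mq) :
    ∃ χ : IrrCharacter G, (χ : G → ℂ) ≠ (fun _ => 1) ∧ χ ∈ principalBlock Mp G ∧
      χ ∈ principalBlock Mq G := by
  classical
  letI : Fintype G := Fintype.ofFinite G
  have hpp : p.Prime := Fact.out
  have hqp : q.Prime := Fact.out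
  obtain ⟨x, hx⟩ := exists_prime_orderOf_dvd_card' p hp
  obtain ⟨y, hy⟩ := exists_prime_orderOf_dvd_card' q hq
  have hreg : ∀ g : G, ¬ p ∣ orderOf g ∨ ¬ q ∣ orderOf g := by
    intro g
    by_contra hcon
    push Not at hcon
    obtain ⟨h1, h2⟩ := hcon
    have hcop : Nat.Coprime p q := (Nat.coprime_primes hpp hqp).mpr hpq
    have hdvd : p * q ∣ orderOf g := hcop.mul_dvd_of_dvd_of_dvd h1 h2
    obtain ⟨k, hk⟩ := hdvd
    have hpos : 0 < orderOf g := orderOf_pos g
    have hkpos : 0 < k := by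
      rcases Nat.eq_zero_or_pos k with h | h
      · rw [h, mul_zero] at hk; omega
      · exact h
    have hkd : k ∣ orderOf g := ⟨p * q, by rw [hk]; ring⟩
    have := orderOf_pow_of_dvd hkpos.ne' hkd
    rw [hk, Nat.mul_div_cancel _ hkpos] at this
    exact hno _ this
  have hsum := sum_inter_blocks_eq_zero hMp hMq (trivIrr G) (trivIrr G) x y
    (by rw [hx]) (by rw [hy]) hreg
  by_contra hcon
  push Not at hcon
  have hterm : ∀ χ ∈ (Finset.univ : Finset (IrrCharacter G)), χ ≠ trivIrr G →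
      (if χ ∈ blockOf Mp ((trivIrr G : IrrCharacter G) : G → ℂ) ∧
        χ ∈ blockOf Mq ((trivIrr G : IrrCharacter G) : G → ℂ)
      then conj ((χ : G → ℂ) x) * (χ : G → ℂ) y else 0) = 0 := by
    intro χ _ hχ
    rw [if_neg]
    rintro ⟨h1, h2⟩
    have hne : (χ : G → ℂ) ≠ fun _ => 1 := by
      intro h
      apply hχ
      apply Subtype.ext
      exact h
    exact hcon χ hne h1 h2
  rw [Finset.sum_eq_single_of_mem (trivIrr G) (Finset.mem_univ _) hterm,
    if_pos ⟨Cfsg.Agent.H81.mem_blockOf_self hMp _, Cfsg.Agent.H81.mem_blockOf_self hMq _⟩] at hsum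
  simp [trivIrr_apply] at hsum

end Cfsg.Agent.H78
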